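import Cfsg.Agent.L.Lat.Pairs
/-!
The 552 minimal vectors having inner product 24 with a vector of type 3.
-/
set_option autoImplicit false
set_option maxHeartbeats 400000
namespace CfsgL.Lat
open Finset Cfsg CfsgL.Leech CfsgL.Golay CfsgL.GU CfsgL.Steiner
open scoped Pointwise

/-- octad-type vector of the fourth family -/
def vD (p : GolayPt) (O : Finset GolayPt) : GolayPt → ℤ :=
  fun i => if i = p then 3 else if i ∈ O then -1 else 1

theorem vD_mem {p : GolayPt} {O : Finset GolayPt} (hO : O ∈ octads) (hp : p ∈ O) :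
    vD p O ∈ leechLattice := by
  rw [mem_leech]
  refine ⟨1, O, fun i => if i = p then 0 else - ind O i, oct_sup hO, ?_, ?_⟩
  · have h1 : ∀ i, (if i = p then 0 else - ind O i) = - ind O i + (if i = p then 1 else 0) := by
      intro i
      by_cases h : i = p
      · rw [if_pos h, if_pos h, h, ind, if_pos hp]; norm_num
      · rw [if_neg h, if_neg h]; ring
    rw [sum_congr rfl (fun i _ => h1 i), sum_add_distrib, sum_neg_distrib, ind_sum, card_octad hO,
      sum_ite_eq' univ p, if_pos (mem_univ _)]
    decide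
  · funext i
    unfold vD vec ind
    beta_reduce
    by_cases h : i = p
    · rw [if_pos h, if_pos h, h, if_pos hp]; norm_num
    · rw [if_neg h, if_neg h]
      split_ifs <;> norm_num

theorem v1_mem (r : GolayPt) : v1 r (-3) ∈ leechLattice := odd_mem r

theorem norm_v1 (p : GolayPt) (s : ℤ) : sqNorm (v1 p s) = s ^ 2 + 23 := by
  rw [sqNorm_eq_dot, dot_v1]
  have h1 : ∑ i, v1 p s i = 23 + s := by
    unfold v1
    have : ∀ i : GolayPt, (if i = p then s else 1) = 1 + if i = p then s - 1 else 0 := by
      intro i; split_ifs <;> ring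
    rw [sum_congr rfl (fun i _ => this i), sum_add_distrib, sum_ite_eq' univ p, if_pos (mem_univ _),
      sum_const, card_univ, card_pt]
    norm_num; ring
  rw [h1]
  unfold v1
  rw [if_pos rfl]; ring

theorem norm_vD {p : GolayPt} {O : Finset GolayPt} : sqNorm (vD p O) = 32 := by
  unfold sqNorm vD
  have h1 : ∀ i : GolayPt, (if i = p then (3 : ℤ) else if i ∈ O then -1 else 1) ^ 2 =
      1 + if i = p then 8 else 0 := by
    intro i; split_ifs <;> norm_num
  rw [sum_congr rfl (fun i _ => h1 i), sum_add_distrib, sum_ite_eq' univ p, if_pos (mem_univ _),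
      sum_const, card_univ, card_pt]
  norm_num

/-- the large coordinate of an odd vector of norm 32 -/
theorem odd_shape {w : GolayPt → ℤ} (hw : w ∈ leechLattice) (hodd : ¬ (2 : ℤ) ∣ w none)
    {r : GolayPt} (hr : w r ^ 2 = 9) (h1 : ∀ i, i ≠ r → (w i = 1 ∨ w i = -1)) :
    ∃ S ∈ Sup, (∀ i, i ≠ r → w i = if i ∈ S then -1 else 1) ∧ w r = (if r ∈ S then 3 else -3) ∧
      ∑ i, w i = 24 - 2 * S.card + (if r ∈ S then 4 else -4) := by
  obtain ⟨hS, _, _⟩ := odd_iff.1 ⟨hw, hodd⟩
  have hmem : ∀ i, i ∈ pat3 w ↔ w i % 4 = 3 := by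
    intro i; unfold pat3; rw [mem_filter]; simp
  have ha : ∀ i, i ≠ r → w i = if i ∈ pat3 w then -1 else 1 := by
    intro i hi
    rcases h1 i hi with h2 | h2
    · rw [if_neg (by rw [hmem, h2]; norm_num), h2]
    · rw [if_pos (by rw [hmem, h2]; norm_num), h2]
  have hb : w r = (if r ∈ pat3 w then 3 else -3) := by
    have h3 : w r = 3 ∨ w r = -3 := sq_eq_sq_iff_eq_or_eq_neg.1 (by rw [hr]; norm_num)
    rcases h3 with h3 | h3
    · rw [if_pos (by rw [hmem, h3]; norm_num), h3]
    · rw [if_neg (by rw [hmem, h3]; norm_num), h3]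
  refine ⟨pat3 w, hS, ha, hb, ?_⟩
  have h4 : ∀ i, w i = (1 - 2 * ind (pat3 w) i) + (if i = r then (if r ∈ pat3 w then 4 else -4) else 0) := by
    intro i
    unfold ind
    by_cases hi : i = r
    · rw [hi, hb, if_pos rfl]
      split_ifs <;> norm_num
    · rw [ha i hi, if_neg hi]
      split_ifs <;> norm_num
  rw [sum_congr rfl (fun i _ => h4 i), sum_add_distrib, sum_sub_distrib, ← mul_sum, ind_sum,
    sum_ite_eq' univ r, if_pos (mem_univ _), sum_const, card_univ, card_pt]
  norm_num

theorem sup_card {S : Finset GolayPt} (hS : S ∈ Sup) :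
    S.card = 0 ∨ S.card = 8 ∨ S.card = 12 ∨ S.card = 16 ∨ S.card = 24 := card_of_mem_supports hS

/-- classification of the 552 vectors -/
theorem cls552 {x : GolayPt → ℤ} (hx : x ∈ leechLattice) (hn : sqNorm x = 32) (p : GolayPt)
    (hd : ∑ i, x i + 4 * x p = 24) :
    (∃ j, j ≠ p ∧ x = v2 p j 4 4) ∨ (∃ O ∈ octads, p ∈ O ∧ x = cv O ∅) ∨
    (∃ r, r ≠ p ∧ x = v1 r (-3)) ∨ (∃ O ∈ octads, p ∈ O ∧ x = vD p O) := by
  rcases shape32 hx hn with ⟨i, j, hij, hi, hj, h0⟩ | ⟨O, hO, h2, h0⟩ | ⟨hodd, r, hr, h1⟩
  · left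
    have hsum : ∑ k, x k = x i + x j := by
      rw [← sum_subset (subset_univ ({i, j} : Finset GolayPt))]
      · rw [sum_pair hij]
      · intro k _ hk
        rw [mem_insert, mem_singleton, not_or] at hk
        exact h0 k hk.1 hk.2
    rw [hsum] at hd
    by_cases h3 : p = i
    · subst h3
      refine ⟨j, hij.symm, ?_⟩
      have h4 : x p = 4 := by omega
      have h5 : x j = 4 := by omega
      funext k
      rw [v2_apply hij]
      split_ifs with h6 h7
      · rw [h6, h4]
      · rw [h7, h5]
      · exact h0 k h6 h7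
    · by_cases h4 : p = j
      · subst h4
        refine ⟨i, hij, ?_⟩
        have h4 : x p = 4 := by omega
        have h5 : x i = 4 := by omega
        funext k
        rw [v2_apply hij.symm]
        split_ifs with h6 h7
        · rw [h6, h4]
        · rw [h7, h5]
        · exact h0 k h7 h6
      · have := h0 p h3 h4
        omega
  · right; left
    have h8 := card_octad hO
    have hsum : ∑ k, x k = ∑ k ∈ O, x k := by
      symm
      apply sum_subset (subset_univ O)
      intro k _ hk
      exact h0 k hk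
    have hle : ∀ k ∈ O, x k ≤ 2 := by
      intro k hk
      have := h2 k hk
      omega
    have hsle : ∑ k ∈ O, x k ≤ ∑ k ∈ O, (2 : ℤ) := sum_le_sum hle
    have h16 : ∑ k ∈ O, (2 : ℤ) = 16 := by rw [sum_const, h8]; norm_num
    have hp2 : x p ≤ 2 := by
      by_cases hp : p ∈ O
      · exact hle p hp
      · rw [h0 p hp]; norm_num
    have hpO : p ∈ O := by
      by_contra hp
      have := h0 p hp
      rw [hsum, this] at hd
      omega
    have heq : ∑ k ∈ O, x k = ∑ k ∈ O, (2 : ℤ) := by omega
    have hall := (sum_eq_sum_iff_of_le hle).1 heq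
    refine ⟨O, hO, hpO, ?_⟩
    funext k
    by_cases hk : k ∈ O
    · rw [cv_mid hk (notMem_empty _)]; exact hall k hk
    · rw [cv_out hk]; exact h0 k hk
  · obtain ⟨S, hS, ha, hb, hs⟩ := odd_shape hx hodd hr h1
    rw [hs] at hd
    have hcard := sup_card hS
    by_cases hrS : r ∈ S
    · rw [if_pos hrS] at hd hb
      by_cases hpr : p = r
      · subst hpr
        rw [hb] at hd
        right; right; right
        have h8 : S.card = 8 := by omega
        refine ⟨S, mem_octads'.2 ⟨hS, h8⟩, hrS, ?_⟩
        funext i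
        unfold vD
        by_cases hi : i = p
        · rw [if_pos hi, hi, hb]
        · rw [if_neg hi]; exact ha i hi
      · have h3 := h1 p hpr
        have hpos : 0 < S.card := card_pos.2 ⟨r, hrS⟩
        exfalso
        omega
    · rw [if_neg hrS] at hd hb
      right; right; left
      by_cases hpr : p = r
      · subst hpr
        rw [hb] at hd
        omega
      · have h3 := h1 p hpr
        have h0 : S.card = 0 := by omega
        rw [card_eq_zero] at h0
        subst h0
        refine ⟨r, Ne.symm hpr, ?_⟩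
        funext i
        unfold v1
        by_cases hi : i = r
        · rw [if_pos hi, hi, hb]
        · rw [if_neg hi, ha i hi, if_neg (notMem_empty _)]

theorem sum_v1 (p : GolayPt) (s : ℤ) : ∑ i, v1 p s i = 23 + s := by
  unfold v1
  have : ∀ i : GolayPt, (if i = p then s else 1) = 1 + if i = p then s - 1 else 0 := by
    intro i; split_ifs <;> ring
  rw [sum_congr rfl (fun i _ => this i), sum_add_distrib, sum_ite_eq' univ p, if_pos (mem_univ _),
    sum_const, card_univ, card_pt]
  norm_num; ring

theorem sum_v2 {p q : GolayPt} (s t : ℤ) : ∑ i, v2 p q s t i = s + t := by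
  unfold v2
  simp only [Pi.add_apply, sum_add_distrib]
  simp

theorem sum_cv (O : Finset GolayPt) : ∑ i, cv O ∅ i = 2 * O.card := by
  have : ∀ i, cv O ∅ i = if i ∈ O then 2 else 0 := by
    intro i
    by_cases hi : i ∈ O
    · rw [if_pos hi, cv_mid hi (notMem_empty _)]
    · rw [if_neg hi, cv_out hi]
  rw [sum_congr rfl (fun i _ => this i), sum_ite_mem, univ_inter, sum_const, nsmul_eq_mul, mul_comm]

theorem sum_vD {p : GolayPt} {O : Finset GolayPt} (hp : p ∈ O) :
    ∑ i, vD p O i = 28 - 2 * O.card := by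
  unfold vD
  have h1 : ∀ i : GolayPt, (if i = p then (3 : ℤ) else if i ∈ O then -1 else 1) =
      (1 - (if i ∈ O then 2 else 0)) + if i = p then 4 else 0 := by
    intro i
    by_cases hi : i = p
    · rw [if_pos hi, if_pos hi, hi, if_pos hp]; norm_num
    · rw [if_neg hi, if_neg hi]; split_ifs <;> norm_num
  rw [sum_congr rfl (fun i _ => h1 i), sum_add_distrib, sum_sub_distrib, sum_ite_eq' univ p,
    if_pos (mem_univ _), sum_const, card_univ, card_pt, sum_ite_mem, univ_inter, sum_const]
  norm_num; ring

/-- octads through a point -/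
noncomputable def oct (p : GolayPt) : Finset (Finset GolayPt) := (bl octads).filter (fun O => p ∈ O)

theorem mem_oct {p : GolayPt} {O : Finset GolayPt} : O ∈ oct p ↔ O ∈ octads ∧ p ∈ O := by
  unfold oct; rw [mem_filter, mem_bl]

open Classical in
/-- counting in the 552 vectors -/
theorem count552 (p : GolayPt) (P : (GolayPt → ℤ) → Prop) :
    {x : GolayPt → ℤ | x ∈ leechLattice ∧ sqNorm x = 32 ∧ ∑ i, x i + 4 * x p = 24 ∧ P x}.ncard =
      ((univ.erase p).filter (fun j => P (v2 p j 4 4))).card +
      ((oct p).filter (fun O => P (cv O ∅))).card +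
      ((univ.erase p).filter (fun j => P (v1 j (-3)))).card +
      ((oct p).filter (fun O => P (vD p O))).card := by
  set A := ((univ.erase p).filter (fun j => P (v2 p j 4 4))).image (fun j => v2 p j 4 4) with hA
  set B := ((oct p).filter (fun O => P (cv O ∅))).image (fun O => cv O ∅) with hB
  set C := ((univ.erase p).filter (fun j => P (v1 j (-3)))).image (fun j => v1 j (-3)) with hC
  set D := ((oct p).filter (fun O => P (vD p O))).image (fun O => vD p O) with hD
  have hA1 : ∀ x ∈ A, x p = 4 := by
    intro x hx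
    rw [hA, mem_image] at hx
    obtain ⟨j, hj, rfl⟩ := hx
    rw [mem_filter, mem_erase] at hj
    rw [v2_apply hj.1.1.symm, if_pos rfl]
  have hB1 : ∀ x ∈ B, x p = 2 := by
    intro x hx
    rw [hB, mem_image] at hx
    obtain ⟨O, hO, rfl⟩ := hx
    rw [mem_filter, mem_oct] at hO
    exact cv_mid hO.1.2 (notMem_empty _)
  have hC1 : ∀ x ∈ C, x p = 1 := by
    intro x hx
    rw [hC, mem_image] at hx
    obtain ⟨j, hj, rfl⟩ := hx
    rw [mem_filter, mem_erase] at hj
    unfold v1
    rw [if_neg hj.1.1.symm]
  have hD1 : ∀ x ∈ D, x p = 3 := by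
    intro x hx
    rw [hD, mem_image] at hx
    obtain ⟨O, hO, rfl⟩ := hx
    unfold vD
    rw [if_pos rfl]
  have hset : {x : GolayPt → ℤ | x ∈ leechLattice ∧ sqNorm x = 32 ∧ ∑ i, x i + 4 * x p = 24 ∧ P x} =
      ((A ∪ B ∪ C ∪ D : Finset (GolayPt → ℤ)) : Set (GolayPt → ℤ)) := by
    ext x
    rw [Finset.mem_coe, mem_union, mem_union, mem_union]
    constructor
    · rintro ⟨hx, hn, hd, hP⟩
      rcases cls552 hx hn p hd with ⟨j, hj, rfl⟩ | ⟨O, hO, hp, rfl⟩ | ⟨j, hj, rfl⟩ | ⟨O, hO, hp, rfl⟩
      · left; left; left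
        exact mem_image_of_mem _ (mem_filter.2 ⟨mem_erase.2 ⟨hj, mem_univ _⟩, hP⟩)
      · left; left; right
        exact mem_image_of_mem (fun O => cv O ∅) (mem_filter.2 ⟨mem_oct.2 ⟨hO, hp⟩, hP⟩)
      · left; right
        exact mem_image_of_mem (fun j => v1 j (-3)) (mem_filter.2 ⟨mem_erase.2 ⟨hj, mem_univ _⟩, hP⟩)
      · right
        exact mem_image_of_mem _ (mem_filter.2 ⟨mem_oct.2 ⟨hO, hp⟩, hP⟩)
    · rintro (((hx | hx) | hx) | hx)
      · rw [hA, mem_image] at hx
        obtain ⟨j, hj, rfl⟩ := hx
        rw [mem_filter, mem_erase] at hj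
        refine ⟨v2_mem p j (Or.inl rfl) (Or.inl rfl), ?_, ?_, hj.2⟩
        · rw [norm_v2 hj.1.1.symm]; norm_num
        · rw [sum_v2, v2_apply hj.1.1.symm, if_pos rfl]; norm_num
      · rw [hB, mem_image] at hx
        obtain ⟨O, hO, rfl⟩ := hx
        rw [mem_filter, mem_oct] at hO
        refine ⟨cv_mem (oct_sup hO.1.1) (empty_subset _) (by simp), ?_, ?_, hO.2⟩
        · rw [norm_cv, card_octad hO.1.1]; norm_num
        · beta_reduce
          rw [sum_cv, cv_mid hO.1.2 (notMem_empty _), card_octad hO.1.1]; norm_num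
      · rw [hC, mem_image] at hx
        obtain ⟨j, hj, rfl⟩ := hx
        rw [mem_filter, mem_erase] at hj
        refine ⟨v1_mem j, ?_, ?_, hj.2⟩
        · rw [norm_v1]; norm_num
        · beta_reduce
          rw [sum_v1]
          unfold v1
          rw [if_neg hj.1.1.symm]; norm_num
      · rw [hD, mem_image] at hx
        obtain ⟨O, hO, rfl⟩ := hx
        rw [mem_filter, mem_oct] at hO
        refine ⟨vD_mem hO.1.1 hO.1.2, norm_vD, ?_, hO.2⟩
        rw [sum_vD hO.1.2, card_octad hO.1.1]
        unfold vD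
        rw [if_pos rfl]; norm_num
  rw [hset, Set.ncard_coe_finset, card_union_of_disjoint, card_union_of_disjoint,
    card_union_of_disjoint]
  · congr 1
    · congr 1
      · congr 1
        · rw [hA, card_image_of_injOn]
          intro j hj k hk hjk
          rw [mem_coe, mem_filter, mem_erase] at hj hk
          have h1 := congrFun hjk j
          beta_reduce at h1
          rw [v2_apply hj.1.1.symm, v2_apply hk.1.1.symm, if_neg hj.1.1, if_pos rfl, if_neg hj.1.1] at h1
          by_contra hne
          rw [if_neg hne] at h1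
          norm_num at h1
        · rw [hB, card_image_of_injOn]
          intro O hO O' hO' h
          ext i
          have h1 := congrFun h i
          beta_reduce at h1
          by_cases hi : i ∈ O <;> by_cases hi' : i ∈ O'
          · simp [hi, hi']
          · rw [cv_mid hi (notMem_empty _), cv_out hi'] at h1; norm_num at h1
          · rw [cv_out hi, cv_mid hi' (notMem_empty _)] at h1; norm_num at h1
          · simp [hi, hi']
      · rw [hC, card_image_of_injOn]
        intro j hj k hk hjk
        have h1 := congrFun hjk j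
        unfold v1 at h1
        beta_reduce at h1
        rw [if_pos rfl] at h1
        by_contra hne
        rw [if_neg hne] at h1
        norm_num at h1
    · rw [hD, card_image_of_injOn]
      intro O hO O' hO' h
      rw [mem_coe, mem_filter, mem_oct] at hO hO'
      ext i
      by_cases hip : i = p
      · rw [hip]; simp [hO.1.2, hO'.1.2]
      · have h1 := congrFun h i
        unfold vD at h1
        beta_reduce at h1
        rw [if_neg hip, if_neg hip] at h1
        by_cases hi : i ∈ O <;> by_cases hi' : i ∈ O' <;> simp [hi, hi'] at h1 ⊢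
  · rw [disjoint_left]
    intro x hx hx'
    have := hA1 x hx
    have := hB1 x hx'
    omega
  · rw [disjoint_left]
    intro x hx hx'
    have h3 := hC1 x hx'
    rw [mem_union] at hx
    rcases hx with h | h
    · have := hA1 x h; omega
    · have := hB1 x h; omega
  · rw [disjoint_left]
    intro x hx hx'
    have h3 := hD1 x hx'
    rw [mem_union, mem_union] at hx
    rcases hx with (h | h) | h
    · have := hA1 x h; omega
    · have := hB1 x h; omega
    · have := hC1 x h; omega

/-- instance free form -/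
theorem count552' (p : GolayPt) (P : (GolayPt → ℤ) → Prop) {A C : Finset GolayPt}
    {B D : Finset (Finset GolayPt)} (hA : ∀ j, j ∈ A ↔ j ≠ p ∧ P (v2 p j 4 4))
    (hB : ∀ O, O ∈ B ↔ (O ∈ octads ∧ p ∈ O) ∧ P (cv O ∅))
    (hC : ∀ j, j ∈ C ↔ j ≠ p ∧ P (v1 j (-3)))
    (hD : ∀ O, O ∈ D ↔ (O ∈ octads ∧ p ∈ O) ∧ P (vD p O)) :
    {x : GolayPt → ℤ | x ∈ leechLattice ∧ sqNorm x = 32 ∧ ∑ i, x i + 4 * x p = 24 ∧ P x}.ncard =
      A.card + B.card + C.card + D.card := by
  classical
  rw [count552 p P]
  congr 1
  · congr 1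
    · congr 1
      · congr 1
        ext j
        rw [mem_filter, mem_erase, hA]
        simp
      · congr 1
        ext O
        rw [mem_filter, mem_oct, hB]
    · congr 1
      ext j
      rw [mem_filter, mem_erase, hC]
      simp
  · congr 1
    ext O
    rw [mem_filter, mem_oct, hD]

/-- octads through `A` avoiding `R` -/
theorem card_oct (A R : Finset GolayPt) (hd : Disjoint A R) (hn : A.card + R.card ≤ 5) :
    (ex octads A R).card = tri t24 A.card R.card := card_ex24 card_pt steiner hd hn

end CfsgL.Lat
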