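import Cfsg.Agent.L.Lat.Pairs
/-!
Center of `Co0`; generation by minimal vectors.
-/
set_option autoImplicit false
set_option maxHeartbeats 400000
namespace CfsgL.Lat
open Finset Cfsg CfsgL.Leech CfsgL.Golay CfsgL.GU
open scoped Pointwise

theorem d4_of {K : AddSubgroup (GolayPt → ℤ)}
    (h : ∀ i j, i ≠ j → v2 i j 4 4 ∈ K) (h' : ∀ i j, i ≠ j → v2 i j 4 (-4) ∈ K)
    (z : GolayPt → ℤ) (hz : (2 : ℤ) ∣ ∑ i, z i) : (fun i => 4 * z i) ∈ K := by
  obtain ⟨k, hk⟩ := hz
  set p : GolayPt := none with hp
  have hpq : p ≠ some 0 := by decide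
  have h8 : (Pi.single p 8 : GolayPt → ℤ) ∈ K := by
    have := K.add_mem (h p (some 0) hpq) (h' p (some 0) hpq)
    convert this using 1
    funext i
    rw [Pi.add_apply, v2_apply hpq, v2_apply hpq, Pi.single_apply]
    split_ifs <;> norm_num
  have h1 : (fun i => 4 * z i) = (∑ i, z i • (Pi.single i 4 - Pi.single p 4 : GolayPt → ℤ)) +
      k • (Pi.single p 8 : GolayPt → ℤ) := by
    funext j
    have e1 : (∑ i, z i • (Pi.single i 4 - Pi.single p 4 : GolayPt → ℤ)) j =
        ∑ i, (z i * (Pi.single i 4 : GolayPt → ℤ) j - z i * (Pi.single p 4 : GolayPt → ℤ) j) := by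
      rw [Finset.sum_apply]
      apply sum_congr rfl
      intro i _
      rw [Pi.smul_apply, Pi.sub_apply, smul_eq_mul]; ring
    rw [Pi.add_apply, e1, sum_sub_distrib, ← sum_mul, hk, Pi.smul_apply, smul_eq_mul]
    have e2 : ∑ i, z i * (Pi.single i 4 : GolayPt → ℤ) j = z j * 4 := by
      rw [sum_eq_single j]
      · rw [Pi.single_eq_same]
      · intro i _ hi
        rw [Pi.single_eq_of_ne (Ne.symm hi), mul_zero]
      · intro h; exact absurd (mem_univ _) h
    rw [e2]
    simp only [Pi.single_apply]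
    split_ifs <;> ring
  rw [h1]
  refine K.add_mem (K.sum_mem fun i _ => K.zsmul_mem ?_ _) (K.zsmul_mem h8 _)
  by_cases hip : i = p
  · rw [hip, sub_self]; exact K.zero_mem
  · have := h' i p hip
    rw [v2, Pi.single_neg, ← sub_eq_add_neg] at this
    exact this

/-- an additive subgroup of the lattice containing all minimal vectors is everything -/
theorem leech_le {K : AddSubgroup (GolayPt → ℤ)}
    (h : ∀ x ∈ leechLattice, sqNorm x = 32 → x ∈ K) : leechLattice ≤ K := by
  have hd4 := d4_of (K := K) (fun i j hij => h _ (v2_mem i j (Or.inl rfl) (Or.inl rfl)) (by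
      rw [norm_v2 hij]; norm_num)) (fun i j hij => h _ (v2_mem i j (Or.inl rfl) (Or.inr rfl)) (by
      rw [norm_v2 hij]; norm_num))
  have hadd : ∀ C ∈ Sup, ∀ D ∈ Sup, (fun i => 2 * ind C i) ∈ K → (fun i => 2 * ind D i) ∈ K →
      (fun i => 2 * ind (symmDiff C D) i) ∈ K := by
    intro C hC D hD h1 h2
    have h3 := hd4 (fun i => ind (C ∩ D) i) (by
      rw [ind_sum]
      have := even_inter_card hC hD
      obtain ⟨k, hk⟩ := this
      rw [hk]; exact ⟨k, by push_cast; ring⟩)
    have h4 := K.sub_mem (K.add_mem h1 h2) h3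
    convert h4 using 1
    funext i
    rw [Pi.sub_apply, Pi.add_apply]
    beta_reduce
    unfold ind
    by_cases h5 : i ∈ C <;> by_cases h6 : i ∈ D <;> simp [Finset.mem_symmDiff, h5, h6]
  let W : Submodule (ZMod 2) (GolayPt → ZMod 2) :=
    { carrier := {w | support₂ w ∈ Sup ∧ (fun i => 2 * ind (support₂ w) i) ∈ K}
      zero_mem' := by
        have h0 : support₂ (0 : GolayPt → ZMod 2) = ∅ := by
          unfold support₂; simp
        show support₂ (0 : GolayPt → ZMod 2) ∈ Sup ∧ _
        rw [h0]
        refine ⟨empty_mem, ?_⟩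
        have : (fun i => 2 * ind ∅ i) = (0 : GolayPt → ℤ) := by
          funext i; unfold ind; rw [if_neg (notMem_empty _)]; rfl
        rw [this]; exact K.zero_mem
      add_mem' := by
        rintro v w ⟨h1, h2⟩ ⟨h3, h4⟩
        have h5 : support₂ (v + w) = symmDiff (support₂ v) (support₂ w) := by
          ext i
          have h01 : ∀ a b : ZMod 2, a + b ≠ 0 ↔ (a ≠ 0 ∧ ¬ b ≠ 0 ∨ b ≠ 0 ∧ ¬ a ≠ 0) := by decide
          unfold support₂
          rw [mem_symmDiff, mem_filter, mem_filter, mem_filter, Pi.add_apply]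
          simp only [mem_univ, true_and]
          exact h01 _ _
        show support₂ (v + w) ∈ Sup ∧ _
        rw [h5]
        exact ⟨sup_symmDiff h1 h3, hadd _ h1 _ h3 h2 h4⟩
      smul_mem' := by
        rintro a v ⟨h1, h2⟩
        have h01 : a = 0 ∨ a = 1 := by revert a; decide
        rcases h01 with rfl | rfl
        · rw [zero_smul]
          have h0 : support₂ (0 : GolayPt → ZMod 2) = ∅ := by
            unfold support₂; simp
          show support₂ (0 : GolayPt → ZMod 2) ∈ Sup ∧ _
          rw [h0]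
          refine ⟨empty_mem, ?_⟩
          have : (fun i => 2 * ind ∅ i) = (0 : GolayPt → ℤ) := by
            funext i; unfold ind; rw [if_neg (notMem_empty _)]; rfl
          rw [this]; exact K.zero_mem
        · rw [one_smul]; exact ⟨h1, h2⟩ }
  have hbas : ∀ b ∈ Bas, wordOf b ∈ W := by
    intro b hb
    obtain ⟨h1, h2, h3⟩ := bas_octads b hb
    have hbo : mset b ∈ octads := mem_octads_mset h2 h3
    show support₂ (wordOf b) ∈ Sup ∧ _
    rw [support₂_wordOf]
    refine ⟨oct_sup hbo, ?_⟩
    have h1 := h _ (cv_mem (oct_sup hbo) (empty_subset _) (by simp)) (by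
      rw [norm_cv, card_octad hbo]; norm_num)
    convert h1 using 1
    funext i
    unfold ind cv
    split_ifs with h2 h3
    · exact absurd h3 (notMem_empty _)
    · norm_num
    · norm_num
  have hcode : ∀ C ∈ Sup, (fun i => 2 * ind C i) ∈ K := by
    intro C hC
    obtain ⟨x, hx, rfl⟩ := mem_supports.1 hC
    have h1 : wordOf (enc x) ∈ W := wordOf_encL_mem W Bas hbas x
    have h2 : support₂ (wordOf (enc x)) ∈ Sup ∧ (fun i => 2 * ind (support₂ (wordOf (enc x))) i) ∈ K := h1
    rw [support₂_wordOf] at h2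
    exact h2.2
  intro x hx
  obtain ⟨m, C, z, hC, hz, rfl⟩ := mem_leech.1 hx
  have h1 := h _ (odd_mem none) (by
    have : (fun i => if i = none then (-3 : ℤ) else 1) = v1 none (-3) := rfl
    rw [this]
    have h2 : sqNorm (v1 none (-3)) = dotInt (v1 none (-3)) (v1 none (-3)) := sqNorm_eq_dot _
    rw [h2, dot_v1]
    have h3 : ∑ i, v1 none (-3) i = 20 := by
      unfold v1
      have : ∀ i : GolayPt, (if i = none then (-3 : ℤ) else 1) = 1 + if i = none then -4 else 0 := by
        intro i; split_ifs <;> norm_num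
      rw [sum_congr rfl (fun i _ => this i), sum_add_distrib, sum_ite_eq' univ none, if_pos (mem_univ _),
        sum_const, card_univ, card_pt]
      norm_num
    rw [h3]; unfold v1; rw [if_pos rfl]; norm_num)
  have h2 := hcode C hC
  have h3 := hd4 (fun i => z i + m * (Pi.single none 1 : GolayPt → ℤ) i) (by
    rw [sum_add_distrib, ← mul_sum]
    have : ∑ i, (Pi.single none 1 : GolayPt → ℤ) i = 1 := by simp
    rw [this]
    unfold Int.ModEq at hz
    omega)
  have h4 := K.add_mem (K.add_mem (K.zsmul_mem h1 m) h2) h3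
  convert h4 using 1
  funext i
  unfold vec
  rw [Pi.add_apply, Pi.add_apply, Pi.smul_apply, smul_eq_mul]
  beta_reduce
  rw [Pi.single_apply]
  split_ifs <;> ring

theorem closure_min : AddSubgroup.closure {x : GolayPt → ℤ | x ∈ leechLattice ∧ sqNorm x = 32} =
    leechLattice := by
  apply le_antisymm
  · rw [AddSubgroup.closure_le]
    rintro x ⟨hx, _⟩; exact hx
  · apply leech_le
    intro x hx hn
    exact AddSubgroup.subset_closure ⟨hx, hn⟩

/-- negation -/
def negCo : Co0 := mkCo (AddEquiv.neg leechLattice) (fun v => by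
  show sqNorm (-v.1) = sqNorm v.1
  unfold sqNorm
  apply sum_congr rfl
  intro i _
  rw [Pi.neg_apply]; ring)

theorem negCo_smul (v : leechLattice) : negCo • v = -v := rfl

theorem co_ext {g h : Co0} (H : ∀ v : leechLattice, g • v = h • v) : g = h :=
  Subtype.ext (Equiv.ext H)

theorem negCo_ne : negCo ≠ 1 := by
  intro h
  have h1 : negCo • e8 none = (1 : Co0) • e8 none := by rw [h]
  rw [one_smul, negCo_smul] at h1
  exact neg_e8_ne _ _ h1

theorem negCo_comm (g : Co0) : g * negCo = negCo * g := by
  apply co_ext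
  intro v
  rw [mul_smul, mul_smul, negCo_smul, negCo_smul, co_neg]

/-- maps agreeing on minimal vectors -/
theorem co_ext_min {g h : Co0} (H : ∀ v : leechLattice, sqNorm v.1 = 32 → g • v = h • v) : g = h := by
  apply co_ext
  let K : AddSubgroup (GolayPt → ℤ) := AddSubgroup.map leechLattice.subtype
    ((cohom g).eqLocus (cohom h))
  have h1 : leechLattice ≤ K := by
    apply leech_le
    intro x hx hn
    exact ⟨⟨x, hx⟩, H ⟨x, hx⟩ hn, rfl⟩
  intro v
  obtain ⟨w, hw, hwv⟩ := h1 v.2
  have : w = v := Subtype.ext hwv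
  rw [← this]; exact hw

/-- elements acting trivially modulo 2 -/
theorem trivial_mod_two {g : Co0} (hg : ∀ v : leechLattice, ∃ w : leechLattice, g • v - v = w + w) :
    g = 1 ∨ g = negCo := by
  have hstd : ∀ v : leechLattice, v.1 ∈ stdCross → (g • v).1 ∈ stdCross := by
    intro v hv
    rw [std_iff _ none] at hv ⊢
    obtain ⟨hn, z, hz⟩ := hv
    obtain ⟨w, hw⟩ := hg v
    refine ⟨by rw [co_norm]; exact hn, z - w, ?_⟩
    have : e8 none - g • v = (e8 none - v) - (g • v - v) := by abel
    rw [this, hz, hw]; abel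
  obtain ⟨σ, c, rfl⟩ := mono_of hstd
  have hmin : ∀ v : leechLattice, sqNorm v.1 = 32 → mono σ c • v = v ∨ mono σ c • v = -v := by
    intro v hv
    obtain ⟨w, hw⟩ := hg v
    by_contra hno
    rw [not_or] at hno
    have h1 := bb_self v
    have h2 := bb_self (mono σ c • v)
    rw [co_norm] at h2
    have h3 := rl.same_class hw (by omega) (by omega) hno.1 hno.2
    omega
  -- the permutation is trivial
  have hpair : ∀ p q : GolayPt, p ≠ q → σ.1 p = p ∨ σ.1 p = q := by
    intro p q hpq
    by_contra hno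
    rw [not_or] at hno
    have h1 := hmin (w2 p q 4 4 (Or.inl rfl) (Or.inl rfl)) (by
      show sqNorm (v2 p q 4 4) = 32
      rw [norm_v2 hpq]; norm_num)
    have h2 := mono_at σ c (w2 p q 4 4 (Or.inl rfl) (Or.inl rfl)) p
    have h3 : (w2 p q 4 4 (Or.inl rfl) (Or.inl rfl)).1 (σ.1 p) = 0 := by
      show v2 p q 4 4 (σ.1 p) = 0
      rw [v2_apply hpq, if_neg hno.1, if_neg hno.2]
    have h4 : (w2 p q 4 4 (Or.inl rfl) (Or.inl rfl)).1 p = 4 := by
      show v2 p q 4 4 p = 4
      rw [v2_apply hpq, if_pos rfl]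
    rw [h4] at h2
    rcases h1 with h1 | h1
    · rw [h1, h3] at h2; split_ifs at h2 <;> omega
    · rw [h1] at h2
      have h5 : (-(w2 p q 4 4 (Or.inl rfl) (Or.inl rfl))).1 (σ.1 p) = 0 := by
        show -(w2 p q 4 4 (Or.inl rfl) (Or.inl rfl)).1 (σ.1 p) = 0
        rw [h3]; norm_num
      rw [h5] at h2; split_ifs at h2 <;> omega
  have hσ : ∀ p, σ.1 p = p := by
    intro p
    obtain ⟨a, b, d, hab, had, hbd⟩ := two_pts'
    by_contra hno
    -- choose two different points different from p
    obtain ⟨x, y, hx, hy, hxy⟩ : ∃ x y, p ≠ x ∧ p ≠ y ∧ x ≠ y := by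
      by_cases h1 : p = a
      · exact ⟨b, d, by rw [h1]; exact hab, by rw [h1]; exact had, hbd⟩
      · by_cases h2 : p = b
        · exact ⟨a, d, h1, by rw [h2]; exact hbd, had⟩
        · exact ⟨a, b, h1, h2, hab⟩
    have h3 := (hpair p x hx).resolve_left hno
    have h4 := (hpair p y hy).resolve_left hno
    exact hxy (h3.symm.trans h4)
  have hc : ∀ p q, p ∈ c.1 → q ∈ c.1 := by
    intro p q hp
    by_contra hq
    have hpq : p ≠ q := by rintro rfl; exact hq hp
    have h1 := hmin (w2 p q 4 4 (Or.inl rfl) (Or.inl rfl)) (by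
      show sqNorm (v2 p q 4 4) = 32
      rw [norm_v2 hpq]; norm_num)
    have h2 := mono_at σ c (w2 p q 4 4 (Or.inl rfl) (Or.inl rfl)) p
    have h3 := mono_at σ c (w2 p q 4 4 (Or.inl rfl) (Or.inl rfl)) q
    have h4 : (w2 p q 4 4 (Or.inl rfl) (Or.inl rfl)).1 p = 4 := by
      show v2 p q 4 4 p = 4
      rw [v2_apply hpq, if_pos rfl]
    have h5 : (w2 p q 4 4 (Or.inl rfl) (Or.inl rfl)).1 q = 4 := by
      show v2 p q 4 4 q = 4
      rw [v2_apply hpq, if_neg hpq.symm, if_pos rfl]
    rw [hσ, if_pos hp, h4] at h2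
    rw [hσ, if_neg hq, h5] at h3
    rcases h1 with h1 | h1
    · rw [h1, h4] at h2; omega
    · rw [h1] at h3
      have h6 : (-(w2 p q 4 4 (Or.inl rfl) (Or.inl rfl))).1 q = -4 := by
        show -(w2 p q 4 4 (Or.inl rfl) (Or.inl rfl)).1 q = -4
        rw [h5]
      rw [h6] at h3; omega
  by_cases hne : (none : GolayPt) ∈ c.1
  · right
    apply co_ext
    intro v
    apply Subtype.ext
    funext i
    have h1 := mono_at σ c v i
    rw [hσ, if_pos (hc none i hne)] at h1
    rw [h1]; rfl
  · left
    apply co_ext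
    intro v
    apply Subtype.ext
    funext i
    have h1 := mono_at σ c v i
    rw [hσ, if_neg (fun h => hne (hc i none h))] at h1
    rw [h1, one_smul]

theorem e8_same (i : GolayPt) : (e8 i).1 i = 8 := Pi.single_eq_same _ _
theorem e8_ne {i j : GolayPt} (h : j ≠ i) : (e8 i).1 j = 0 := Pi.single_eq_of_ne h _

theorem center_iff {g : Co0} : g ∈ Subgroup.center Co0 ↔ g = 1 ∨ g = negCo := by
  constructor
  · intro hg
    rw [Subgroup.mem_center_iff] at hg
    -- g commutes with sign changes
    have hfix : ∀ i : GolayPt, ∃ s : ℤ, (s = 1 ∨ s = -1) ∧ g • e8 i = s • e8 i := by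
      intro i
      have h1 : ∀ j, j ≠ i → (g • e8 i).1 j = 0 := by
        intro j hj
        obtain ⟨c, hc⟩ := sup_restrict7 (F := {i, j}) (A := {j}) (by simp) (card_le_two.trans (by norm_num))
        have hjc : j ∈ c.1 := by
          have : j ∈ c.1 ∩ {i, j} := by rw [hc]; simp
          exact (mem_inter.1 this).1
        have hic : i ∉ c.1 := by
          intro hi
          have : i ∈ c.1 ∩ {i, j} := by simp [hi]
          rw [hc, mem_singleton] at this
          exact hj this.symm
        have h2 := hg (sg c)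
        have h3 : (sg c * g) • e8 i = (g * sg c) • e8 i := by rw [h2]
        rw [mul_smul, mul_smul] at h3
        have h4 : sg c • e8 i = e8 i := by
          have := (mono_fix_iff 1 c i).2 ⟨rfl, hic⟩
          exact this
        rw [h4] at h3
        have h5 := sg_at c (g • e8 i) j
        rw [h3, if_pos hjc] at h5
        omega
      have h2 := co_norm g (e8 i)
      rw [norm_e8] at h2
      unfold sqNorm at h2
      rw [sum_eq_single i (fun j _ hj => by rw [h1 j hj]; norm_num) (fun h => absurd (mem_univ _) h)] at h2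
      have h3 : (g • e8 i).1 i = 8 ∨ (g • e8 i).1 i = -8 :=
        sq_eq_sq_iff_eq_or_eq_neg.1 (by rw [h2]; norm_num)
      rcases h3 with h3 | h3
      · refine ⟨1, Or.inl rfl, Subtype.ext ?_⟩
        rw [one_smul]
        funext j
        by_cases hj : j = i
        · rw [hj, h3, e8_same]
        · rw [h1 j hj, e8_ne hj]
      · refine ⟨-1, Or.inr rfl, Subtype.ext ?_⟩
        rw [neg_one_smul]
        funext j
        show _ = -((e8 i).1 j)
        by_cases hj : j = i
        · rw [hj, h3, e8_same]
        · rw [h1 j hj, e8_ne hj]; norm_num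
    obtain ⟨s, hs, hs0⟩ := hfix none
    -- all vectors of norm 64 are multiplied by s
    have h64 : ∀ v : leechLattice, sqNorm v.1 = 64 → g • v = s • v := by
      intro v hv
      obtain ⟨k, hk⟩ := trans64 v hv none
      have h1 : k • v = e8 none := Subtype.ext hk
      have h2 : v = k⁻¹ • e8 none := by rw [← h1, inv_smul_smul]
      rw [h2, ← mul_smul, ← hg k⁻¹, mul_smul, hs0, co_zsmul]
    have hall : ∀ v : leechLattice, g • v = s • v := by
      intro v
      apply Subtype.ext
      funext i
      have h1 := co_dot g v (e8 i)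
      rw [h64 (e8 i) (norm_e8 i)] at h1
      have h2 : dotInt (g • v).1 (s • e8 i).1 = s * dotInt (g • v).1 (e8 i).1 := by
        have : (s • e8 i).1 = s • (e8 i).1 := rfl
        rw [this]
        unfold dotInt
        rw [mul_sum]
        apply sum_congr rfl
        intro j _
        rw [Pi.smul_apply, smul_eq_mul]; ring
      rw [h2, dot_e8, dot_e8] at h1
      show (g • v).1 i = s * v.1 i
      rcases hs with rfl | rfl <;> omega
    rcases hs with rfl | rfl
    · left
      apply co_ext
      intro v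
      rw [hall, one_smul, one_smul]
    · right
      apply co_ext
      intro v
      rw [hall, negCo_smul, neg_one_smul]
  · rintro (rfl | rfl)
    · exact Subgroup.one_mem _
    · rw [Subgroup.mem_center_iff]
      exact negCo_comm

theorem card_center : Nat.card (Subgroup.center Co0) = 2 := by
  have h1 : (Subgroup.center Co0 : Set Co0) = {1, negCo} := by
    ext g
    rw [SetLike.mem_coe, center_iff]
    rfl
  have h2 : Nat.card (Subgroup.center Co0) = (Subgroup.center Co0 : Set Co0).ncard := rfl
  rw [h2, h1, Set.ncard_pair negCo_ne.symm]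

end CfsgL.Lat
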