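import Cfsg.Agent.L.Lat.RL
/-!
Classes modulo 2 of a lattice with the Leech counts.
-/
set_option autoImplicit false
set_option maxHeartbeats 400000
namespace CfsgL.Lat
open Finset

variable {ι : Type*} [Fintype ι] {Λ : AddSubgroup (ι → ℤ)} {b : Λ → Λ → ℤ}

/-- the projection -/
def pi (Λ : AddSubgroup (ι → ℤ)) : Λ → Λ ⧸ dbl Λ := fun x => (x : Λ ⧸ dbl Λ)

theorem pi_eq {x y : Λ} : pi Λ x = pi Λ y ↔ ∃ z, x - y = z + z := by
  unfold pi
  rw [QuotientAddGroup.eq_iff_sub_mem, mem_dbl]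

theorem pi_neg (x : Λ) : pi Λ (-x) = pi Λ x := by
  rw [pi_eq]
  exact ⟨-x, by abel⟩

theorem card_quot (h : IsRL Λ b) : Nat.card (Λ ⧸ dbl Λ) = 2 ^ 24 := index_dbl h

theorem fin_quot (h : IsRL Λ b) : Finite (Λ ⧸ dbl Λ) := by
  apply Nat.finite_of_card_ne_zero
  rw [card_quot h]
  norm_num

/-- vectors of a given norm -/
noncomputable def X (b : Λ → Λ → ℤ) (n : ℤ) (hf : {x | b x x = n}.Finite) : Finset Λ := hf.toFinset

theorem mem_X {n : ℤ} {hf : {x | b x x = n}.Finite} {x : Λ} : x ∈ X b n hf ↔ b x x = n := by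
  unfold X
  rw [Set.Finite.mem_toFinset]
  rfl

theorem card_X {n : ℤ} {hf : {x | b x x = n}.Finite} {m : ℕ} (hm : {x | b x x = n}.ncard = m) :
    (X b n hf).card = m := by
  rw [← hm, Set.ncard_eq_toFinset_card _ hf]
  rfl

theorem ne_neg (h : IsRL Λ b) {x : Λ} (hx : b x x ≠ 0) : -x ≠ x := by
  intro e
  apply hx
  have h1 : b (-x) x = - b x x := h.neg_l x x
  rw [e] at h1
  omega

/-- fibres are small -/
theorem fibre2 (h : IsRL Λ b) [DecidableEq Λ] {n : ℤ} (hn : 0 < n) (hn8 : n < 8)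
    {hf : {x | b x x = n}.Finite} {x : Λ} (hx : x ∈ X b n hf) [DecidableEq (Λ ⧸ dbl Λ)] :
    ((X b n hf).filter (fun y => pi Λ y = pi Λ x)).card = 2 := by
  rw [mem_X] at hx
  have e : (X b n hf).filter (fun y => pi Λ y = pi Λ x) = {x, -x} := by
    ext y
    rw [mem_filter, mem_X, mem_insert, mem_singleton]
    constructor
    · rintro ⟨hy, hyx⟩
      obtain ⟨z, hz⟩ := pi_eq.1 hyx
      by_contra hc
      push Not at hc
      have := h.same_class hz (by omega) (by omega) hc.1 hc.2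
      omega
    · rintro (rfl | rfl)
      · exact ⟨hx, rfl⟩
      · exact ⟨by rw [h.neg_l, h.neg_r, neg_neg, hx], pi_neg x⟩
  rw [e, card_pair]
  exact (ne_neg h (by omega)).symm

theorem exists_frame_aux (h : IsRL Λ b) [DecidableEq Λ] {hf : {x | b x x = 8}.Finite} {x : Λ}
    (hx : x ∈ X b 8 hf) [DecidableEq (Λ ⧸ dbl Λ)] :
    ∃ T : Finset Λ, x ∈ T ∧ T.card ≤ 24 ∧ (X b 8 hf).filter (fun y => pi Λ y = pi Λ x) = T ∪ T.image (-·) ∧
      Disjoint T (T.image (-·)) ∧ ∀ y ∈ T, ∀ z ∈ T, y ≠ z → b y z = 0 := by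
  set F := (X b 8 hf).filter (fun y => pi Λ y = pi Λ x) with hF
  have hFm : ∀ y, y ∈ F ↔ b y y = 8 ∧ pi Λ y = pi Λ x := by
    intro y
    rw [hF, mem_filter, mem_X]
  have hxF : x ∈ F := (hFm x).2 ⟨mem_X.1 hx, rfl⟩
  have hneg : ∀ y ∈ F, -y ∈ F := by
    intro y hy
    rw [hFm] at hy ⊢
    exact ⟨by rw [h.neg_l, h.neg_r, neg_neg, hy.1], by rw [pi_neg, hy.2]⟩
  have hfix : ∀ y ∈ F, -y ≠ y := by
    intro y hy
    rw [hFm] at hy
    exact ne_neg h (by omega)
  have hxne : -x ≠ x := hfix x hxF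
  obtain ⟨T, hTs, hTd, hTU⟩ := exists_half (fun y : Λ => -y) (fun y => neg_neg y) _
    ((F.erase x).erase (-x)) rfl (by
      intro y hy
      simp only [mem_erase] at hy ⊢
      refine ⟨fun e => hy.2.1 (neg_injective e), fun e => hy.1 (by rw [← e, neg_neg]), hneg y hy.2.2⟩)
    (by
      intro y hy
      simp only [mem_erase] at hy
      exact hfix y hy.2.2)
  have hTm : ∀ y ∈ T, y ∈ F ∧ y ≠ x ∧ y ≠ -x := by
    intro y hy
    have := hTs hy
    simp only [mem_erase] at this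
    exact ⟨this.2.2, this.2.1, this.1⟩
  have hortho : ∀ y ∈ insert x T, ∀ z ∈ insert x T, y ≠ z → b y z = 0 := by
    have hmem : ∀ y ∈ insert x T, y ∈ F := by
      intro y hy
      rw [mem_insert] at hy
      rcases hy with rfl | hy
      · exact hxF
      · exact (hTm y hy).1
    intro y hy z hz hyz
    have hyF := (hFm y).1 (hmem y hy)
    have hzF := (hFm z).1 (hmem z hz)
    obtain ⟨w, hw⟩ := pi_eq.1 (hyF.2.trans hzF.2.symm)
    have hyz' : y ≠ -z := by
      intro e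
      rw [mem_insert] at hy hz
      rcases hy with rfl | hy
      · rcases hz with rfl | hz
        · exact hyz rfl
        · exact (hTm z hz).2.2 (by rw [e, neg_neg])
      · rcases hz with rfl | hz
        · exact (hTm y hy).2.2 e
        · rw [disjoint_left] at hTd
          exact hTd hy (mem_image.2 ⟨z, hz, e.symm⟩)
    exact (h.same_class hw (by omega) (by omega) hyz hyz').2.2
  refine ⟨insert x T, mem_insert_self _ _, ?_, ?_, ?_, hortho⟩
  · apply h.orth_card _ hortho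
    intro y hy e
    rw [mem_insert] at hy
    have hyF : y ∈ F := by
      rcases hy with rfl | hy
      · exact hxF
      · exact (hTm y hy).1
    rw [hFm, e, h.zero_l] at hyF
    omega
  · ext y
    have hU := Finset.ext_iff.1 hTU y
    simp only [mem_erase, mem_union] at hU
    rw [image_insert]
    simp only [mem_union, mem_insert]
    constructor
    · intro hyF
      by_cases h1 : y = x
      · tauto
      · by_cases h2 : y = -x
        · tauto
        · have := hU.1 ⟨h2, h1, hyF⟩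
          tauto
    · rintro ((rfl | h1) | (rfl | h1))
      · exact hxF
      · exact (hU.2 (Or.inl h1)).2.2
      · exact hneg x hxF
      · exact (hU.2 (Or.inr h1)).2.2
  · rw [image_insert, disjoint_insert_left, disjoint_insert_right]
    refine ⟨?_, ?_, hTd⟩
    · rw [mem_insert, not_or]
      refine ⟨hxne.symm, fun hm => ?_⟩
      rw [mem_image] at hm
      obtain ⟨y, hy, hyx⟩ := hm
      exact (hTm y hy).2.2 (by rw [← hyx, neg_neg])
    · intro hm
      exact (hTm _ hm).2.2 rfl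

theorem fibre48_le (h : IsRL Λ b) [DecidableEq Λ] {hf : {x | b x x = 8}.Finite} {x : Λ}
    (hx : x ∈ X b 8 hf) [DecidableEq (Λ ⧸ dbl Λ)] :
    ((X b 8 hf).filter (fun y => pi Λ y = pi Λ x)).card ≤ 48 := by
  obtain ⟨T, _, h24, hU, _, _⟩ := exists_frame_aux h hx
  rw [hU]
  have h1 := card_union_le T (T.image (-·))
  have h2 : (T.image (-·)).card ≤ T.card := card_image_le
  omega

/-- the class census -/
theorem classes (h : IsRL Λ b) [DecidableEq Λ] [DecidableEq (Λ ⧸ dbl Λ)]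
    (f4 : {x | b x x = 4}.Finite) (f6 : {x | b x x = 6}.Finite) (f8 : {x | b x x = 8}.Finite) :
    (∀ x, b x x = 8 → ((X b 8 f8).filter (fun y => pi Λ y = pi Λ x)).card = 48) ∧
    (∀ x : Λ, ∃ y, pi Λ y = pi Λ x ∧ b y y ≤ 8) := by
  have hfin := fin_quot h
  have hfq : Fintype (Λ ⧸ dbl Λ) := Fintype.ofFinite _
  set A4 := (X b 4 f4).image (pi Λ) with hA4
  set A6 := (X b 6 f6).image (pi Λ) with hA6
  set A8 := (X b 8 f8).image (pi Λ) with hA8
  have c4 := card_X (hf := f4) h.c4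
  have c6 := card_X (hf := f6) h.c6
  have c8 := card_X (hf := f8) h.c8
  have e4 : (X b 4 f4).card = A4.card * 2 := by
    rw [card_eq_sum_card_image (pi Λ), ← smul_eq_mul, ← sum_const]
    apply sum_congr rfl
    intro q hq
    rw [mem_image] at hq
    obtain ⟨x, hx, rfl⟩ := hq
    exact fibre2 h (by norm_num) (by norm_num) hx
  have e6 : (X b 6 f6).card = A6.card * 2 := by
    rw [card_eq_sum_card_image (pi Λ), ← smul_eq_mul, ← sum_const]
    apply sum_congr rfl
    intro q hq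
    rw [mem_image] at hq
    obtain ⟨x, hx, rfl⟩ := hq
    exact fibre2 h (by norm_num) (by norm_num) hx
  have e8 : (X b 8 f8).card = ∑ q ∈ A8, ((X b 8 f8).filter (fun y => pi Λ y = q)).card :=
    card_eq_sum_card_image (pi Λ) _
  have l8 : ∀ q ∈ A8, ((X b 8 f8).filter (fun y => pi Λ y = q)).card ≤ 48 := by
    intro q hq
    rw [hA8, mem_image] at hq
    obtain ⟨x, hx, rfl⟩ := hq
    exact fibre48_le h hx
  have hdis : ∀ x y : Λ, b x x ≤ 8 → b y y ≤ 8 → b x x ≠ b y y → pi Λ x ≠ pi Λ y := by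
    intro x y hx hy hne he
    obtain ⟨z, hz⟩ := pi_eq.1 he
    have h1 : x ≠ y := fun e => hne (by rw [e])
    have h2 : x ≠ -y := fun e => hne (by rw [e, h.neg_l, h.neg_r, neg_neg])
    have := h.same_class hz hx hy h1 h2
    omega
  have hsum : (({pi Λ 0} ∪ A4) ∪ A6 ∪ A8).card = 1 + A4.card + A6.card + A8.card := by
    rw [card_union_of_disjoint, card_union_of_disjoint, card_union_of_disjoint, card_singleton]
    · rw [disjoint_left]
      intro q hq hq'
      rw [mem_singleton] at hq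
      rw [hA4, mem_image] at hq'
      obtain ⟨y, hy, rfl⟩ := hq'
      rw [mem_X] at hy
      exact hdis y 0 (by omega) (by rw [h.zero_l]; norm_num) (by rw [hy, h.zero_l]; norm_num) hq
    · rw [disjoint_left]
      intro q hq hq'
      rw [hA6, mem_image] at hq'
      obtain ⟨y, hy, rfl⟩ := hq'
      rw [mem_X] at hy
      rw [mem_union, mem_singleton, hA4, mem_image] at hq
      rcases hq with hq | ⟨x, hx, hq⟩
      · exact hdis y 0 (by omega) (by rw [h.zero_l]; norm_num) (by rw [hy, h.zero_l]; norm_num) hq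
      · rw [mem_X] at hx
        exact hdis x y (by omega) (by omega) (by rw [hx, hy]; norm_num) hq
    · rw [disjoint_left]
      intro q hq hq'
      rw [hA8, mem_image] at hq'
      obtain ⟨y, hy, rfl⟩ := hq'
      rw [mem_X] at hy
      rw [mem_union, mem_union, mem_singleton, hA4, mem_image, hA6, mem_image] at hq
      rcases hq with (hq | ⟨x, hx, hq⟩) | ⟨x, hx, hq⟩
      · exact hdis y 0 (by omega) (by rw [h.zero_l]; norm_num) (by rw [hy, h.zero_l]; norm_num) hq
      · rw [mem_X] at hx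
        exact hdis x y (by omega) (by omega) (by rw [hx, hy]; norm_num) hq
      · rw [mem_X] at hx
        exact hdis x y (by omega) (by omega) (by rw [hx, hy]; norm_num) hq
  have hle := card_le_univ (({pi Λ 0} ∪ A4) ∪ A6 ∪ A8)
  have hQ : Fintype.card (Λ ⧸ dbl Λ) = 16777216 := by
    rw [← Nat.card_eq_fintype_card, card_quot h]; norm_num
  have hs8 : ∑ q ∈ A8, ((X b 8 f8).filter (fun y => pi Λ y = q)).card ≤ A8.card * 48 := by
    rw [← smul_eq_mul, ← sum_const]
    exact sum_le_sum l8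
  rw [hsum, hQ] at hle
  rw [c4] at e4
  rw [c6] at e6
  rw [c8] at e8
  rw [← e8] at hs8
  have hA8c : A8.card = 8292375 := by omega
  constructor
  · intro x hx
    have hxq : pi Λ x ∈ A8 := by
      rw [hA8, mem_image]
      exact ⟨x, mem_X.2 hx, rfl⟩
    have hall : ∀ q ∈ A8, ((X b 8 f8).filter (fun y => pi Λ y = q)).card = 48 := by
      have h1 : ∑ q ∈ A8, ((X b 8 f8).filter (fun y => pi Λ y = q)).card = ∑ q ∈ A8, 48 := by
        rw [← e8, sum_const, hA8c, smul_eq_mul]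
      exact (sum_eq_sum_iff_of_le l8).1 h1
    exact hall _ hxq
  · intro x
    have hU : (({pi Λ 0} ∪ A4) ∪ A6 ∪ A8) = univ := by
      rw [← card_eq_iff_eq_univ, hsum, hQ]
      omega
    have hx : pi Λ x ∈ (({pi Λ 0} ∪ A4) ∪ A6 ∪ A8) := by rw [hU]; exact mem_univ _
    rw [mem_union, mem_union, mem_union, mem_singleton, hA4, mem_image, hA6, mem_image, hA8,
      mem_image] at hx
    rcases hx with ((hx | ⟨y, hy, hyx⟩) | ⟨y, hy, hyx⟩) | ⟨y, hy, hyx⟩
    · exact ⟨0, hx.symm, by rw [h.zero_l]; norm_num⟩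
    · rw [mem_X] at hy
      exact ⟨y, hyx, by omega⟩
    · rw [mem_X] at hy
      exact ⟨y, hyx, by omega⟩
    · rw [mem_X] at hy
      exact ⟨y, hyx, by omega⟩

theorem fin_of_ncard {n : ℤ} {m : ℕ} (hm : m ≠ 0) (h : {x : Λ | b x x = n}.ncard = m) :
    {x : Λ | b x x = n}.Finite := by
  apply Set.finite_of_ncard_ne_zero
  rw [h]; exact hm

/-- every class has a short representative -/
theorem short_rep (h : IsRL Λ b) (x : Λ) : ∃ y z, x - y = z + z ∧ b y y ≤ 8 := by
  classical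
  obtain ⟨_, h2⟩ := classes h (fin_of_ncard (by norm_num) h.c4) (fin_of_ncard (by norm_num) h.c6)
    (fin_of_ncard (by norm_num) h.c8)
  obtain ⟨y, hy, hy8⟩ := h2 x
  obtain ⟨z, hz⟩ := pi_eq.1 hy.symm
  exact ⟨y, z, hz, hy8⟩

theorem class48 (h : IsRL Λ b) {x : Λ} (hx : b x x = 8) :
    {y | b y y = 8 ∧ ∃ z, x - y = z + z}.ncard = 48 := by
  classical
  obtain ⟨h1, _⟩ := classes h (fin_of_ncard (by norm_num) h.c4) (fin_of_ncard (by norm_num) h.c6)
    (fin_of_ncard (by norm_num) h.c8)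
  rw [← h1 x hx, ← Set.ncard_coe_finset]
  congr 1
  ext y
  rw [Finset.mem_coe, mem_filter, mem_X]
  constructor
  · rintro ⟨h3, h4⟩
    exact ⟨h3, (pi_eq.2 h4).symm⟩
  · rintro ⟨h3, h4⟩
    exact ⟨h3, pi_eq.1 h4.symm⟩

/-- frames -/
theorem exists_frame (h : IsRL Λ b) {x : Λ} (hx : b x x = 8) :
    ∃ T : Finset Λ, x ∈ T ∧ T.card = 24 ∧ (∀ y ∈ T, b y y = 8) ∧
      (∀ y ∈ T, ∀ z ∈ T, y ≠ z → b y z = 0) ∧ (∀ y ∈ T, ∀ z ∈ T, ∃ w, y - z = w + w) ∧
      ∀ y, b y y = 8 → (∃ z, x - y = z + z) → y ∈ T ∨ -y ∈ T := by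
  classical
  have f8 := fin_of_ncard (by norm_num) h.c8
  obtain ⟨h1, _⟩ := classes h (fin_of_ncard (by norm_num) h.c4) (fin_of_ncard (by norm_num) h.c6) f8
  obtain ⟨T, hxT, hT24, hU, hd, ho⟩ := exists_frame_aux h (hf := f8) (x := x) (mem_X.2 hx)
  have h48 := h1 x hx
  rw [hU, card_union_of_disjoint hd, card_image_of_injective _ neg_injective] at h48
  have hmem : ∀ y, y ∈ T ∪ T.image (-·) ↔ b y y = 8 ∧ pi Λ y = pi Λ x := by
    intro y
    rw [← hU, mem_filter, mem_X]
  refine ⟨T, hxT, by omega, ?_, ho, ?_, ?_⟩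
  · intro y hy
    exact ((hmem y).1 (mem_union_left _ hy)).1
  · intro y hy z hz
    have h2 := ((hmem y).1 (mem_union_left _ hy)).2
    have h3 := ((hmem z).1 (mem_union_left _ hz)).2
    exact pi_eq.1 (h2.trans h3.symm)
  · intro y hy hyz
    have := (hmem y).2 ⟨hy, (pi_eq.2 hyz).symm⟩
    rw [mem_union, mem_image] at this
    rcases this with h4 | ⟨w, hw, rfl⟩
    · exact Or.inl h4
    · right; rwa [neg_neg]

end CfsgL.Lat
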