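import Cfsg.Agent.L.Lat.Main
/-!
The automorphism group of the Leech lattice: monomial elements, transitivity on vectors of type 4,
stabiliser of the standard cross.
-/
set_option autoImplicit false
set_option maxHeartbeats 400000
namespace CfsgL.Lat
open Finset Cfsg CfsgL.Leech CfsgL.Golay
open scoped Pointwise

theorem norm_add {κ : Type*} [Fintype κ] (x y : κ → ℤ) :
    sqNorm (x + y) = sqNorm x + sqNorm y + 2 * dotInt x y := by
  unfold sqNorm dotInt
  rw [mul_sum, ← sum_add_distrib, ← sum_add_distrib]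
  apply sum_congr rfl
  intro i _
  rw [Pi.add_apply]; ring

theorem norm_sub {κ : Type*} [Fintype κ] (x y : κ → ℤ) :
    sqNorm (x - y) = sqNorm x + sqNorm y - 2 * dotInt x y := by
  unfold sqNorm dotInt
  rw [mul_sum, ← sum_add_distrib, ← sum_sub_distrib]
  apply sum_congr rfl
  intro i _
  rw [Pi.sub_apply]; ring

theorem dot_comm {κ : Type*} [Fintype κ] (x y : κ → ℤ) : dotInt x y = dotInt y x := by
  unfold dotInt
  apply sum_congr rfl
  intro i _; ring

theorem dot_add_l {κ : Type*} [Fintype κ] (x y z : κ → ℤ) :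
    dotInt (x + y) z = dotInt x z + dotInt y z := by
  unfold dotInt
  rw [← sum_add_distrib]
  apply sum_congr rfl
  intro i _
  rw [Pi.add_apply]; ring

theorem dot_dvd {x y : GolayPt → ℤ} (hx : x ∈ leechLattice) (hy : y ∈ leechLattice) :
    (8 : ℤ) ∣ dotInt x y := by
  have h1 := norm_dvd hx
  have h2 := norm_dvd hy
  have h3 := norm_dvd (leechLattice.add_mem hx hy)
  rw [norm_add] at h3
  omega

/-- the normalised form -/
def bb (x y : leechLattice) : ℤ := dotInt x.1 y.1 / 8

theorem eight_bb (x y : leechLattice) : 8 * bb x y = dotInt x.1 y.1 := by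
  have := dot_dvd x.2 y.2
  unfold bb
  omega

theorem bb_self (x : leechLattice) : 8 * bb x x = sqNorm x.1 := by
  rw [eight_bb, sqNorm_eq_dot]

theorem ncard_bb (n : ℤ) : {x : leechLattice | bb x x = n}.ncard =
    {x : GolayPt → ℤ | x ∈ leechLattice ∧ sqNorm x = 8 * n}.ncard := by
  rw [← Set.ncard_image_of_injective {x : leechLattice | bb x x = n} Subtype.val_injective]
  congr 1
  ext x
  constructor
  · rintro ⟨y, hy, rfl⟩
    refine ⟨y.2, ?_⟩
    have h1 : bb y y = n := hy
    rw [← bb_self, h1]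
  · rintro ⟨hx, hn⟩
    refine ⟨⟨x, hx⟩, ?_, rfl⟩
    have := bb_self ⟨x, hx⟩
    show bb _ _ = n
    have h2 : sqNorm x = 8 * n := hn
    change 8 * bb ⟨x, hx⟩ ⟨x, hx⟩ = sqNorm x at this
    omega

theorem rl : IsRL leechLattice bb := by
  refine ⟨card_pt, ?_, ?_, ?_, ?_, ?_, ?_, ?_, ?_, ?_⟩
  · rw [index_leech]; norm_num
  · intro x y z
    have h1 := eight_bb (x + y) z
    have h2 := eight_bb x z
    have h3 := eight_bb y z
    have h4 : dotInt (x + y : leechLattice).1 z.1 = dotInt x.1 z.1 + dotInt y.1 z.1 := dot_add_l _ _ _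
    omega
  · intro x y
    have h1 := eight_bb x y
    have h2 := eight_bb y x
    rw [dot_comm] at h1
    omega
  · intro x hx
    have h1 := bb_self x
    have h2 := norm_min x.2 (fun e => hx (Subtype.ext e))
    omega
  · intro x
    have h1 := bb_self x
    have h2 := norm_dvd x.2
    omega
  · intro x hx
    have h1 := bb_self x
    by_cases h0 : x = 0
    · rw [h0] at h1 hx
      have : sqNorm (0 : leechLattice).1 = 0 := by simp [sqNorm]
      omega
    · have h2 := norm_min x.2 (fun e => h0 (Subtype.ext e))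
      omega
  · rw [ncard_bb]; exact count32
  · rw [ncard_bb]; exact count48
  · rw [ncard_bb]; exact count64

section Co0
theorem co_add (g : Co0) (v w : leechLattice) : g • (v + w) = g • v + g • w := g.2.1 v w
theorem co_norm (g : Co0) (v : leechLattice) : sqNorm (g • v).1 = sqNorm v.1 := g.2.2 v

theorem co_dot (g : Co0) (v w : leechLattice) : dotInt (g • v).1 (g • w).1 = dotInt v.1 w.1 := by
  have h1 := co_norm g (v + w)
  rw [co_add] at h1
  have h2 : sqNorm (g • v + g • w : leechLattice).1 = _ := norm_add (g • v).1 (g • w).1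
  have h3 : sqNorm (v + w : leechLattice).1 = _ := norm_add v.1 w.1
  rw [h2, h3, co_norm, co_norm] at h1
  omega

/-- additive map -/
def cohom (g : Co0) : leechLattice →+ leechLattice where
  toFun v := g • v
  map_zero' := by
    have := co_add g 0 0
    rw [add_zero] at this
    have h2 : g • (0 : leechLattice) + 0 = g • (0 : leechLattice) + g • (0 : leechLattice) := by
      rw [add_zero]; exact this
    exact (add_left_cancel h2).symm
  map_add' := co_add g

theorem cohom_apply (g : Co0) (v : leechLattice) : cohom g v = g • v := rfl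
theorem co_zero (g : Co0) : g • (0 : leechLattice) = 0 := map_zero (cohom g)
theorem co_neg (g : Co0) (v : leechLattice) : g • (-v) = -(g • v) := map_neg (cohom g) v
theorem co_sub (g : Co0) (v w : leechLattice) : g • (v - w) = g • v - g • w := map_sub (cohom g) v w
theorem co_zsmul (g : Co0) (n : ℤ) (v : leechLattice) : g • (n • v) = n • (g • v) :=
  map_zsmul (cohom g) n v

/-- from an isometry -/
def mkCo (f : leechLattice ≃+ leechLattice) (hf : ∀ v, sqNorm (f v).1 = sqNorm v.1) : Co0 :=
  ⟨f.toEquiv, f.map_add, hf⟩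

theorem mkCo_smul (f : leechLattice ≃+ leechLattice) (hf : ∀ v, sqNorm (f v).1 = sqNorm v.1)
    (v : leechLattice) : mkCo f hf • v = f v := rfl

/-- transitivity on vectors of norm 64 -/
theorem trans64 (v : leechLattice) (hv : sqNorm v.1 = 64) (p : GolayPt) :
    ∃ g : Co0, (g • v).1 = Pi.single p 8 := by
  have h1 := bb_self v
  obtain ⟨f, hf, hfv⟩ := main rl (x0 := v) (by omega) p
  refine ⟨mkCo f (fun w => ?_), hfv⟩
  rw [sqNorm_eq_dot, hf, bb_self]

theorem signed_mem {σ : Equiv.Perm GolayPt} (hσ : σ ∈ M24) {c : Finset GolayPt} (hc : c ∈ Sup)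
    {x : GolayPt → ℤ} (hx : x ∈ leechLattice) : signedPerm σ c x ∈ leechLattice :=
  sign_mem hc (perm_mem (σ := σ⁻¹) (M24.inv_mem hσ) hx)

theorem signed_signed (σ τ : Equiv.Perm GolayPt) (c d : Finset GolayPt) (x : GolayPt → ℤ) :
    signedPerm σ c (signedPerm τ d x) = signedPerm (σ * τ) (symmDiff c (σ • d)) x := by
  funext i
  unfold signedPerm
  have h1 : σ.symm i ∈ d ↔ i ∈ σ • d := by
    rw [← Finset.inv_smul_mem_iff]; rfl
  have h2 : (σ * τ).symm i = τ.symm (σ.symm i) := rfl
  rw [h2]
  by_cases h3 : i ∈ c <;> by_cases h4 : i ∈ σ • d <;>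
    simp [Finset.mem_symmDiff, h1, h3, h4]

theorem signed_one (x : GolayPt → ℤ) : signedPerm 1 ∅ x = x := by
  funext i
  unfold signedPerm
  rw [if_neg (notMem_empty _)]
  rfl

theorem sup_symmDiff {c d : Finset GolayPt} (hc : c ∈ Sup) (hd : d ∈ Sup) : symmDiff c d ∈ Sup :=
  symmDiff_mem_supports hc hd

theorem norm_signed (σ : Equiv.Perm GolayPt) (c : Finset GolayPt) (x : GolayPt → ℤ) :
    sqNorm (signedPerm σ c x) = sqNorm x := by
  unfold sqNorm signedPerm
  rw [← Equiv.sum_comp σ.symm (fun i => x i ^ 2)]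
  apply sum_congr rfl
  intro i _
  split_ifs <;> ring

/-- monomial elements -/
def mono (σ : M24) (c : Sup) : Co0 where
  val :=
    { toFun := fun v => ⟨signedPerm σ.1 c.1 v.1, signed_mem σ.2 c.2 v.2⟩
      invFun := fun v => ⟨signedPerm σ.1⁻¹ (σ.1⁻¹ • c.1) v.1,
        signed_mem (M24.inv_mem σ.2) ((smul_mem_supports (M24.inv_mem σ.2)).2 c.2) v.2⟩
      left_inv := by
        intro v
        apply Subtype.ext
        show signedPerm σ.1⁻¹ (σ.1⁻¹ • c.1) (signedPerm σ.1 c.1 v.1) = v.1
        rw [signed_signed, symmDiff_self, inv_mul_cancel]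
        exact signed_one _
      right_inv := by
        intro v
        apply Subtype.ext
        show signedPerm σ.1 c.1 (signedPerm σ.1⁻¹ (σ.1⁻¹ • c.1) v.1) = v.1
        rw [signed_signed, smul_inv_smul, symmDiff_self, mul_inv_cancel]
        exact signed_one _ }
  property := by
    refine ⟨fun v w => Subtype.ext ?_, fun v => norm_signed _ _ _⟩
    show signedPerm σ.1 c.1 (v.1 + w.1) = signedPerm σ.1 c.1 v.1 + signedPerm σ.1 c.1 w.1
    funext i
    unfold signedPerm
    rw [Pi.add_apply]
    beta_reduce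
    rw [Pi.add_apply]
    split_ifs <;> ring

theorem mono_smul (σ : M24) (c : Sup) (v : leechLattice) :
    (mono σ c • v).1 = signedPerm σ.1 c.1 v.1 := rfl

theorem single8_mem (i : GolayPt) {s : ℤ} (hs : s = 8 ∨ s = -8) :
    (Pi.single i s : GolayPt → ℤ) ∈ leechLattice := by
  rw [mem_leech]
  refine ⟨0, ∅, Pi.single i (s / 4), empty_mem, ?_, ?_⟩
  · have : ∑ j, (Pi.single i (s / 4) : GolayPt → ℤ) j = s / 4 := by simp
    rw [this]
    rcases hs with rfl | rfl <;> decide
  · funext j
    unfold vec ind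
    by_cases hj : j = i
    · subst hj
      rw [Pi.single_eq_same, Pi.single_eq_same, if_neg (notMem_empty _)]
      rcases hs with rfl | rfl <;> norm_num
    · rw [Pi.single_eq_of_ne hj, Pi.single_eq_of_ne hj, if_neg (notMem_empty _)]; norm_num

/-- standard frame vectors -/
def e8 (i : GolayPt) : leechLattice := ⟨Pi.single i 8, single8_mem i (Or.inl rfl)⟩

theorem dot_e8 (v : leechLattice) (i : GolayPt) : dotInt v.1 (e8 i).1 = v.1 i * 8 := dot_single _ _ _

theorem norm_e8 (i : GolayPt) : sqNorm (e8 i).1 = 64 := by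
  show sqNorm (Pi.single i 8 : GolayPt → ℤ) = 64
  rw [sqNorm_single]; norm_num

theorem e8_mem_std (i : GolayPt) : (e8 i).1 ∈ stdCross := ⟨i, 8, Or.inl rfl, rfl⟩

theorem two_ind_mem {C : Finset GolayPt} (hC : C ∈ Sup) : (fun i => 2 * ind C i) ∈ leechLattice := by
  rw [mem_leech]
  refine ⟨0, C, 0, hC, by simp, ?_⟩
  funext i; unfold vec; rw [Pi.zero_apply]; ring

/-- the vector `(-3, 1, ..., 1)` -/
theorem odd_mem (p : GolayPt) : (fun i => if i = p then (-3 : ℤ) else 1) ∈ leechLattice := by
  rw [mem_leech]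
  refine ⟨1, ∅, Pi.single p (-1), empty_mem, ?_, ?_⟩
  · have : ∑ j, (Pi.single p (-1) : GolayPt → ℤ) j = -1 := by simp
    rw [this]; decide
  · funext j
    unfold vec ind
    rw [if_neg (notMem_empty _)]
    by_cases hj : j = p
    · subst hj; rw [Pi.single_eq_same, if_pos rfl]; norm_num
    · rw [Pi.single_eq_of_ne hj, if_neg hj]; norm_num

/-- the stabiliser of the standard cross -/
theorem mono_of {g : Co0} (hg : ∀ v : leechLattice, v.1 ∈ stdCross → (g • v).1 ∈ stdCross) :
    ∃ (σ : M24) (c : Sup), g = mono σ c := by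
  have h1 : ∀ i, ∃ (j : GolayPt) (s : ℤ), (s = 8 ∨ s = -8) ∧ (g • e8 i).1 = Pi.single j s :=
    fun i => hg (e8 i) (e8_mem_std i)
  choose τ s hs hgs using h1
  have hv : ∀ (v : leechLattice) i, (g • v).1 (τ i) * s i = v.1 i * 8 := by
    intro v i
    have h2 := co_dot g v (e8 i)
    rw [hgs, dot_single, dot_e8] at h2
    exact h2
  have hinj : Function.Injective τ := by
    intro i j hij
    by_contra hne
    have h3 := hv (e8 j) i
    rw [hgs, ← hij, Pi.single_eq_same] at h3
    have h4 : (e8 j).1 i = 0 := Pi.single_eq_of_ne hne _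
    rw [h4] at h3
    have a1 := hs i
    have a2 := hs j
    rcases a1 with a1 | a1 <;> rcases a2 with a2 | a2 <;> rw [a1, a2] at h3 <;> norm_num at h3
  have hbij : Function.Bijective τ := (Fintype.bijective_iff_injective_and_card τ).2 ⟨hinj, rfl⟩
  set σ : Equiv.Perm GolayPt := Equiv.ofBijective τ hbij with hσ
  have hσi : ∀ i, σ i = τ i := fun i => rfl
  set c : Finset GolayPt := univ.filter (fun j => s (σ.symm j) = -8) with hc
  have hgv : ∀ v : leechLattice, (g • v).1 = signedPerm σ c v.1 := by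
    intro v
    funext j
    obtain ⟨i, rfl⟩ := σ.surjective j
    have h2 := hv v i
    unfold signedPerm
    have h3 : σ i ∈ c ↔ s i = -8 := by
      rw [hc, mem_filter, σ.symm_apply_apply]; simp
    rw [σ.symm_apply_apply, hσi]
    rw [hσi] at h3
    split_ifs with h4
    · rw [h3.1 h4] at h2; omega
    · rcases hs i with h5 | h5
      · rw [h5] at h2; omega
      · exact absurd (h3.2 h5) h4
  have hσM : σ ∈ M24 := by
    rw [mem_M24_iff]
    intro C hC
    have h2 : (signedPerm σ c (fun i => 2 * ind C i)) ∈ leechLattice := by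
      have := (g • (⟨_, two_ind_mem hC⟩ : leechLattice)).2
      rw [hgv] at this
      exact this
    have h3 : signedPerm σ c (fun i => 2 * ind C i) = fun j => 2 * (if j ∈ c then - ind C (σ.symm j) else ind C (σ.symm j)) := by
      funext j
      unfold signedPerm
      split_ifs <;> ring
    rw [h3, even_iff] at h2
    have h4 : patO (fun j => if j ∈ c then - ind C (σ.symm j) else ind C (σ.symm j)) = σ • C := by
      ext j
      have h5 : σ.symm j ∈ C ↔ j ∈ σ • C := by
        rw [← Finset.inv_smul_mem_iff]; rfl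
      unfold patO ind
      rw [mem_filter, ← h5]
      by_cases h6 : σ.symm j ∈ C <;> by_cases h7 : j ∈ c <;> simp [h6, h7]
    rw [← h4]
    exact h2.1
  have hcS : c ∈ Sup := by
    have h2 : (signedPerm σ c (fun i => if i = none then (-3 : ℤ) else 1)) ∈ leechLattice := by
      have := (g • (⟨_, odd_mem none⟩ : leechLattice)).2
      rw [hgv] at this
      exact this
    have h3 := (odd_iff.1 ⟨h2, ?_⟩).1
    · have h4 : pat3 (signedPerm σ c (fun i => if i = none then (-3 : ℤ) else 1)) = c := by
        ext j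
        unfold pat3 signedPerm
        rw [mem_filter]
        by_cases h6 : σ.symm j = none <;> by_cases h7 : j ∈ c <;> simp [h6, h7]
      rw [h4] at h3
      exact h3
    · unfold signedPerm
      beta_reduce
      split_ifs <;> omega
  refine ⟨⟨σ, hσM⟩, ⟨c, hcS⟩, ?_⟩
  apply Subtype.ext
  apply Equiv.ext
  intro v
  apply Subtype.ext
  exact hgv v

theorem mono_std (σ : M24) (c : Sup) (v : leechLattice) (hv : v.1 ∈ stdCross) :
    (mono σ c • v).1 ∈ stdCross := by
  obtain ⟨i, s, hs, hv⟩ := hv
  refine ⟨σ.1 i, if σ.1 i ∈ c.1 then -s else s, ?_, ?_⟩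
  · split_ifs <;> omega
  · rw [mono_smul, hv]
    funext j
    unfold signedPerm
    by_cases hj : j = σ.1 i
    · rw [hj, Pi.single_eq_same, Equiv.symm_apply_apply, Pi.single_eq_same]
    · rw [Pi.single_eq_of_ne hj, Pi.single_eq_of_ne]
      · simp
      · intro e
        apply hj
        rw [← e, Equiv.apply_symm_apply]

theorem signed_inj {σ τ : Equiv.Perm GolayPt} {c d : Finset GolayPt}
    (h : ∀ v : leechLattice, signedPerm σ c v.1 = signedPerm τ d v.1) : σ = τ ∧ c = d := by
  have h1 : ∀ i, σ i = τ i := by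
    intro i
    by_contra hne
    have h2 := congrFun (h (e8 i)) (σ i)
    unfold signedPerm at h2
    rw [Equiv.symm_apply_apply] at h2
    have h3 : (e8 i).1 (τ.symm (σ i)) = 0 := by
      apply Pi.single_eq_of_ne
      intro e
      apply hne
      have := congrArg τ e
      rw [Equiv.apply_symm_apply] at this
      exact this
    have h4 : (e8 i).1 i = 8 := Pi.single_eq_same _ _
    rw [h3, h4] at h2
    split_ifs at h2 <;> omega
  have h5 : σ = τ := Equiv.ext h1
  subst h5
  refine ⟨rfl, ?_⟩
  ext j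
  have h2 := congrFun (h (e8 (σ.symm j))) j
  unfold signedPerm at h2
  have h4 : (e8 (σ.symm j)).1 (σ.symm j) = 8 := Pi.single_eq_same _ _
  rw [h4] at h2
  by_cases h6 : j ∈ c <;> by_cases h7 : j ∈ d <;> simp [h6, h7] at h2 ⊢

theorem mono_inj {σ τ : M24} {c d : Sup} (h : mono σ c = mono τ d) : σ = τ ∧ c = d := by
  have h1 : ∀ v : leechLattice, signedPerm σ.1 c.1 v.1 = signedPerm τ.1 d.1 v.1 := by
    intro v
    rw [← mono_smul, ← mono_smul, h]
  obtain ⟨h2, h3⟩ := signed_inj h1
  exact ⟨Subtype.ext h2, Subtype.ext h3⟩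

end Co0
end CfsgL.Lat
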