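import Cfsg.Agent.L.Lat.Co
/-!
Order of `Co0`, its center, transitivity on vectors of types 2 and 3.
-/
set_option autoImplicit false
set_option maxHeartbeats 400000
namespace CfsgL.Lat
open Finset Cfsg CfsgL.Leech CfsgL.Golay
open scoped Pointwise

theorem pm4_mem {i j : GolayPt} (s t : ℤ) (hs : s = 4 ∨ s = -4) (ht : t = 4 ∨ t = -4) :
    (Pi.single i s + Pi.single j t : GolayPt → ℤ) ∈ leechLattice := by
  rw [mem_leech]
  refine ⟨0, ∅, Pi.single i (s / 4) + Pi.single j (t / 4), empty_mem, ?_, ?_⟩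
  · have : ∑ k, (Pi.single i (s / 4) + Pi.single j (t / 4) : GolayPt → ℤ) k = s / 4 + t / 4 := by
      simp only [Pi.add_apply, sum_add_distrib]
      simp
    rw [this]
    rcases hs with rfl | rfl <;> rcases ht with rfl | rfl <;> decide
  · funext k
    unfold vec ind
    rw [Pi.add_apply, Pi.add_apply, if_neg (notMem_empty _), Pi.single_apply, Pi.single_apply,
      Pi.single_apply, Pi.single_apply]
    rcases hs with rfl | rfl <;> rcases ht with rfl | rfl <;> split_ifs <;> norm_num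

theorem norm_zero {κ : Type*} [Fintype κ] : sqNorm (0 : κ → ℤ) = 0 := by simp [sqNorm]

/-- the standard cross as a congruence class -/
theorem std_iff (v : leechLattice) (i : GolayPt) :
    v.1 ∈ stdCross ↔ sqNorm v.1 = 64 ∧ ∃ z : leechLattice, e8 i - v = z + z := by
  have hcl : ∀ (v : leechLattice) (j : GolayPt), v.1 ∈ stdCross →
      ∃ z : leechLattice, e8 j - v = z + z := by
    rintro v j ⟨k, s, hs, hv⟩
    refine ⟨⟨Pi.single j 4 + Pi.single k (-(s / 2)), pm4_mem _ _ (Or.inl rfl) (by omega)⟩, ?_⟩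
    apply Subtype.ext
    show Pi.single j 8 - v.1 = _
    rw [hv]
    funext l
    show (Pi.single j 8 : GolayPt → ℤ) l - (Pi.single k s : GolayPt → ℤ) l =
      ((Pi.single j 4 : GolayPt → ℤ) l + (Pi.single k (-(s / 2)) : GolayPt → ℤ) l) +
      ((Pi.single j 4 : GolayPt → ℤ) l + (Pi.single k (-(s / 2)) : GolayPt → ℤ) l)
    rw [Pi.single_apply, Pi.single_apply, Pi.single_apply, Pi.single_apply]
    split_ifs <;> omega
  constructor
  · intro hv
    refine ⟨?_, hcl v i hv⟩
    obtain ⟨k, s, hs, hv⟩ := hv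
    rw [hv, sqNorm_single]
    rcases hs with rfl | rfl <;> norm_num
  · rintro ⟨hn, z, hz⟩
    have hv0 : v.1 ≠ 0 := by
      intro e; rw [e, norm_zero] at hn; norm_num at hn
    obtain ⟨j, hj⟩ : ∃ j, v.1 j ≠ 0 := by
      by_contra hno
      push Not at hno
      exact hv0 (funext hno)
    obtain ⟨w, hw⟩ := hcl (e8 j) i (e8_mem_std j)
    have h1 : e8 j - v = (z - w) + (z - w) := by
      have : e8 j - v = (e8 i - v) - (e8 i - e8 j) := by abel
      rw [this, hz, hw]; abel
    have e1 := bb_self (e8 j)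
    have e2 := bb_self v
    rw [norm_e8] at e1
    by_contra hno
    have h2 := rl.same_class h1 (by omega) (by omega) (by
      intro e; apply hno; rw [← e]; exact e8_mem_std j) (by
      intro e; apply hno
      have : v = - e8 j := by rw [e, neg_neg]
      rw [this]
      refine ⟨j, -8, Or.inr rfl, ?_⟩
      show -(Pi.single j 8 : GolayPt → ℤ) = _
      rw [← Pi.single_neg])
    have h3 := eight_bb (e8 j) v
    rw [h2.2.2, dot_comm, dot_e8] at h3
    omega

/-- elements fixing a frame vector are monomial -/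
theorem mono_of_fix {g : Co0} {i : GolayPt} (hg : g • e8 i = e8 i) :
    ∃ (σ : M24) (c : Sup), g = mono σ c := by
  apply mono_of
  intro v hv
  rw [std_iff _ i] at hv ⊢
  obtain ⟨hn, z, hz⟩ := hv
  refine ⟨by rw [co_norm]; exact hn, g • z, ?_⟩
  have h1 := congrArg (fun x => g • x) hz
  beta_reduce at h1
  rw [co_sub, co_add, hg] at h1
  exact h1

theorem mono_e8 (σ : M24) (c : Sup) (i : GolayPt) :
    mono σ c • e8 i = if σ.1 i ∈ c.1 then - e8 (σ.1 i) else e8 (σ.1 i) := by
  apply Subtype.ext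
  rw [mono_smul]
  funext j
  unfold signedPerm
  have h1 : (e8 i).1 (σ.1.symm j) = (e8 (σ.1 i)).1 j := by
    show (Pi.single i 8 : GolayPt → ℤ) (σ.1.symm j) = (Pi.single (σ.1 i) 8 : GolayPt → ℤ) j
    rw [Pi.single_apply, Pi.single_apply]
    have : σ.1.symm j = i ↔ j = σ.1 i := Equiv.symm_apply_eq σ.1
    simp only [this]
  rw [h1]
  by_cases hj : j = σ.1 i
  · subst hj
    split_ifs <;> rfl
  · have h2 : (e8 (σ.1 i)).1 j = 0 := Pi.single_eq_of_ne hj _
    have h3 : (-e8 (σ.1 i)).1 j = -(e8 (σ.1 i)).1 j := rfl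
    split_ifs
    · rw [h3]
    · rw [h2, neg_zero]
    · rw [h3, h2, neg_zero]
    · rfl

theorem neg_e8_ne (i j : GolayPt) : - e8 i ≠ e8 j := by
  intro h
  have h1 := congrFun (congrArg Subtype.val h) i
  have h2 : (-e8 i).1 i = -8 := by
    show -(Pi.single i 8 : GolayPt → ℤ) i = -8
    rw [Pi.single_eq_same]
  have h3 : (0 : ℤ) ≤ (e8 j).1 i := by
    show (0 : ℤ) ≤ (Pi.single j 8 : GolayPt → ℤ) i
    rw [Pi.single_apply]; split_ifs <;> norm_num
  rw [h2] at h1
  omega

theorem e8_inj {i j : GolayPt} (h : e8 i = e8 j) : i = j := by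
  by_contra hne
  have h1 := congrFun (congrArg Subtype.val h) i
  have h2 : (e8 i).1 i = 8 := Pi.single_eq_same _ _
  have h3 : (e8 j).1 i = 0 := Pi.single_eq_of_ne hne _
  omega

theorem mono_fix_iff (σ : M24) (c : Sup) (i : GolayPt) :
    mono σ c • e8 i = e8 i ↔ σ.1 i = i ∧ i ∉ c.1 := by
  rw [mono_e8]
  constructor
  · intro h
    split_ifs at h with h1
    · exact absurd h (neg_e8_ne _ _)
    · have := e8_inj h
      rw [this] at h1
      exact ⟨this, h1⟩
  · rintro ⟨h1, h2⟩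
    rw [h1, if_neg h2]

theorem card_Sup : Nat.card Sup = 4096 := by
  rw [Nat.card_coe_set_eq, ← card_SupF, ← Set.ncard_coe_finset]
  congr 1
  ext C
  rw [Finset.mem_coe, mem_SupF]

theorem card_Sup_not (p : GolayPt) : Nat.card {c : Sup // p ∉ c.1} = 2048 := by
  classical
  have h1 : Nat.card {c : Sup // p ∉ c.1} = Nat.card {c : Sup // p ∈ c.1} := by
    apply Nat.card_congr
    refine ⟨fun c => ⟨⟨c.1.1ᶜ, compl_mem_supports c.1.2⟩, by simpa using c.2⟩,
      fun c => ⟨⟨c.1.1ᶜ, compl_mem_supports c.1.2⟩, by simpa using c.2⟩, ?_, ?_⟩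
    · intro c; apply Subtype.ext; apply Subtype.ext; exact compl_compl _
    · intro c; apply Subtype.ext; apply Subtype.ext; exact compl_compl _
  have h2 : Nat.card {c : Sup // p ∈ c.1} + Nat.card {c : Sup // ¬ p ∈ c.1} = Nat.card Sup := by
    rw [← Nat.card_sum]
    exact Nat.card_congr (Equiv.sumCompl _)
  rw [card_Sup] at h2
  omega

/-- the stabiliser of a frame vector -/
theorem card_fix (i : GolayPt) : Nat.card (MulAction.stabilizer Co0 (e8 i)) = 2048 * 10200960 := by
  rw [← card_Sup_not i, ← card_stab1 i, mul_comm, ← Nat.card_prod]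
  symm
  apply Nat.card_congr
  refine Equiv.ofBijective (fun x => ⟨mono x.1.1 x.2.1, ?_⟩) ⟨?_, ?_⟩
  · rw [MulAction.mem_stabilizer_iff, mono_fix_iff]
    exact ⟨x.1.2, x.2.2⟩
  · intro x y hxy
    have h1 : mono x.1.1 x.2.1 = mono y.1.1 y.2.1 := congrArg Subtype.val hxy
    obtain ⟨h2, h3⟩ := mono_inj h1
    exact Prod.ext (Subtype.ext h2) (Subtype.ext h3)
  · rintro ⟨g, hg⟩
    rw [MulAction.mem_stabilizer_iff] at hg
    obtain ⟨σ, c, rfl⟩ := mono_of_fix hg
    rw [mono_fix_iff] at hg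
    exact ⟨(⟨σ, hg.1⟩, ⟨c, hg.2⟩), rfl⟩

theorem orbit_e8 (i : GolayPt) : MulAction.orbit Co0 (e8 i) = {v : leechLattice | bb v v = 8} := by
  ext v
  constructor
  · rintro ⟨g, rfl⟩
    show bb (g • e8 i) (g • e8 i) = 8
    have h1 := bb_self (g • e8 i)
    rw [co_norm, norm_e8] at h1
    omega
  · intro hv
    have hv' : bb v v = 8 := hv
    obtain ⟨g, hg⟩ := trans64 v (by rw [← bb_self, hv']; norm_num) i
    have h1 : g • v = e8 i := Subtype.ext hg
    refine ⟨g⁻¹, ?_⟩
    show g⁻¹ • e8 i = v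
    rw [← h1, inv_smul_smul]

theorem card_Co0 : Nat.card Co0 = 8315553613086720000 := by
  have h2 := Nat.card_congr (MulAction.orbitProdStabilizerEquivGroup Co0 (e8 none))
  rw [Nat.card_prod, card_fix, Nat.card_coe_set_eq, orbit_e8, rl.c8] at h2
  rw [← h2]

end CfsgL.Lat
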