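import Cfsg.Agent.L.Lat.Co2
import Cfsg.Agent.L.GolayDual
/-!
Transitivity of `Co0` on vectors of types 2 and 3, center of `Co0`.
-/
set_option autoImplicit false
set_option maxHeartbeats 400000
namespace CfsgL.Lat
open Finset Cfsg CfsgL.Leech CfsgL.Golay CfsgL.GU
open scoped Pointwise

theorem sup_restrict {F A : Finset GolayPt} (hA : A ⊆ F)
    (hev : ∀ B ∈ Sup, B ⊆ F → Even (A ∩ B).card) : ∃ c : Sup, c.1 ∩ F = A := by
  obtain ⟨c, hc, h⟩ := G0_golay.exists_restrict hA (fun B hB => hev B (mem_G0.1 hB))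
  exact ⟨⟨c, mem_G0.1 hc⟩, h⟩

theorem sup_restrict7 {F A : Finset GolayPt} (hA : A ⊆ F) (hF : F.card ≤ 7) :
    ∃ c : Sup, c.1 ∩ F = A := by
  obtain ⟨c, hc, h⟩ := G0_golay.exists_restrict7 hA hF
  exact ⟨⟨c, mem_G0.1 hc⟩, h⟩

theorem leechM : IsM leechLattice := by
  refine ⟨card_pt, fun x hx y hy => dot_dvd hx hy, fun x hx => norm_dvd hx,
    fun x hx h0 => norm_min hx h0, ?_, ?_, count32⟩
  · intro i j _
    exact pm4_mem 4 4 (Or.inl rfl) (Or.inl rfl)
  · intro i j _
    rw [sub_eq_add_neg, ← Pi.single_neg]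
    exact pm4_mem 4 (-4) (Or.inl rfl) (Or.inr rfl)

theorem mono_at (σ : M24) (c : Sup) (v : leechLattice) (i : GolayPt) :
    (mono σ c • v).1 (σ.1 i) = if σ.1 i ∈ c.1 then - v.1 i else v.1 i := by
  rw [mono_smul]
  unfold signedPerm
  rw [Equiv.symm_apply_apply]

/-- the vector `s` at `p`, `t` at `q` -/
def v2 (p q : GolayPt) (s t : ℤ) : GolayPt → ℤ := Pi.single p s + Pi.single q t

theorem v2_apply {p q : GolayPt} (hpq : p ≠ q) (s t : ℤ) (i : GolayPt) :
    v2 p q s t i = if i = p then s else if i = q then t else 0 := by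
  unfold v2
  rw [Pi.add_apply, Pi.single_apply, Pi.single_apply]
  by_cases h1 : i = p
  · have h2 : i ≠ q := by rw [h1]; exact hpq
    rw [if_pos h1, if_pos h1, if_neg h2, add_zero]
  · rw [if_neg h1, if_neg h1, zero_add]

theorem v2_mem (p q : GolayPt) {s t : ℤ} (hs : s = 4 ∨ s = -4) (ht : t = 4 ∨ t = -4) :
    v2 p q s t ∈ leechLattice := pm4_mem s t hs ht

/-- as a lattice element -/
def w2 (p q : GolayPt) (s t : ℤ) (hs : s = 4 ∨ s = -4) (ht : t = 4 ∨ t = -4) : leechLattice :=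
  ⟨v2 p q s t, v2_mem p q hs ht⟩

theorem dot_v2 (x : GolayPt → ℤ) (p q : GolayPt) (s t : ℤ) :
    dotInt x (v2 p q s t) = x p * s + x q * t := by
  unfold v2
  rw [dot_add_r, dot_single, dot_single]

theorem norm_v2 {p q : GolayPt} (hpq : p ≠ q) (s t : ℤ) : sqNorm (v2 p q s t) = s ^ 2 + t ^ 2 := by
  rw [sqNorm_eq_dot, dot_v2, v2_apply hpq, v2_apply hpq, if_pos rfl, if_neg hpq.symm, if_pos rfl]
  ring

theorem exists_sign_eq {v : GolayPt → ℤ} (hv : sqNorm v ≤ 64) :
    ∃ i j, i ≠ j ∧ (v i = v j ∨ v i = - v j) := by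
  have h1 : ∀ i ∈ (univ : Finset GolayPt), (v i).natAbs ∈ range 9 := by
    intro i _
    rw [mem_range]
    have h2 := sq_le_norm v i
    have h3 : v i ≤ 8 := by nlinarith
    have h4 : -8 ≤ v i := by nlinarith
    omega
  obtain ⟨i, _, j, _, hij, he⟩ := exists_ne_map_eq_of_card_lt_of_maps_to (by
    rw [card_range, card_univ, card_pt]; norm_num) h1
  exact ⟨i, j, hij, Int.natAbs_eq_natAbs_iff.1 he⟩

/-- M24 moves pairs -/
theorem M24_two {p q p' q' : GolayPt} (h : p ≠ q) (h' : p' ≠ q') :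
    ∃ σ : M24, σ.1 p = p' ∧ σ.1 q = q' := by
  have h5 : MulAction.IsMultiplyPretransitive M24 GolayPt 5 := five_transitive
  have hT : MulAction.IsMultiplyPretransitive M24 GolayPt 2 := by
    refine MulAction.isMultiplyPretransitive_of_le (by norm_num : 2 ≤ 5) ?_
    rw [Nat.card_eq_fintype_card, card_pt]
    norm_num
  obtain ⟨g, hg1, hg2⟩ := MulAction.is_two_pretransitive_iff.1 hT h h'
  exact ⟨g, hg1, hg2⟩

/-- vectors of norm 32 with a coordinate 4 -/
theorem shape4 {x : GolayPt → ℤ} (hx : x ∈ leechLattice) (hn : sqNorm x = 32) {p : GolayPt}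
    (hp : x p = 4) : ∃ q t, p ≠ q ∧ (t = 4 ∨ t = -4) ∧ x = v2 p q 4 t := by
  have he : ∀ i, x i % 2 = 0 := by
    intro i
    have := leechM.parity hx i p
    omega
  rcases leechM.even32 hx hn he with ⟨S, hS, hxs⟩ | ⟨S, _, _, hxs⟩
  · rw [mem_sgn] at hxs
    have hpS : p ∈ S := by
      by_contra hno
      have := hxs.2 p hno
      omega
    rw [card_eq_two] at hS
    obtain ⟨a, b, hab, rfl⟩ := hS
    rw [mem_insert, mem_singleton] at hpS
    have key : ∀ q, p ≠ q → ({a, b} : Finset GolayPt) = {p, q} → ∃ q t, p ≠ q ∧ (t = 4 ∨ t = -4) ∧ x = v2 p q 4 t := by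
      intro q hpq hab'
      rw [hab'] at hxs
      refine ⟨q, x q, hpq, hxs.1 q (by simp), ?_⟩
      funext i
      rw [v2_apply hpq]
      split_ifs with h1 h2
      · rw [h1, hp]
      · rw [h2]
      · exact hxs.2 i (by simp [h1, h2])
    rcases hpS with rfl | rfl
    · exact key b hab rfl
    · exact key a hab.symm (pair_comm _ _)
  · rw [mem_sgn] at hxs
    exfalso
    by_cases hpS : p ∈ S
    · have := hxs.1 p hpS; omega
    · have := hxs.2 p hpS; omega

/-- normal form for vectors of norm 32 -/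
theorem nf32 (v : leechLattice) (hv : sqNorm v.1 = 32) {p q : GolayPt} (hpq : p ≠ q) :
    ∃ g : Co0, (g • v).1 = v2 p q 4 4 := by
  obtain ⟨i, j, hij, he⟩ := exists_sign_eq (v := v.1) (by rw [hv]; norm_num)
  obtain ⟨w, hw1, hw2⟩ : ∃ w : leechLattice, sqNorm w.1 = 32 ∧ dotInt v.1 w.1 = 0 := by
    rcases he with he | he
    · refine ⟨w2 i j 4 (-4) (Or.inl rfl) (Or.inr rfl), ?_, ?_⟩
      · show sqNorm (v2 i j 4 (-4)) = 32
        rw [norm_v2 hij]; norm_num
      · show dotInt v.1 (v2 i j 4 (-4)) = 0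
        rw [dot_v2, he]; ring
    · refine ⟨w2 i j 4 4 (Or.inl rfl) (Or.inl rfl), ?_, ?_⟩
      · show sqNorm (v2 i j 4 4) = 32
        rw [norm_v2 hij]; norm_num
      · show dotInt v.1 (v2 i j 4 4) = 0
        rw [dot_v2, he]; ring
  have hx : sqNorm (v + w).1 = 64 := by
    have : sqNorm (v + w).1 = _ := norm_add v.1 w.1
    rw [this, hv, hw1, hw2]; norm_num
  obtain ⟨g0, hg0⟩ := trans64 (v + w) hx p
  have h1 : (g0 • v).1 p = 4 := by
    have h2 := co_dot g0 v (v + w)
    rw [hg0, dot_single] at h2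
    have h3 : dotInt v.1 (v + w).1 = dotInt v.1 v.1 + dotInt v.1 w.1 := dot_add_r _ _ _
    rw [h3, hw2, ← sqNorm_eq_dot, hv] at h2
    omega
  obtain ⟨r, t, hpr, ht, hgv⟩ := shape4 (g0 • v).2 (by rw [co_norm, hv]) h1
  obtain ⟨σ, hσp, hσr⟩ := M24_two hpr hpq
  obtain ⟨c, hc⟩ : ∃ c : Sup, c.1 ∩ {p, q} = if t = 4 then ∅ else {q} := by
    apply sup_restrict7
    · split_ifs
      · exact empty_subset _
      · intro x hx; rw [mem_singleton] at hx; rw [hx]; simp
    · exact (card_le_two).trans (by norm_num)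
  refine ⟨mono σ c * g0, ?_⟩
  rw [mul_smul]
  funext k
  obtain ⟨i, rfl⟩ := σ.1.surjective k
  rw [mono_at, hgv, v2_apply hpr, v2_apply hpq]
  have hpc : p ∉ c.1 := by
    intro hh
    have : p ∈ c.1 ∩ {p, q} := by simp [hh]
    rw [hc] at this
    split_ifs at this
    · exact absurd this (notMem_empty _)
    · rw [mem_singleton] at this; exact hpq this
  have hqc : q ∈ c.1 ↔ t = -4 := by
    constructor
    · intro hh
      have : q ∈ c.1 ∩ {p, q} := by simp [hh]
      rw [hc] at this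
      split_ifs at this with h4
      · exact absurd this (notMem_empty _)
      · rcases ht with h5 | h5
        · exact absurd h5 h4
        · exact h5
    · intro hh
      have : q ∈ c.1 ∩ {p, q} := by
        rw [hc, if_neg (by rw [hh]; norm_num)]; simp
      exact (mem_inter.1 this).1
  have e1 : (σ.1 i = p) ↔ i = p :=
    ⟨fun h => σ.1.injective (h.trans hσp.symm), fun h => by rw [h, hσp]⟩
  have e2 : (σ.1 i = q) ↔ i = r :=
    ⟨fun h => σ.1.injective (h.trans hσr.symm), fun h => by rw [h, hσr]⟩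
  by_cases h1 : i = p
  · rw [e1.2 h1, if_neg hpc, if_pos h1, if_pos rfl]
  · rw [if_neg h1, if_neg (fun h => h1 (e1.1 h))]
    by_cases h2 : i = r
    · rw [e2.2 h2, if_pos h2, if_pos rfl]
      rcases ht with h5 | h5
      · rw [if_neg (fun h => by have := hqc.1 h; omega), h5]
      · rw [if_pos (hqc.2 h5), h5]; norm_num
    · rw [if_neg h2, if_neg (fun h => h2 (e2.1 h))]
      split_ifs <;> norm_num

/-- the vector `(5, 1, ..., 1)` -/
def v5 (p : GolayPt) : GolayPt → ℤ := fun i => if i = p then 5 else 1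

/-- normal form for vectors of norm 48 -/
theorem nf48 (u : leechLattice) (hu : sqNorm u.1 = 48) (p : GolayPt) :
    ∃ g : Co0, (g • u).1 = v5 p := by
  obtain ⟨w, hw1, hw2⟩ : ∃ w : leechLattice, sqNorm w.1 = 32 ∧ dotInt u.1 w.1 = 8 := by
    have key : ∀ i j, i ≠ j → ((u.1 i = 1 ∨ u.1 i = -1) ∧ (u.1 j = 1 ∨ u.1 j = -1) ∨
        (u.1 i = 2 ∨ u.1 i = -2) ∧ u.1 j = 0) →
        ∃ w : leechLattice, sqNorm w.1 = 32 ∧ dotInt u.1 w.1 = 8 := by
      intro i j hij h
      refine ⟨w2 i j (if 0 < u.1 i then 4 else -4) (if 0 < u.1 j then 4 else -4)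
        (by split_ifs <;> simp) (by split_ifs <;> simp), ?_, ?_⟩
      · show sqNorm (v2 i j _ _) = 32
        rw [norm_v2 hij]
        split_ifs <;> norm_num
      · show dotInt u.1 (v2 i j _ _) = 8
        rw [dot_v2]
        rcases h with ⟨h1 | h1, h2 | h2⟩ | ⟨h1 | h1, h2⟩ <;> rw [h1, h2] <;> norm_num
    have hsum : ∑ i, u.1 i ^ 2 = 48 := hu
    by_cases hpar : (2 : ℤ) ∣ u.1 none
    · obtain ⟨y, hy⟩ := even_half u.2 hpar
      have hyi : ∀ i, u.1 i = 2 * y i := fun i => congrFun hy i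
      have hy2 := u.2
      rw [hy, even_iff] at hy2
      obtain ⟨hpat, h4⟩ := hy2
      have hs12 : ∑ i, y i ^ 2 = 12 := by
        have : ∑ i, u.1 i ^ 2 = 4 * ∑ i, y i ^ 2 := by
          rw [mul_sum]
          apply sum_congr rfl
          intro i _
          rw [hyi]; ring
        omega
      have hne : patO y ≠ ∅ := by
        intro h0
        have hz : ∀ i, ∃ z : ℤ, y i = 2 * z := by
          intro i
          have : i ∉ patO y := by rw [h0]; exact notMem_empty _
          unfold patO at this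
          rw [mem_filter] at this
          have h6 : ¬ (y i % 2 = 1) := fun h => this ⟨mem_univ _, h⟩
          exact ⟨y i / 2, by omega⟩
        choose z hz using hz
        have h3 : ∑ i, z i ^ 2 = 3 := by
          have : ∑ i, y i ^ 2 = 4 * ∑ i, z i ^ 2 := by
            rw [mul_sum]
            apply sum_congr rfl
            intro i _
            rw [hz]; ring
          omega
        have h5 : ∑ i, y i = 2 * ∑ i, z i := by
          rw [mul_sum]
          exact sum_congr rfl (fun i _ => hz i)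
        have h6 := sq_parity z
        unfold Int.ModEq at h6
        omega
      have hcard : 8 ≤ (patO y).card := by
        rcases card_of_mem_supports hpat with h | h | h | h | h
        · exact absurd (card_eq_zero.1 h) hne
        all_goals omega
      obtain ⟨i, hi, hi1⟩ : ∃ i ∈ patO y, y i = 1 ∨ y i = -1 := by
        by_contra hno
        push Not at hno
        have h7 : ∀ i ∈ patO y, (9 : ℤ) ≤ y i ^ 2 := by
          intro i hi
          have h8 := hno i hi
          unfold patO at hi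
          rw [mem_filter] at hi
          have : y i ≤ -3 ∨ 3 ≤ y i := by omega
          rcases this with h | h <;> nlinarith
        have h8 := card_nsmul_le_sum (patO y) (fun i => y i ^ 2) 9 h7
        have h9 : ∑ i ∈ patO y, y i ^ 2 ≤ ∑ i, y i ^ 2 :=
          sum_le_sum_of_subset_of_nonneg (subset_univ _) (fun i _ _ => sq_nonneg _)
        rw [nsmul_eq_mul] at h8
        have : (8 : ℤ) ≤ (patO y).card := by exact_mod_cast hcard
        linarith
      obtain ⟨j, hj⟩ : ∃ j, y j = 0 := by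
        by_contra hno
        push Not at hno
        have h8 := card_nsmul_le_sum (univ : Finset GolayPt) (fun i => y i ^ 2) 1 (by
          intro i _
          have := hno i
          have : 0 < y i ^ 2 := by positivity
          omega)
        rw [hs12, card_univ, card_pt] at h8
        norm_num at h8
      refine key i j (by rintro rfl; omega) (Or.inr ⟨?_, ?_⟩)
      · rw [hyi]; omega
      · rw [hyi, hj]; norm_num
    · have hodd : ∀ i, u.1 i % 2 = 1 := (odd_iff.1 ⟨u.2, hpar⟩).2.1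
      have hle : ((univ : Finset GolayPt).filter (fun i => ¬ (u.1 i = 1 ∨ u.1 i = -1))).card ≤ 5 := by
        have h7 : ∀ i ∈ (univ : Finset GolayPt).filter (fun i => ¬ (u.1 i = 1 ∨ u.1 i = -1)), (9 : ℤ) ≤ u.1 i ^ 2 := by
          intro i hi
          rw [mem_filter] at hi
          have h8 := hodd i
          have : u.1 i ≤ -3 ∨ 3 ≤ u.1 i := by omega
          rcases this with h | h <;> nlinarith
        have h8 := card_nsmul_le_sum _ (fun i => u.1 i ^ 2) 9 h7
        have h9 : ∑ i ∈ (univ : Finset GolayPt).filter (fun i => ¬ (u.1 i = 1 ∨ u.1 i = -1)), u.1 i ^ 2 ≤ ∑ i, u.1 i ^ 2 :=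
          sum_le_sum_of_subset_of_nonneg (subset_univ _) (fun i _ _ => sq_nonneg _)
        rw [nsmul_eq_mul] at h8
        by_contra hno
        rw [not_le] at hno
        have : (6 : ℤ) ≤ ((univ : Finset GolayPt).filter (fun i => ¬ (u.1 i = 1 ∨ u.1 i = -1))).card := by
          exact_mod_cast hno
        linarith
      have hge : 1 < ((univ : Finset GolayPt).filter (fun i => (u.1 i = 1 ∨ u.1 i = -1))).card := by
        have h10 := card_filter_add_card_filter_not (s := (univ : Finset GolayPt))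
          (p := fun i => (u.1 i = 1 ∨ u.1 i = -1))
        rw [card_univ, card_pt] at h10
        omega
      obtain ⟨i, hi, j, hj, hij⟩ := one_lt_card.1 hge
      rw [mem_filter] at hi hj
      exact key i j hij (Or.inl ⟨hi.2, hj.2⟩)
  have hx : sqNorm (u - w).1 = 64 := by
    have : sqNorm (u - w).1 = _ := norm_sub u.1 w.1
    rw [this, hu, hw1, hw2]; norm_num
  obtain ⟨g0, hg0⟩ := trans64 (u - w) hx p
  have h1 : (g0 • u).1 p = 5 := by
    have h2 := co_dot g0 u (u - w)
    rw [hg0, dot_single] at h2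
    have h3 : dotInt u.1 (u - w).1 = dotInt u.1 u.1 - dotInt u.1 w.1 := dot_sub_r _ _ _
    rw [h3, hw2, ← sqNorm_eq_dot, hu] at h2
    omega
  have hn : sqNorm (g0 • u).1 = 48 := by rw [co_norm, hu]
  have hpar : ¬ (2 : ℤ) ∣ (g0 • u).1 none := by
    have := leechM.parity (g0 • u).2 p none
    omega
  obtain ⟨hc, hodd, _⟩ := odd_iff.1 ⟨(g0 • u).2, hpar⟩
  have hone : ∀ i, i ≠ p → (g0 • u).1 i = 1 ∨ (g0 • u).1 i = -1 := by
    intro i hi
    have h2 : ∀ j, (1 : ℤ) ≤ (g0 • u).1 j ^ 2 := by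
      intro j
      have := hodd j
      have : (g0 • u).1 j ≠ 0 := by omega
      have : 0 < (g0 • u).1 j ^ 2 := by positivity
      omega
    have h3 := add_sum_erase univ (fun j => (g0 • u).1 j ^ 2) (mem_univ p)
    have h4 := add_sum_erase (univ.erase p) (fun j => (g0 • u).1 j ^ 2) (mem_erase.2 ⟨hi, mem_univ i⟩)
    have h5 := card_nsmul_le_sum ((univ.erase p).erase i) (fun j => (g0 • u).1 j ^ 2) 1 (fun j _ => h2 j)
    rw [card_erase_of_mem (mem_erase.2 ⟨hi, mem_univ i⟩), card_erase_of_mem (mem_univ p), card_univ, card_pt] at h5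
    have h6 : ∑ j, (g0 • u).1 j ^ 2 = 48 := hn
    rw [h6] at h3
    rw [h1] at h3
    norm_num at h5
    have h7 : (g0 • u).1 i ^ 2 ≤ 1 := by linarith
    have h8 := hodd i
    have h9 : (g0 • u).1 i < 2 := by nlinarith
    have h10 : -2 < (g0 • u).1 i := by nlinarith
    omega
  refine ⟨mono 1 ⟨pat3 (g0 • u).1, hc⟩ * g0, ?_⟩
  rw [mul_smul]
  funext i
  have h2 := mono_at 1 ⟨pat3 (g0 • u).1, hc⟩ (g0 • u) i
  change (mono 1 ⟨pat3 (g0 • u).1, hc⟩ • (g0 • u)).1 i = if i ∈ pat3 (g0 • u).1 then _ else _ at h2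
  rw [h2]
  have h3 : i ∈ pat3 (g0 • u).1 ↔ (g0 • u).1 i % 4 = 3 := by
    unfold pat3; rw [mem_filter]; simp
  unfold v5
  by_cases hi : i = p
  · subst hi
    rw [if_neg, if_pos rfl, h1]
    rw [h3, h1]; norm_num
  · rw [if_neg hi]
    rcases hone i hi with h4 | h4
    · rw [if_neg, h4]
      rw [h3, h4]; norm_num
    · rw [if_pos, h4]
      · norm_num
      · rw [h3, h4]; norm_num

theorem trans_of_nf {v w : leechLattice} {x : GolayPt → ℤ} (hv : ∃ g : Co0, (g • v).1 = x)
    (hw : ∃ g : Co0, (g • w).1 = x) : ∃ g : Co0, g • v = w := by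
  obtain ⟨g, hg⟩ := hv
  obtain ⟨k, hk⟩ := hw
  refine ⟨k⁻¹ * g, ?_⟩
  rw [mul_smul, inv_smul_eq_iff]
  exact Subtype.ext (hg.trans hk.symm)

end CfsgL.Lat
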