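import Cfsg.Agent.L.Lat.Classes
/-!
Coordinates with respect to a frame.
-/
set_option autoImplicit false
set_option maxHeartbeats 400000
namespace CfsgL.Lat
open Finset Cfsg

/-- sublattices of `ℤ^24` in Leech scaling -/
structure IsM {κ : Type*} [Fintype κ] [DecidableEq κ] (M : AddSubgroup (κ → ℤ)) : Prop where
  pts : Fintype.card κ = 24
  dot : ∀ x ∈ M, ∀ y ∈ M, (8 : ℤ) ∣ dotInt x y
  nrm : ∀ x ∈ M, (16 : ℤ) ∣ sqNorm x
  min : ∀ x ∈ M, x ≠ 0 → 32 ≤ sqNorm x
  frp : ∀ i j, i ≠ j → (Pi.single i 4 + Pi.single j 4 : κ → ℤ) ∈ M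
  frm : ∀ i j, i ≠ j → (Pi.single i 4 - Pi.single j 4 : κ → ℤ) ∈ M
  cnt : {x | x ∈ M ∧ sqNorm x = 32}.ncard = 196560

section
variable {ι : Type*} [Fintype ι] {Λ : AddSubgroup (ι → ℤ)} {b : Λ → Λ → ℤ}

/-- a frame -/
structure IsFrame (b : Λ → Λ → ℤ) (T : Finset Λ) : Prop where
  card : T.card = 24
  nrm : ∀ y ∈ T, b y y = 8
  orth : ∀ y ∈ T, ∀ z ∈ T, y ≠ z → b y z = 0
  cong : ∀ y ∈ T, ∀ z ∈ T, ∃ w, y - z = w + w

/-- coordinate map -/
def co (h : IsRL Λ b) (T : Finset Λ) : Λ →+ (T → ℤ) where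
  toFun v := fun t => b v t.1
  map_zero' := by funext t; exact h.zero_l _
  map_add' x y := by funext t; exact h.add _ _ _

theorem co_apply (h : IsRL Λ b) (T : Finset Λ) (v : Λ) (t : T) : co h T v t = b v t.1 := rfl

theorem expand (h : IsRL Λ b) {T : Finset Λ} (hT : IsFrame b T) (v : Λ) :
    (8 : ℤ) • v = ∑ t ∈ T, b v t • t := by
  classical
  by_contra hne
  set u := (8 : ℤ) • v - ∑ t ∈ T, b v t • t with hu
  have hu0 : u ≠ 0 := fun e => hne (sub_eq_zero.1 e)
  have hb : ∀ s ∈ T, b u s = 0 := by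
    intro s hs
    rw [hu, h.sub_l, h.zsmul_l, h.sum_l, sum_eq_single_of_mem s hs]
    · rw [h.zsmul_l, hT.nrm s hs]; ring
    · intro t ht hts
      rw [h.zsmul_l, hT.orth t ht s hs hts, mul_zero]
  have huT : u ∉ T := by
    intro hm
    have h1 := hb u hm
    have h2 := h.pos u hu0
    omega
  have := h.orth_card (S := insert u T) (by
    intro x hx
    rw [mem_insert] at hx
    rcases hx with rfl | hx
    · exact hu0
    · intro e
      have := hT.nrm x hx
      rw [e, h.zero_l] at this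
      omega) (by
    intro x hx y hy hxy
    rw [mem_insert] at hx hy
    rcases hx with rfl | hx
    · rcases hy with rfl | hy
      · exact absurd rfl hxy
      · exact hb y hy
    · rcases hy with rfl | hy
      · rw [h.symm]; exact hb x hx
      · exact hT.orth x hx y hy hxy)
  rw [card_insert_of_notMem huT, hT.card] at this
  omega

theorem parseval (h : IsRL Λ b) {T : Finset Λ} (hT : IsFrame b T) (v w : Λ) :
    dotInt (co h T v) (co h T w) = 8 * b v w := by
  have h1 : b ((8 : ℤ) • v) w = b (∑ t ∈ T, b v t • t) w := by rw [← expand h hT v]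
  rw [h.zsmul_l, h.sum_l] at h1
  rw [h1]
  unfold dotInt
  rw [← Finset.sum_coe_sort T]
  apply sum_congr rfl
  intro t _
  rw [h.zsmul_l, co_apply, co_apply, h.symm w t.1]

theorem sqNorm_eq_dot {κ : Type*} [Fintype κ] (x : κ → ℤ) : sqNorm x = dotInt x x := by
  unfold sqNorm dotInt
  apply sum_congr rfl
  intro i _
  ring

theorem co_sq (h : IsRL Λ b) {T : Finset Λ} (hT : IsFrame b T) (v : Λ) :
    sqNorm (co h T v) = 8 * b v v := by
  rw [sqNorm_eq_dot, parseval h hT]

theorem co_inj (h : IsRL Λ b) {T : Finset Λ} (hT : IsFrame b T) : Function.Injective (co h T) := by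
  rw [injective_iff_map_eq_zero]
  intro v hv
  apply h.eq_zero
  have := co_sq h hT v
  rw [hv] at this
  have h0 : sqNorm (0 : T → ℤ) = 0 := by simp [sqNorm]
  rw [h0] at this
  omega

theorem co_single (h : IsRL Λ b) {T : Finset Λ} (hT : IsFrame b T) [DecidableEq T] (t : T) :
    co h T t.1 = Pi.single t 8 := by
  funext s
  rw [co_apply]
  by_cases hst : s = t
  · rw [hst, Pi.single_eq_same, hT.nrm t.1 t.2]
  · rw [Pi.single_eq_of_ne hst, hT.orth t.1 t.2 s.1 s.2 (fun e => hst (Subtype.ext e.symm))]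

theorem range_isM (h : IsRL Λ b) {T : Finset Λ} (hT : IsFrame b T) [DecidableEq T] :
    IsM (co h T).range := by
  have hcard : Fintype.card T = 24 := by rw [Fintype.card_coe, hT.card]
  refine ⟨hcard, ?_, ?_, ?_, ?_, ?_, ?_⟩
  · rintro _ ⟨v, rfl⟩ _ ⟨w, rfl⟩
    rw [parseval h hT]
    exact ⟨_, rfl⟩
  · rintro _ ⟨v, rfl⟩
    rw [co_sq h hT]
    obtain ⟨k, hk⟩ := h.even v
    exact ⟨k, by rw [hk]; ring⟩
  · rintro _ ⟨v, rfl⟩ hne
    rw [co_sq h hT]
    have : v ≠ 0 := fun e => hne (by rw [e, map_zero])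
    have := h.min4 this
    omega
  · intro i j hij
    obtain ⟨w, hw⟩ := hT.cong i.1 i.2 j.1 j.2
    refine ⟨w + j.1, ?_⟩
    have h1 : co h T (w + j.1) + co h T (w + j.1) = Pi.single i 8 + Pi.single j 8 := by
      rw [← map_add, ← co_single h hT, ← co_single h hT, ← map_add]
      congr 1
      have : i.1 = w + w + j.1 := by rw [← hw]; abel
      rw [this]; abel
    funext t
    have h2 := congrFun h1 t
    simp only [Pi.add_apply] at h2 ⊢
    simp only [Pi.single_apply] at h2 ⊢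
    split_ifs at h2 ⊢ <;> omega
  · intro i j hij
    obtain ⟨w, hw⟩ := hT.cong i.1 i.2 j.1 j.2
    refine ⟨w, ?_⟩
    have h1 : co h T w + co h T w = Pi.single i 8 - Pi.single j 8 := by
      rw [← map_add, ← co_single h hT, ← co_single h hT, ← map_sub, hw]
    funext t
    have h2 := congrFun h1 t
    simp only [Pi.add_apply, Pi.sub_apply] at h2 ⊢
    simp only [Pi.single_apply] at h2 ⊢
    split_ifs at h2 ⊢ <;> omega
  · rw [← h.c4, ← Set.ncard_image_of_injective {x | b x x = 4} (co_inj h hT)]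
    congr 1
    ext x
    constructor
    · rintro ⟨⟨v, rfl⟩, hx⟩
      rw [co_sq h hT] at hx
      exact ⟨v, by show b v v = 4; omega, rfl⟩
    · rintro ⟨v, hv, rfl⟩
      refine ⟨⟨v, rfl⟩, ?_⟩
      rw [co_sq h hT]
      have : b v v = 4 := hv
      omega

end
end CfsgL.Lat
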