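import Cfsg.Agent.L.Lat.McL2
import Cfsg.Agent.L.Leech.Census
/-!
The 100 vectors of the Higman-Sims graph.
-/
set_option autoImplicit false
set_option maxHeartbeats 400000
namespace CfsgL.Lat
open Finset Cfsg CfsgL.Leech CfsgL.Golay CfsgL.GU CfsgL.Steiner
open scoped Pointwise

/-- normal form for a pair of vectors of type 3 and one of the 100 -/
theorem nfHS {v w x : leechLattice} (hv : sqNorm v.1 = 48) (hw : sqNorm w.1 = 48)
    (hvw : dotInt v.1 w.1 = -32) (hx : sqNorm x.1 = 32) (hvx : dotInt v.1 x.1 = 24)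
    (hwx : dotInt w.1 x.1 = -24) {p q : GolayPt} (hpq : p ≠ q) :
    ∃ g : Co0, (g • v).1 = v1 p 5 ∧ (g • (v + w)).1 = v2 p q 4 (-4) ∧ (g • x).1 = v2 p q 4 4 := by
  have ht : sqNorm (v + w).1 = 32 := by rw [coe_add', norm_add, hv, hw, hvw]; norm_num
  have htx : dotInt (v + w).1 x.1 = 0 := by rw [coe_add', dot_add_l, hvx, hwx]; norm_num
  have hz : sqNorm (v + w + x).1 = 64 := by
    rw [coe_add' (v + w) x, norm_add, ht, hx, htx]; norm_num
  have hvz : dotInt v.1 (v + w + x).1 = 40 := by
    rw [coe_add' (v + w) x, dot_add_r, coe_add', dot_add_r, hvx, hvw, ← sqNorm_eq_dot, hv]; norm_num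
  obtain ⟨g, hg1, hg2⟩ := nf_frame hv hz hvz p
  have hxz : dotInt x.1 (v + w + x).1 = 32 := by
    rw [coe_add' (v + w) x, dot_add_r, dot_comm, htx, ← sqNorm_eq_dot, hx]; norm_num
  have h4 : (g • x).1 p = 4 := by
    have := co_dot g x (v + w + x)
    rw [hg1, dot_single, hxz] at this; omega
  have h6 : dotInt (v1 p 5) (g • x).1 = 24 := by rw [← hg2, co_dot, hvx]
  obtain ⟨r, hr, hr2⟩ := four_of (by rw [co_norm, hx]) h4 h6
  have h7 : (g • (v + w)).1 = v2 p r 4 (-4) := by
    have h8 : (g • (v + w)).1 + (g • x).1 = Pi.single p 8 := by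
      rw [← hg1, co_add g (v + w) x]; rfl
    funext i
    have h9 := congrFun h8 i
    rw [Pi.add_apply, hr2, v2_apply hr.symm, Pi.single_apply] at h9
    rw [v2_apply hr.symm]
    split_ifs at h9 ⊢ <;> omega
  obtain ⟨σ, e1, e2⟩ := M24_two hr.symm hpq
  refine ⟨pm σ * g, ?_, ?_, ?_⟩
  · rw [mul_smul, pm_v1 σ hg2, e1]
  · rw [mul_smul, pm_v2 σ hr.symm h7, e1, e2]
  · rw [mul_smul, pm_v2 σ hr.symm hr2, e1, e2]

/-- shapes of the vectors of norm 48 -/
theorem shape48 {y : GolayPt → ℤ} (hy : y ∈ leechLattice) (hn : sqNorm y = 48) :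
    (¬ (2 : ℤ) ∣ y none ∧ ∃ p, (y p = 5 ∨ y p = -5) ∧ ∀ i, i ≠ p → (y i = 1 ∨ y i = -1)) ∨
    (¬ (2 : ℤ) ∣ y none ∧ (univ.filter (fun i => y i ^ 2 = 9)).card = 3 ∧
      ∀ i, y i = 1 ∨ y i = -1 ∨ y i = 3 ∨ y i = -3) ∨
    (∃ O ∈ octads, (∀ i ∈ O, y i = 2 ∨ y i = -2) ∧ ∃ r, r ∉ O ∧ (y r = 4 ∨ y r = -4) ∧
      ∀ i, i ∉ O → i ≠ r → y i = 0) ∨
    (∃ P ∈ dodecads, (∀ i ∈ P, y i = 2 ∨ y i = -2) ∧ ∀ i, i ∉ P → y i = 0) := by
  by_cases hpar : (2 : ℤ) ∣ y none
  · right; right
    obtain ⟨z, rfl⟩ := even_half hy hpar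
    have hz := hy
    rw [even_iff] at hz
    obtain ⟨hpat, h4⟩ := hz
    have hs12 : ∑ i, z i ^ 2 = 12 := by
      have : ∑ i, (2 * z i) ^ 2 = 4 * ∑ i, z i ^ 2 := by
        rw [mul_sum]
        apply sum_congr rfl
        intro i _
        ring
      have hn' : ∑ i, (2 * z i) ^ 2 = 48 := hn
      omega
    have hmem : ∀ i, i ∈ patO z ↔ z i % 2 = 1 := by
      intro i; unfold patO; rw [mem_filter]; simp
    have hodd1 : ∀ i ∈ patO z, (1 : ℤ) ≤ z i ^ 2 := by
      intro i hi
      rw [hmem] at hi
      have : z i ≠ 0 := by omega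
      have : 0 < z i ^ 2 := by positivity
      omega
    have hsplit := sum_add_sum_compl (patO z) (fun i => z i ^ 2)
    rw [hs12] at hsplit
    have hge := card_nsmul_le_sum (patO z) (fun i => z i ^ 2) 1 hodd1
    have hnn : 0 ≤ ∑ i ∈ (patO z)ᶜ, z i ^ 2 := sum_nonneg (fun i _ => sq_nonneg _)
    rw [nsmul_eq_mul, mul_one] at hge
    have hle : ((patO z).card : ℤ) ≤ 12 := by linarith
    have hsum8 : ∑ i ∈ patO z, z i ^ 2 ≡ (patO z).card [ZMOD 8] := by
      have : ∀ i ∈ patO z, z i ^ 2 ≡ 1 [ZMOD 8] := by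
        intro i hi
        rw [hmem] at hi
        obtain ⟨k, hk⟩ : ∃ k, z i = 2 * k + 1 := ⟨z i / 2, by omega⟩
        rw [hk]
        have h5 : (2 : ℤ) ∣ k * (k + 1) := by
          rcases Int.even_or_odd k with ⟨m, hm⟩ | ⟨m, hm⟩
          · exact ⟨m * (k + 1), by rw [hm]; ring⟩
          · exact ⟨k * (m + 1), by rw [hm]; ring⟩
        obtain ⟨m, hm⟩ := h5
        have h6 : (2 * k + 1) ^ 2 = 1 + 8 * m := by
          have : (2 * k + 1) ^ 2 = 4 * (k * (k + 1)) + 1 := by ring
          rw [this, hm]; ring
        rw [h6]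
        unfold Int.ModEq
        omega
      have h7 := Finset.sum_int_mod (patO z) 8 (fun i => z i ^ 2)
      unfold Int.ModEq
      rw [h7, sum_congr rfl (fun i hi => (this i hi : z i ^ 2 % 8 = 1 % 8))]
      rw [sum_const, nsmul_eq_mul]
      norm_num
    rcases sup_card hpat with h0 | h8 | h12 | h16 | h24
    · exfalso
      rw [card_eq_zero] at h0
      have hzz : ∀ i, ∃ k : ℤ, z i = 2 * k := by
        intro i
        have : i ∉ patO z := by rw [h0]; exact notMem_empty _
        rw [hmem] at this
        exact ⟨z i / 2, by omega⟩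
      choose k hk using hzz
      have h3 : ∑ i, k i ^ 2 = 3 := by
        have : ∑ i, z i ^ 2 = 4 * ∑ i, k i ^ 2 := by
          rw [mul_sum]
          apply sum_congr rfl
          intro i _
          rw [hk]; ring
        omega
      have h5 : ∑ i, z i = 2 * ∑ i, k i := by
        rw [mul_sum]
        exact sum_congr rfl (fun i _ => hk i)
      have h6 := sq_parity k
      unfold Int.ModEq at h6
      omega
    · left
      -- exactly one even entry 2
      have hev : ∀ i ∈ (patO z)ᶜ, ∃ k : ℤ, z i = 2 * k := by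
        intro i hi
        rw [mem_compl, hmem] at hi
        exact ⟨z i / 2, by omega⟩
      have hS : ∑ i ∈ patO z, z i ^ 2 = 8 := by
        unfold Int.ModEq at hsum8
        rw [h8] at hsum8 hge
        norm_num at hsum8 hge
        omega
      have hC : ∑ i ∈ (patO z)ᶜ, z i ^ 2 = 4 := by omega
      have hone : ∀ i ∈ patO z, z i ^ 2 = 1 := by
        have h9 : ∑ i ∈ patO z, (1 : ℤ) = ∑ i ∈ patO z, z i ^ 2 := by
          rw [hS, sum_const, h8]; norm_num
        have h10 := (sum_eq_sum_iff_of_le hodd1).1 h9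
        intro i hi
        exact (h10 i hi).symm
      obtain ⟨r, hr, hr0⟩ : ∃ r ∈ (patO z)ᶜ, z r ≠ 0 := by
        by_contra hno
        push Not at hno
        rw [sum_congr rfl (fun i hi => by rw [hno i hi])] at hC
        norm_num at hC
      have hr4 : 4 ≤ z r ^ 2 := by
        obtain ⟨k, hk⟩ := hev r hr
        rw [hk] at hr0 ⊢
        have : k ≠ 0 := by rintro rfl; simp at hr0
        have : 0 < k ^ 2 := by positivity
        nlinarith
      have h11 := add_sum_erase (patO z)ᶜ (fun i => z i ^ 2) hr
      beta_reduce at h11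
      rw [hC] at h11
      have h12 : 0 ≤ ∑ i ∈ (patO z)ᶜ.erase r, z i ^ 2 := sum_nonneg (fun i _ => sq_nonneg _)
      have h13 : z r ^ 2 = 4 := by omega
      have h14 : ∑ i ∈ (patO z)ᶜ.erase r, z i ^ 2 = 0 := by omega
      have h15 := (sum_eq_zero_iff_of_nonneg (fun i _ => sq_nonneg (z i))).1 h14
      refine ⟨patO z, mem_octads'.2 ⟨hpat, h8⟩, ?_, r, mem_compl.1 hr, ?_, ?_⟩
      · intro i hi
        have := hone i hi
        have : z i = 1 ∨ z i = -1 := sq_eq_sq_iff_eq_or_eq_neg.1 (by rw [this]; norm_num)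
        show 2 * z i = 2 ∨ 2 * z i = -2
        omega
      · have : z r = 2 ∨ z r = -2 := sq_eq_sq_iff_eq_or_eq_neg.1 (by rw [h13]; norm_num)
        show 2 * z r = 4 ∨ 2 * z r = -4
        omega
      · intro i hi hir
        have := h15 i (mem_erase.2 ⟨hir, mem_compl.2 hi⟩)
        have : z i = 0 := pow_eq_zero_iff (two_ne_zero) |>.1 this
        show 2 * z i = 0
        omega
    · right
      have hS : ∑ i ∈ patO z, z i ^ 2 = 12 := by
        rw [h12] at hge
        push_cast at hge
        omega
      have hC : ∑ i ∈ (patO z)ᶜ, z i ^ 2 = 0 := by omega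
      have hone : ∀ i ∈ patO z, z i ^ 2 = 1 := by
        have h9 : ∑ i ∈ patO z, (1 : ℤ) = ∑ i ∈ patO z, z i ^ 2 := by
          rw [hS, sum_const, h12]; norm_num
        have h10 := (sum_eq_sum_iff_of_le hodd1).1 h9
        intro i hi
        exact (h10 i hi).symm
      have h15 := (sum_eq_zero_iff_of_nonneg (fun i _ => sq_nonneg (z i))).1 hC
      refine ⟨patO z, mem_dodecads'.2 ⟨hpat, h12⟩, ?_, ?_⟩
      · intro i hi
        have := hone i hi
        have : z i = 1 ∨ z i = -1 := sq_eq_sq_iff_eq_or_eq_neg.1 (by rw [this]; norm_num)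
        show 2 * z i = 2 ∨ 2 * z i = -2
        omega
      · intro i hi
        have := h15 i (mem_compl.2 hi)
        have : z i = 0 := pow_eq_zero_iff (two_ne_zero) |>.1 this
        show 2 * z i = 0
        omega
    · rw [h16] at hle; norm_num at hle
    · rw [h24] at hle; norm_num at hle
  · have hm : y ∈ odd48 := ⟨hy, hn, hpar⟩
    have hs := odd48_sum hm
    have hv := odd48_vals hm
    by_cases h5 : ∃ p, y p = 5 ∨ y p = -5
    · left
      refine ⟨hpar, ?_⟩
      obtain ⟨p, hp⟩ := h5
      refine ⟨p, hp, fun i hi => ?_⟩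
      have hgp : gO (y p) = 3 := by
        rcases hp with h | h <;> rw [h]
        · exact gO_vals.2.2.2.2.1
        · exact gO_vals.2.2.2.2.2
      have h6 : ∑ t ∈ ({i, p} : Finset GolayPt), gO (y t) ≤ ∑ t, gO (y t) :=
        Finset.sum_le_sum_of_subset (Finset.subset_univ _)
      rw [sum_pair hi, hgp, hs] at h6
      have h7 : gO (y i) = 0 := by omega
      rcases hv i with h | h | h | h | h | h
      · exact Or.inl h
      · exact Or.inr h
      all_goals
        rw [h] at h7
        exfalso
        revert h7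
        decide
    · right; left
      refine ⟨hpar, ?_, ?_⟩
      · have h6 : ∀ i, gO (y i) = if y i ^ 2 = 9 then 1 else 0 := by
          intro i
          have h7 : ¬ (y i = 5 ∨ y i = -5) := fun h => h5 ⟨i, h⟩
          rcases hv i with h | h | h | h | h | h
          · rw [h]; decide
          · rw [h]; decide
          · rw [h]; decide
          · rw [h]; decide
          · exact absurd (Or.inl h) h7
          · exact absurd (Or.inr h) h7
        rw [sum_congr rfl (fun i _ => h6 i), sum_boole] at hs
        exact_mod_cast hs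
      · intro i
        have h7 : ¬ (y i = 5 ∨ y i = -5) := fun h => h5 ⟨i, h⟩
        rcases hv i with h | h | h | h | h | h
        · exact Or.inl h
        · exact Or.inr (Or.inl h)
        · exact Or.inr (Or.inr (Or.inl h))
        · exact Or.inr (Or.inr (Or.inr h))
        · exact absurd (Or.inl h) h7
        · exact absurd (Or.inr h) h7

/-- matching signs on a subset of an octad -/
theorem match_signs {O A : Finset GolayPt} (hO : O ∈ octads) (hA : A ⊆ O) {s : GolayPt}
    (hs : s ∈ O) (hsA : s ∉ A) (ε : GolayPt → Prop) :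
    ∃ D ⊆ O, Even D.card ∧ ∀ i ∈ A, (i ∈ D ↔ ε i) := by
  classical
  by_cases hev : Even (A.filter ε).card
  · refine ⟨A.filter ε, (filter_subset _ _).trans hA, hev, fun i hi => ?_⟩
    rw [mem_filter]; exact ⟨fun h => h.2, fun h => ⟨hi, h⟩⟩
  · have hs' : s ∉ A.filter ε := fun h => hsA (mem_filter.1 h).1
    refine ⟨insert s (A.filter ε), ?_, ?_, fun i hi => ?_⟩
    · rw [insert_subset_iff]; exact ⟨hs, (filter_subset _ _).trans hA⟩
    · rw [card_insert_of_notMem hs', Nat.even_add_one]; exact hev
    · rw [mem_insert, mem_filter]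
      constructor
      · rintro (rfl | h)
        · exact absurd hi hsA
        · exact h.2
      · intro h; exact Or.inr ⟨hi, h⟩

theorem M24_two' : True := trivial

/-- existence of one of the 100 vectors -/
theorem exists_x {p q : GolayPt} (hpq : p ≠ q) {y : leechLattice} (hn : sqNorm y.1 = 48)
    (hd : y.1 p + y.1 q = 4) :
    ∃ a : leechLattice, sqNorm a.1 = 32 ∧ a.1 p + a.1 q = 0 ∧ dotInt y.1 a.1 = 24 := by
  have four : ∀ i j (s t : ℤ) (hs : s = 4 ∨ s = -4) (ht : t = 4 ∨ t = -4), i ≠ j →
      (v2 i j s t p + v2 i j s t q = 0) → y.1 i * s + y.1 j * t = 24 →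
      ∃ a : leechLattice, sqNorm a.1 = 32 ∧ a.1 p + a.1 q = 0 ∧ dotInt y.1 a.1 = 24 := by
    intro i j s t hs ht hij h1 h2
    refine ⟨w2 i j s t hs ht, ?_, h1, ?_⟩
    · show sqNorm (v2 i j s t) = 32
      rw [norm_v2 hij]
      rcases hs with rfl | rfl <;> rcases ht with rfl | rfl <;> norm_num
    · show dotInt y.1 (v2 i j s t) = 24
      rw [dot_v2, h2]
  have hpm : v2 p q 4 (-4) p + v2 p q 4 (-4) q = 0 := by
    rw [v2_apply hpq, v2_apply hpq, if_pos rfl, if_neg hpq.symm, if_pos rfl]; norm_num
  have hmp : v2 p q (-4) 4 p + v2 p q (-4) 4 q = 0 := by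
    rw [v2_apply hpq, v2_apply hpq, if_pos rfl, if_neg hpq.symm, if_pos rfl]; norm_num
  rcases shape48 y.2 hn with ⟨hodd, r, hr, h1⟩ | ⟨hodd, h3, h1⟩ | ⟨O, hO, h2, r, hr, hr4, h0⟩ | ⟨P, hP, h2, h0⟩
  · -- five
    by_cases hrp : r = p
    · have h4 : y.1 q = 1 ∨ y.1 q = -1 := h1 q (by rw [hrp]; exact hpq.symm)
      rw [hrp] at hr
      exact four p q 4 (-4) (Or.inl rfl) (Or.inr rfl) hpq hpm (by omega)
    · by_cases hrq : r = q
      · have h4 : y.1 p = 1 ∨ y.1 p = -1 := h1 p (by rw [hrq]; exact hpq)
        rw [hrq] at hr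
        exact four p q (-4) 4 (Or.inr rfl) (Or.inl rfl) hpq hmp (by omega)
      · have h4 := h1 p (Ne.symm hrp)
        have h5 := h1 q (Ne.symm hrq)
        omega
  · -- three threes
    have hpq3 : (y.1 p = 3 ∧ y.1 q = 1) ∨ (y.1 p = 1 ∧ y.1 q = 3) := by
      have := h1 p
      have := h1 q
      omega
    have h4 : 1 < ((univ.filter (fun i => y.1 i ^ 2 = 9)) \ {p, q}).card := by
      have h5 := card_sdiff_add_card_inter (univ.filter (fun i => y.1 i ^ 2 = 9)) {p, q}
      have h6 : ((univ.filter (fun i => y.1 i ^ 2 = 9)) ∩ {p, q}).card ≤ 1 := by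
        rcases hpq3 with ⟨e1, e2⟩ | ⟨e1, e2⟩
        · apply (card_le_card (t := {p}) _).trans (by simp)
          intro i hi
          rw [mem_inter, mem_filter, mem_insert, mem_singleton] at hi
          rcases hi.2 with h | h
          · rw [h]; simp
          · rw [h, e2] at hi; norm_num at hi
        · apply (card_le_card (t := {q}) _).trans (by simp)
          intro i hi
          rw [mem_inter, mem_filter, mem_insert, mem_singleton] at hi
          rcases hi.2 with h | h
          · rw [h, e1] at hi; norm_num at hi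
          · rw [h]; simp
      omega
    obtain ⟨i, hi, j, hj, hij⟩ := one_lt_card.1 h4
    rw [mem_sdiff, mem_filter, mem_insert, mem_singleton, not_or] at hi hj
    have hi3 : y.1 i = 3 ∨ y.1 i = -3 := sq_eq_sq_iff_eq_or_eq_neg.1 (by rw [hi.1.2]; norm_num)
    have hj3 : y.1 j = 3 ∨ y.1 j = -3 := sq_eq_sq_iff_eq_or_eq_neg.1 (by rw [hj.1.2]; norm_num)
    have hz : ∀ s t, v2 i j s t p + v2 i j s t q = 0 := by
      intro s t
      rw [v2_apply hij, v2_apply hij, if_neg (Ne.symm hi.2.1), if_neg (Ne.symm hj.2.1),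
        if_neg (Ne.symm hi.2.2), if_neg (Ne.symm hj.2.2)]; norm_num
    rcases hi3 with e1 | e1 <;> rcases hj3 with e2 | e2
    · exact four i j 4 4 (Or.inl rfl) (Or.inl rfl) hij (hz _ _) (by rw [e1, e2]; norm_num)
    · exact four i j 4 (-4) (Or.inl rfl) (Or.inr rfl) hij (hz _ _) (by rw [e1, e2]; norm_num)
    · exact four i j (-4) 4 (Or.inr rfl) (Or.inl rfl) hij (hz _ _) (by rw [e1, e2]; norm_num)
    · exact four i j (-4) (-4) (Or.inr rfl) (Or.inr rfl) hij (hz _ _) (by rw [e1, e2]; norm_num)
  · -- octad and a four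
    have main : ∀ p q : GolayPt, p ≠ q → r = p → q ∉ O → y.1 p + y.1 q = 4 →
        ∃ a : leechLattice, sqNorm a.1 = 32 ∧ a.1 p + a.1 q = 0 ∧ dotInt y.1 a.1 = 24 := by
      intro p q hpq hrp hqO hd
      subst hrp
      have hyq : y.1 q = 0 := h0 q hqO hpq.symm
      have hyp : y.1 r = 4 := by omega
      obtain ⟨a, ha, _⟩ := exists_other hO (F := ∅) (by simp)
      obtain ⟨b, hb, hb2⟩ := exists_other hO (F := {a}) (by simp)
      obtain ⟨c, hc, hc2⟩ := exists_other hO (F := {a, b}) (card_le_two.trans (by norm_num))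
      obtain ⟨O', hO', hs, _⟩ := exists_octad {r, q, a, b, c} ∅ (by simp) (by
        rw [card_empty, add_zero]; exact card_le_five)
      have i1 : r ∈ O' := hs (by simp)
      have i2 : q ∈ O' := hs (by simp)
      have i3 : a ∈ O' := hs (by simp)
      have i4 : b ∈ O' := hs (by simp)
      have i5 : c ∈ O' := hs (by simp)
      have hne : O' ≠ O := by rintro rfl; exact hr i1
      have h6 := octads_inter hO' hO hne
      have h7 : ({a, b, c} : Finset GolayPt) ⊆ O' ∩ O := by
        intro x hx
        rw [mem_insert, mem_insert, mem_singleton] at hx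
        rcases hx with rfl | rfl | rfl
        · exact mem_inter.2 ⟨i3, ha⟩
        · exact mem_inter.2 ⟨i4, hb⟩
        · exact mem_inter.2 ⟨i5, hc⟩
      have h8 := card_le_card h7
      rw [mem_singleton] at hb2
      rw [mem_insert, mem_singleton, not_or] at hc2
      have h9 : ({a, b, c} : Finset GolayPt).card = 3 := by
        rw [card_insert_of_notMem, card_pair (Ne.symm hc2.2)]
        rw [mem_insert, mem_singleton, not_or]
        exact ⟨Ne.symm hb2, Ne.symm hc2.1⟩
      have h10 : (O' ∩ O).card = 4 := by omega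
      -- the set on which signs are prescribed
      set A : Finset GolayPt := (O' ∩ O) ∪ {r, q} with hA
      have hAO : A ⊆ O' := by
        rw [hA]
        apply union_subset inter_subset_left
        intro x hx
        rw [mem_insert, mem_singleton] at hx
        rcases hx with rfl | rfl <;> assumption
      have hAc : A.card ≤ 7 := by
        have h12 := card_union_le (O' ∩ O) {r, q}
        have h11 : ({r, q} : Finset GolayPt).card ≤ 2 := card_le_two
        rw [← hA, h10] at h12
        omega
      obtain ⟨s, hs, hsA⟩ := exists_other hO' hAc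
      obtain ⟨D, hD, hev, hsg⟩ := match_signs hO' hAO hs hsA (fun i => i = q ∨ (i ∈ O ∧ y.1 i = -2))
      have hrD : r ∉ D := by
        rw [hsg r (by rw [hA]; simp)]
        rintro (h | h)
        · exact hpq h
        · exact hr h.1
      have hqD : q ∈ D := (hsg q (by rw [hA]; simp)).2 (Or.inl rfl)
      refine ⟨⟨cv O' D, cv_mem (oct_sup hO') hD hev⟩, ?_, ?_, ?_⟩
      · show sqNorm (cv O' D) = 32
        rw [norm_cv, card_octad hO']; norm_num
      · show cv O' D r + cv O' D q = 0
        rw [cv_mid i1 hrD, cv_in i2 hqD]; norm_num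
      · show dotInt y.1 (cv O' D) = 24
        unfold dotInt
        have hval : ∀ i, y.1 i * cv O' D i = if i ∈ O' ∩ O then 4 else if i = r then 8 else 0 := by
          intro i
          by_cases hi : i ∈ O' ∩ O
          · rw [if_pos hi]
            have hi' := mem_inter.1 hi
            have hiq : i ≠ q := by rintro rfl; exact hqO hi'.2
            have h12 := hsg i (by rw [hA]; exact mem_union_left _ hi)
            rcases h2 i hi'.2 with h13 | h13
            · rw [cv_mid hi'.1, h13]
              · norm_num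
              · rw [h12]
                rintro (h | h)
                · exact hiq h
                · omega
            · rw [cv_in hi'.1 (h12.2 (Or.inr ⟨hi'.2, h13⟩)), h13]; norm_num
          · rw [if_neg hi]
            by_cases hir : i = r
            · rw [if_pos hir, hir, hyp, cv_mid i1 hrD]; norm_num
            · rw [if_neg hir]
              by_cases hiO' : i ∈ O'
              · have hiO : i ∉ O := fun h => hi (mem_inter.2 ⟨hiO', h⟩)
                rw [h0 i hiO hir, zero_mul]
              · rw [cv_out hiO', mul_zero]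
        rw [sum_congr rfl (fun i _ => hval i)]
        have : ∀ i, (if i ∈ O' ∩ O then (4 : ℤ) else if i = r then 8 else 0) =
            (if i ∈ O' ∩ O then 4 else 0) + (if i = r then 8 else 0) := by
          intro i
          by_cases hi : i ∈ O' ∩ O
          · have : i ≠ r := by rintro rfl; exact hr (mem_inter.1 hi).2
            rw [if_pos hi, if_pos hi, if_neg this]; norm_num
          · rw [if_neg hi, if_neg hi]; ring
        rw [sum_congr rfl (fun i _ => this i), sum_add_distrib, sum_ite_mem, univ_inter, sum_const,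
          h10, sum_ite_eq' univ r, if_pos (mem_univ _)]
        norm_num
    by_cases hpO : p ∈ O
    · by_cases hqO : q ∈ O
      · -- both in the octad
        have e1 : y.1 p = 2 := by have := h2 p hpO; have := h2 q hqO; omega
        obtain ⟨i, hi, hi2⟩ := exists_other hO (F := {p, q}) (card_le_two.trans (by norm_num))
        rw [mem_insert, mem_singleton, not_or] at hi2
        have hri : r ≠ i := by rintro rfl; exact hr hi
        have hrp : p ≠ r := by rintro rfl; exact hr hpO
        have hrq : q ≠ r := by rintro rfl; exact hr hqO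
        have hz : ∀ s t, v2 r i s t p + v2 r i s t q = 0 := by
          intro s t
          rw [v2_apply hri, v2_apply hri, if_neg hrp, if_neg (Ne.symm hi2.1),
            if_neg hrq, if_neg (Ne.symm hi2.2)]; norm_num
        rcases hr4 with e2 | e2 <;> rcases h2 i hi with e3 | e3
        · exact four r i 4 4 (Or.inl rfl) (Or.inl rfl) hri (hz _ _) (by rw [e2, e3]; norm_num)
        · exact four r i 4 (-4) (Or.inl rfl) (Or.inr rfl) hri (hz _ _) (by rw [e2, e3]; norm_num)
        · exact four r i (-4) 4 (Or.inr rfl) (Or.inl rfl) hri (hz _ _) (by rw [e2, e3]; norm_num)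
        · exact four r i (-4) (-4) (Or.inr rfl) (Or.inr rfl) hri (hz _ _) (by rw [e2, e3]; norm_num)
      · exfalso
        have := h2 p hpO
        by_cases hqr : q = r
        · rw [hqr] at hd; omega
        · have := h0 q hqO hqr; omega
    · by_cases hpr : p = r
      · by_cases hqO : q ∈ O
        · exfalso
          have := h2 q hqO
          rw [hpr] at hd; omega
        · exact main p q hpq hpr.symm hqO hd
      · have h4 := h0 p hpO hpr
        by_cases hqr : q = r
        · obtain ⟨a, ha1, ha2, ha3⟩ := main q p hpq.symm hqr.symm hpO (by rw [add_comm]; exact hd)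
          exact ⟨a, ha1, by rw [add_comm]; exact ha2, ha3⟩
        · exfalso
          by_cases hqO : q ∈ O
          · have := h2 q hqO; omega
          · have := h0 q hqO hqr; omega
  · -- dodecad
    have hPc : P.card = 12 := (mem_dodecads'.1 hP).2
    have hPS : P ∈ Sup := (mem_dodecads'.1 hP).1
    have hpP : p ∈ P := by
      by_contra h
      have h3 := h0 p h
      by_cases hq : q ∈ P
      · have := h2 q hq; omega
      · have := h0 q hq; omega
    have hqP : q ∈ P := by
      by_contra h
      have h3 := h0 q h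
      have := h2 p hpP; omega
    -- three more points of P
    obtain ⟨T, hT, hTc⟩ : ∃ T ⊆ P, T.card = 5 ∧ p ∈ T ∧ q ∈ T := by
      have h4 : ({p, q} : Finset GolayPt) ⊆ P := by
        intro x hx
        rw [mem_insert, mem_singleton] at hx
        rcases hx with rfl | rfl <;> assumption
      obtain ⟨T, h5, h6, h7⟩ := exists_subsuperset_card_eq h4 (n := 5) (by
        exact (card_le_two).trans (by norm_num)) (by rw [hPc]; norm_num)
      exact ⟨T, h6, h7, h5 (by simp), h5 (by simp)⟩
    obtain ⟨O1, hO1, hs, _⟩ := exists_octad T ∅ (by simp) (by rw [hTc.1]; simp)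
    have h5 := symmDiff_card_of_supports (oct_sup hO1) hPS
    have h6 := card_symmDiff_add O1 P
    rw [card_octad hO1, hPc] at h6
    have h7 := card_le_card (subset_inter hs hT)
    rw [hTc.1] at h7
    have h8 := card_octad hO1
    have h9 : (O1 ∩ P).card ≤ 8 := by rw [← h8]; exact card_le_card inter_subset_left
    have hO' : symmDiff O1 P ∈ Sup := sup_symmDiff (oct_sup hO1) hPS
    have h10 := sup_card hO'
    have h11 : (O1 ∩ P).card = 6 ∧ (symmDiff O1 P).card = 8 := by omega
    have hO'o : symmDiff O1 P ∈ octads := mem_octads'.2 ⟨hO', h11.2⟩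
    have hpO' : p ∉ symmDiff O1 P := by
      rw [mem_symmDiff]; rintro (h | h)
      · exact h.2 hpP
      · exact h.2 (hs hTc.2.1)
    have hqO' : q ∉ symmDiff O1 P := by
      rw [mem_symmDiff]; rintro (h | h)
      · exact h.2 hqP
      · exact h.2 (hs hTc.2.2)
    have hAc : (P \ O1).card = 6 := by
      have := card_sdiff_add_card_inter P O1
      rw [inter_comm, h11.1, hPc] at this
      omega
    have hAO : P \ O1 ⊆ symmDiff O1 P := by
      intro x hx
      rw [mem_sdiff] at hx
      rw [mem_symmDiff]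
      exact Or.inr hx
    obtain ⟨s, hs', hsA⟩ := exists_other hO'o (F := P \ O1) (by rw [hAc]; norm_num)
    obtain ⟨D, hD, hev, hsg⟩ := match_signs hO'o hAO hs' hsA (fun i => y.1 i = -2)
    refine ⟨⟨cv (symmDiff O1 P) D, cv_mem hO' hD hev⟩, ?_, ?_, ?_⟩
    · show sqNorm (cv (symmDiff O1 P) D) = 32
      rw [norm_cv, h11.2]; norm_num
    · show cv (symmDiff O1 P) D p + cv (symmDiff O1 P) D q = 0
      rw [cv_out hpO', cv_out hqO']; norm_num
    · show dotInt y.1 (cv (symmDiff O1 P) D) = 24
      unfold dotInt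
      have hval : ∀ i, y.1 i * cv (symmDiff O1 P) D i = if i ∈ P \ O1 then 4 else 0 := by
        intro i
        by_cases hi : i ∈ P \ O1
        · rw [if_pos hi]
          have h12 := hsg i hi
          rcases h2 i (mem_sdiff.1 hi).1 with h13 | h13
          · rw [cv_mid (hAO hi), h13]
            · norm_num
            · rw [h12]; omega
          · rw [cv_in (hAO hi) (h12.2 h13), h13]; norm_num
        · rw [if_neg hi]
          by_cases hiP : i ∈ P
          · have : i ∉ symmDiff O1 P := by
              rw [mem_symmDiff]; rintro (h | h)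
              · exact h.2 hiP
              · exact hi (mem_sdiff.2 h)
            rw [cv_out this, mul_zero]
          · rw [h0 i hiP, zero_mul]
      rw [sum_congr rfl (fun i _ => hval i), sum_ite_mem, univ_inter, sum_const, hAc]
      norm_num

end CfsgL.Lat
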