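import Cfsg.Agent.L.Lat.HS
/-!
The Higman-Sims graph: rank three.
-/
set_option autoImplicit false
set_option maxHeartbeats 400000
namespace CfsgL.Lat
open Finset Cfsg CfsgL.Leech CfsgL.Golay CfsgL.GU CfsgL.Steiner
open scoped Pointwise

/-- existence of one of the 100 vectors -/
theorem exists_x' {v w : leechLattice} (hv : sqNorm v.1 = 48) (hw : sqNorm w.1 = 48)
    (hvw : dotInt v.1 w.1 = -32) :
    ∃ x : leechLattice, sqNorm x.1 = 32 ∧ dotInt v.1 x.1 = 24 ∧ dotInt w.1 x.1 = -24 := by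
  obtain ⟨p, q, r, hpq, hpr, hqr⟩ := two_pts'
  have ht : sqNorm (v + w).1 = 32 := by rw [coe_add', norm_add, hv, hw, hvw]; norm_num
  obtain ⟨k, hk⟩ := nf32 (v + w) ht hpq
  have htv : dotInt (v + w).1 v.1 = 16 := by
    rw [coe_add', dot_add_l, ← sqNorm_eq_dot, hv, dot_comm, hvw]; norm_num
  have h1 : (k • v).1 p + (k • v).1 q = 4 := by
    have := co_dot k (v + w) v
    rw [hk, dot_v2', htv] at this
    linarith
  obtain ⟨a, ha1, ha2, ha3⟩ := exists_x hpq (y := k • v) (by rw [co_norm, hv]) h1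
  have h2 : dotInt (v + w).1 (k⁻¹ • a).1 = 0 := by
    have := co_dot k (v + w) (k⁻¹ • a)
    rw [smul_inv_smul, hk, dot_v2'] at this
    linarith
  have h3 : dotInt v.1 (k⁻¹ • a).1 = 24 := by
    have := co_dot k v (k⁻¹ • a)
    rw [smul_inv_smul, ha3] at this
    exact this.symm
  refine ⟨k⁻¹ • a, by rw [co_norm, ha1], h3, ?_⟩
  rw [coe_add', dot_add_l, h3] at h2
  linarith

/-- normal form for the pair -/
theorem nfHS2 {v w : leechLattice} (hv : sqNorm v.1 = 48) (hw : sqNorm w.1 = 48)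
    (hvw : dotInt v.1 w.1 = -32) {p q : GolayPt} (hpq : p ≠ q) :
    ∃ g : Co0, (g • v).1 = v1 p 5 ∧ (g • (v + w)).1 = v2 p q 4 (-4) := by
  obtain ⟨x, h1, h2, h3⟩ := exists_x' hv hw hvw
  obtain ⟨g, h4, h5, _⟩ := nfHS hv hw hvw h1 h2 h3 hpq
  exact ⟨g, h4, h5⟩

/-- conditions in normal form -/
theorem hs_cond {v w x : leechLattice} {p q : GolayPt} {g : Co0}
    (h1 : (g • v).1 = v1 p 5) (h2 : (g • (v + w)).1 = v2 p q 4 (-4)) :
    (dotInt v.1 x.1 = 24 ∧ dotInt w.1 x.1 = -24) ↔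
      (∑ i, (g • x).1 i + 4 * (g • x).1 p = 24 ∧ (g • x).1 p = (g • x).1 q) := by
  have h3 := co_dot g v x
  rw [h1, dot_comm, dot_v1_5] at h3
  have h4 := co_dot g (v + w) x
  rw [h2, dot_v2', coe_add', dot_add_l] at h4
  rw [h3]
  constructor
  · rintro ⟨a, b⟩; exact ⟨a, by linarith⟩
  · rintro ⟨a, b⟩; exact ⟨a, by linarith⟩

theorem card100 {p q : GolayPt} (hpq : p ≠ q) :
    {x : GolayPt → ℤ | x ∈ leechLattice ∧ sqNorm x = 32 ∧ ∑ i, x i + 4 * x p = 24 ∧
      x p = x q}.ncard = 100 := by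
  rw [count552' p (fun x => x p = x q) (A := {q}) (B := ex octads {p, q} ∅)
    (C := (univ.erase p).erase q) (D := ∅)]
  · rw [card_oct _ _ (by simp) (by rw [card_pair hpq]; simp), card_pair hpq, card_singleton,
      card_empty, card_erase_of_mem (mem_erase.2 ⟨hpq.symm, mem_univ _⟩),
      card_erase_of_mem (mem_univ p), card_univ, card_pt]
    rfl
  · intro j
    rw [mem_singleton]
    constructor
    · rintro rfl
      refine ⟨hpq.symm, ?_⟩
      rw [v2_apply hpq, v2_apply hpq, if_pos rfl, if_neg hpq.symm, if_pos rfl]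
    · rintro ⟨h1, h2⟩
      rw [v2_apply h1.symm, v2_apply h1.symm, if_pos rfl, if_neg hpq.symm] at h2
      by_contra hne
      rw [if_neg (Ne.symm hne)] at h2; norm_num at h2
  · intro O
    rw [mem_ex, cv0, cv0, insert_subset_iff, singleton_subset_iff]
    constructor
    · rintro ⟨h1, ⟨h2, h3⟩, _⟩
      rw [if_pos h2, if_pos h3]; exact ⟨⟨h1, h2⟩, rfl⟩
    · rintro ⟨⟨h1, h2⟩, h3⟩
      rw [if_pos h2] at h3
      refine ⟨h1, ⟨h2, ?_⟩, disjoint_empty_left _⟩
      by_contra hp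
      rw [if_neg hp] at h3; norm_num at h3
  · intro j
    rw [mem_erase, mem_erase]
    unfold v1
    constructor
    · rintro ⟨h1, h2, _⟩
      rw [if_neg (Ne.symm h2), if_neg (Ne.symm h1)]; exact ⟨h2, rfl⟩
    · rintro ⟨h1, h2⟩
      rw [if_neg (Ne.symm h1)] at h2
      refine ⟨?_, h1, mem_univ _⟩
      rintro rfl
      rw [if_pos rfl] at h2; norm_num at h2
  · intro O
    constructor
    · intro h; exact absurd h (notMem_empty _)
    · rintro ⟨h1, h2⟩
      exfalso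
      unfold vD at h2
      rw [if_pos rfl, if_neg hpq.symm] at h2
      split_ifs at h2 <;> omega

theorem card22 {p q : GolayPt} (hpq : p ≠ q) :
    {x : GolayPt → ℤ | x ∈ leechLattice ∧ sqNorm x = 32 ∧ ∑ i, x i + 4 * x p = 24 ∧
      (x p = x q ∧ x p + x q = 2)}.ncard = 22 := by
  rw [count552' p (fun x => x p = x q ∧ x p + x q = 2) (A := ∅) (B := ∅)
    (C := (univ.erase p).erase q) (D := ∅)]
  · rw [card_empty, card_empty, card_erase_of_mem (mem_erase.2 ⟨hpq.symm, mem_univ _⟩),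
      card_erase_of_mem (mem_univ p), card_univ, card_pt]
  · intro j
    constructor
    · intro h; exact absurd h (notMem_empty _)
    · rintro ⟨h1, h2, h3⟩
      exfalso
      rw [v2_apply h1.symm, v2_apply h1.symm, if_pos rfl] at h3
      split_ifs at h3 <;> omega
  · intro O
    constructor
    · intro h; exact absurd h (notMem_empty _)
    · rintro ⟨⟨h1, h2⟩, h3, h4⟩
      exfalso
      rw [cv0, cv0, if_pos h2] at h3 h4
      split_ifs at h3 h4 <;> omega
  · intro j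
    rw [mem_erase, mem_erase]
    unfold v1
    constructor
    · rintro ⟨h1, h2, _⟩
      rw [if_neg (Ne.symm h2), if_neg (Ne.symm h1)]; exact ⟨h2, rfl, by norm_num⟩
    · rintro ⟨h1, h2, _⟩
      rw [if_neg (Ne.symm h1)] at h2
      refine ⟨?_, h1, mem_univ _⟩
      rintro rfl
      rw [if_pos rfl] at h2; norm_num at h2
  · intro O
    constructor
    · intro h; exact absurd h (notMem_empty _)
    · rintro ⟨h1, h2, _⟩
      exfalso
      unfold vD at h2
      rw [if_pos rfl, if_neg hpq.symm] at h2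
      split_ifs at h2 <;> omega

theorem card77 {p q : GolayPt} (hpq : p ≠ q) :
    {x : GolayPt → ℤ | x ∈ leechLattice ∧ sqNorm x = 32 ∧ ∑ i, x i + 4 * x p = 24 ∧
      (x p = x q ∧ x ≠ v2 p q 4 4 ∧ x p + x q ≠ 2)}.ncard = 77 := by
  rw [count552' p (fun x => x p = x q ∧ x ≠ v2 p q 4 4 ∧ x p + x q ≠ 2) (A := ∅)
    (B := ex octads {p, q} ∅) (C := ∅) (D := ∅)]
  · rw [card_oct _ _ (by simp) (by rw [card_pair hpq]; simp), card_pair hpq, card_empty, card_empty]
    rfl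
  · intro j
    constructor
    · intro h; exact absurd h (notMem_empty _)
    · rintro ⟨h1, h2, h3, h4⟩
      exfalso
      rw [v2_apply h1.symm, v2_apply h1.symm, if_pos rfl, if_neg hpq.symm] at h2
      by_cases hne : j = q
      · rw [hne] at h3; exact h3 rfl
      · rw [if_neg (Ne.symm hne)] at h2; norm_num at h2
  · intro O
    rw [mem_ex, cv0, cv0, insert_subset_iff, singleton_subset_iff]
    constructor
    · rintro ⟨h1, ⟨h2, h3⟩, _⟩
      rw [if_pos h2, if_pos h3]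
      refine ⟨⟨h1, h2⟩, rfl, ?_, by norm_num⟩
      intro e
      have := congrFun e p
      rw [v2_apply hpq, if_pos rfl, cv0, if_pos h2] at this
      norm_num at this
    · rintro ⟨⟨h1, h2⟩, h3, _⟩
      rw [if_pos h2] at h3
      refine ⟨h1, ⟨h2, ?_⟩, disjoint_empty_left _⟩
      by_contra hp
      rw [if_neg hp] at h3; norm_num at h3
  · intro j
    constructor
    · intro h; exact absurd h (notMem_empty _)
    · rintro ⟨h1, h2, h3, h4⟩
      exfalso
      unfold v1 at h2 h4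
      rw [if_neg (Ne.symm h1)] at h2 h4
      split_ifs at h2 h4 <;> omega
  · intro O
    constructor
    · intro h; exact absurd h (notMem_empty _)
    · rintro ⟨h1, h2, _⟩
      exfalso
      unfold vD at h2
      rw [if_pos rfl, if_neg hpq.symm] at h2
      split_ifs at h2 <;> omega

/-- normal form with a neighbour -/
theorem nf22 {v w x y : leechLattice} (hv : sqNorm v.1 = 48) (hw : sqNorm w.1 = 48)
    (hvw : dotInt v.1 w.1 = -32) (hx : sqNorm x.1 = 32) (hvx : dotInt v.1 x.1 = 24)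
    (hwx : dotInt w.1 x.1 = -24) (hy : sqNorm y.1 = 32) (hvy : dotInt v.1 y.1 = 24)
    (hwy : dotInt w.1 y.1 = -24) (hxy : dotInt x.1 y.1 = 8)
    {p q r : GolayPt} (hpq : p ≠ q) (hpr : p ≠ r) (hqr : q ≠ r) :
    ∃ g : Co0, (g • v).1 = v1 p 5 ∧ (g • (v + w)).1 = v2 p q 4 (-4) ∧ (g • x).1 = v2 p q 4 4 ∧
      (g • y).1 = v1 r (-3) := by
  obtain ⟨g, h1, h2, h3⟩ := nfHS hv hw hvw hx hvx hwx hpq
  obtain ⟨h4, h5⟩ := (hs_cond h1 h2).1 ⟨hvy, hwy⟩
  have h6 := co_dot g x y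
  rw [h3, dot_v2', hxy] at h6
  rcases cls552 (g • y).2 (by rw [co_norm, hy]) p h4 with ⟨j, hj, h⟩ | ⟨O, hO, hp, h⟩ | ⟨j, hj, h⟩ | ⟨O, hO, hp, h⟩
  · exfalso
    rw [h, v2_apply hj.symm, v2_apply hj.symm, if_pos rfl] at h6
    split_ifs at h6 <;> omega
  · exfalso
    rw [h, cv0, cv0, if_pos hp] at h5 h6
    split_ifs at h5 h6 <;> omega
  · have hqj : q ≠ j := by
      rintro rfl
      rw [h] at h5
      unfold v1 at h5
      rw [if_neg (Ne.symm hj), if_pos rfl] at h5; norm_num at h5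
    obtain ⟨σ, e1, e2, e3⟩ := M24_three hpq hj.symm hqj hpq hpr hqr
    refine ⟨pm σ * g, ?_, ?_, ?_, ?_⟩
    · rw [mul_smul, pm_v1 σ h1, e1]
    · rw [mul_smul, pm_v2 σ hpq h2, e1, e2]
    · rw [mul_smul, pm_v2 σ hpq h3, e1, e2]
    · rw [mul_smul, pm_v1 σ h, e3]
  · exfalso
    rw [h] at h5
    unfold vD at h5
    rw [if_pos rfl, if_neg hpq.symm] at h5
    split_ifs at h5 <;> omega

theorem nf77 {v w x y : leechLattice} (hv : sqNorm v.1 = 48) (hw : sqNorm w.1 = 48)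
    (hvw : dotInt v.1 w.1 = -32) (hx : sqNorm x.1 = 32) (hvx : dotInt v.1 x.1 = 24)
    (hwx : dotInt w.1 x.1 = -24) (hy : sqNorm y.1 = 32) (hvy : dotInt v.1 y.1 = 24)
    (hwy : dotInt w.1 y.1 = -24) (hxy : dotInt x.1 y.1 ≠ 8) (hne : y ≠ x)
    {p q : GolayPt} (hpq : p ≠ q) {O0 : Finset GolayPt} (hO0 : O0 ∈ octads) (hp0 : p ∈ O0)
    (hq0 : q ∈ O0) :
    ∃ g : Co0, (g • v).1 = v1 p 5 ∧ (g • (v + w)).1 = v2 p q 4 (-4) ∧ (g • x).1 = v2 p q 4 4 ∧
      (g • y).1 = cv O0 ∅ := by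
  obtain ⟨g, h1, h2, h3⟩ := nfHS hv hw hvw hx hvx hwx hpq
  obtain ⟨h4, h5⟩ := (hs_cond h1 h2).1 ⟨hvy, hwy⟩
  have h6 := co_dot g x y
  rw [h3, dot_v2'] at h6
  rcases cls552 (g • y).2 (by rw [co_norm, hy]) p h4 with ⟨j, hj, h⟩ | ⟨O, hO, hp, h⟩ | ⟨j, hj, h⟩ | ⟨O, hO, hp, h⟩
  · exfalso
    by_cases hqj : j = q
    · apply hne
      apply MulAction.injective g
      apply Subtype.ext
      show (g • y).1 = (g • x).1
      rw [h, h3, hqj]
    · rw [h, v2_apply hj.symm, v2_apply hj.symm, if_pos rfl, if_neg hpq.symm, if_neg (Ne.symm hqj)] at h5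
      norm_num at h5
  · have hq : q ∈ O := by
      by_contra hno
      rw [h, cv0, cv0, if_pos hp, if_neg hno] at h5; norm_num at h5
    have key : ∀ {O : Finset GolayPt}, O ∈ octads → ∃ r, r ∉ O := by
      intro O hO
      by_contra hno
      push Not at hno
      have := card_octad hO
      rw [eq_univ_iff_forall.2 hno, card_univ, card_pt] at this
      norm_num at this
    obtain ⟨r, hr⟩ := key hO
    obtain ⟨r', hr'⟩ := key hO0
    obtain ⟨σ, e1, e2, e3, e4⟩ := M24_56 hO hO0 hp hq hr hp0 hq0 hr' hpq hpq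
    refine ⟨pm σ * g, ?_, ?_, ?_, ?_⟩
    · rw [mul_smul, pm_v1 σ h1, e1]
    · rw [mul_smul, pm_v2 σ hpq h2, e1, e2]
    · rw [mul_smul, pm_v2 σ hpq h3, e1, e2]
    · rw [mul_smul, pm_cv σ h, e4, Finset.smul_finset_empty]
  · exfalso
    apply hxy
    rw [← h6, h]
    unfold v1
    have hqj : q ≠ j := by
      rintro rfl
      rw [h] at h5
      unfold v1 at h5
      rw [if_neg (Ne.symm hj), if_pos rfl] at h5; norm_num at h5
    rw [if_neg (Ne.symm hj), if_neg hqj]; norm_num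
  · exfalso
    rw [h] at h5
    unfold vD at h5
    rw [if_pos rfl, if_neg hpq.symm] at h5
    split_ifs at h5 <;> omega

end CfsgL.Lat
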