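import Cfsg.Agent.L.Lat.Std2
import Cfsg.Agent.L.Leech.Index
/-!
Every even rootless lattice of rank 24 with the Leech counts is the Leech lattice.
-/
set_option autoImplicit false
set_option maxHeartbeats 400000
namespace CfsgL.Lat
open Finset Cfsg CfsgL.GU CfsgL.Leech CfsgL.Golay

section
variable {ι : Type*} [Fintype ι] {Λ : AddSubgroup (ι → ℤ)} {b : Λ → Λ → ℤ}

theorem exists_frame' (h : IsRL Λ b) {x : Λ} (hx : b x x = 8) :
    ∃ T : Finset Λ, x ∈ T ∧ IsFrame b T ∧
      ∀ y, b y y = 8 → (∃ z, x - y = z + z) → y ∈ T ∨ -y ∈ T := by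
  obtain ⟨T, h1, h2, h3, h4, h5, h6⟩ := exists_frame h hx
  exact ⟨T, h1, ⟨h2, h3, h4, h5⟩, h6⟩

/-- main theorem : the lattice is the Leech lattice, and a given vector of norm 8 becomes a given
frame vector -/
theorem main (h : IsRL Λ b) {x0 : Λ} (hx0 : b x0 x0 = 8) (p0 : GolayPt) :
    ∃ f : Λ ≃+ leechLattice,
      (∀ x y, dotInt ((f x : leechLattice) : GolayPt → ℤ) ((f y : leechLattice) : GolayPt → ℤ) = 8 * b x y) ∧
      ((f x0 : leechLattice) : GolayPt → ℤ) = Pi.single p0 8 := by
  classical
  obtain ⟨T, hxT, hT, _⟩ := exists_frame' h hx0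
  have hM := range_isM h hT
  obtain ⟨ε, hε, hmem⟩ := hM.std
  obtain ⟨E, hE, hEx⟩ := CfsgL.S23.unique1 hM.golay G0_golay (⟨x0, hxT⟩ : T) p0
  have hεε : ∀ i, ε i * ε i = 1 := by
    intro i; rcases hε i with e | e <;> rw [e] <;> norm_num
  set δ : ℤ := ε ⟨x0, hxT⟩ with hδ
  have hδδ : δ * δ = 1 := hεε _
  -- the map
  let g : Λ →+ (GolayPt → ℤ) :=
    { toFun := fun v i => δ * (ε (E.symm i) * co h T v (E.symm i))
      map_zero' := by funext i; rw [map_zero, Pi.zero_apply, Pi.zero_apply]; ring
      map_add' := by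
        intro x y; funext i
        rw [map_add, Pi.add_apply, Pi.add_apply]; ring }
  have hg : ∀ v i, g v i = δ * (ε (E.symm i) * co h T v (E.symm i)) := fun _ _ => rfl
  have hdot : ∀ x y, dotInt (g x) (g y) = 8 * b x y := by
    intro x y
    rw [← parseval h hT x y]
    unfold dotInt
    rw [← Equiv.sum_comp E]
    apply sum_congr rfl
    intro t _
    rw [hg, hg, E.symm_apply_apply]
    calc δ * (ε t * co h T x t) * (δ * (ε t * co h T y t))
        = (δ * δ) * (ε t * ε t) * (co h T x t * co h T y t) := by ring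
      _ = co h T x t * co h T y t := by rw [hδδ, hεε]; ring
  have hinj : Function.Injective g := by
    rw [injective_iff_map_eq_zero]
    intro v hv
    apply h.eq_zero
    have := hdot v v
    rw [hv] at this
    have h0 : dotInt (0 : GolayPt → ℤ) 0 = 0 := by simp [dotInt]
    rw [h0] at this
    omega
  have hcode : ∀ s : Finset T, s ∈ code (co h T).range ↔ s.map E.toEmbedding ∈ Sup := by
    intro s
    rw [hE, mem_G0]
  -- membership
  have hlee : ∀ y : GolayPt → ℤ, y ∈ leechLattice ↔ (fun t => ε t * y (E t)) ∈ (co h T).range := by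
    intro y
    rw [mem_leech, hmem (fun t => y (E t))]
    constructor
    · rintro ⟨m, C, z, hC, hz, rfl⟩
      refine ⟨m, C.map E.symm.toEmbedding, fun t => z (E t), ?_, ?_, ?_⟩
      · rw [hcode, Finset.map_map]
        have : E.symm.toEmbedding.trans E.toEmbedding = Function.Embedding.refl _ := by
          ext x; simp
        rw [this, Finset.map_refl]
        exact hC
      · rw [Equiv.sum_comp E z]; exact hz
      · funext t
        unfold vec ind
        have h1 : E t ∈ C ↔ t ∈ C.map E.symm.toEmbedding := by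
          rw [Finset.mem_map_equiv, Equiv.symm_symm]
        simp only [h1]
    · rintro ⟨m, S, z, hS, hz, he⟩
      refine ⟨m, S.map E.toEmbedding, fun i => z (E.symm i), ?_, ?_, ?_⟩
      · rw [← hcode]; exact hS
      · rw [Equiv.sum_comp E.symm z]; exact hz
      · funext i
        have h2 := congrFun he (E.symm i)
        beta_reduce at h2
        rw [E.apply_symm_apply] at h2
        rw [h2]
        unfold vec ind
        have h1 : i ∈ S.map E.toEmbedding ↔ E.symm i ∈ S := by
          rw [Finset.mem_map_equiv]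
        simp only [h1]
  have hneg : ∀ y : GolayPt → ℤ, (fun i => δ * y i) ∈ leechLattice ↔ y ∈ leechLattice := by
    intro y
    rcases hε ⟨x0, hxT⟩ with e | e
    · have : (fun i => δ * y i) = y := by funext i; rw [hδ, e, one_mul]
      rw [this]
    · have : (fun i => δ * y i) = - y := by funext i; rw [hδ, e, Pi.neg_apply]; ring
      rw [this]
      exact neg_mem_iff
  have hrange : g.range = leechLattice := by
    ext y
    rw [AddMonoidHom.mem_range, ← hneg, hlee]
    constructor
    · rintro ⟨v, rfl⟩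
      refine ⟨v, ?_⟩
      funext t
      rw [hg, E.symm_apply_apply]
      calc co h T v t = (δ * δ) * (ε t * ε t) * co h T v t := by rw [hδδ, hεε]; ring
        _ = ε t * (δ * (δ * (ε t * co h T v t))) := by ring
    · rintro ⟨v, hv⟩
      refine ⟨v, ?_⟩
      funext i
      rw [hg, hv]
      beta_reduce
      rw [E.apply_symm_apply]
      calc δ * (ε (E.symm i) * (ε (E.symm i) * (δ * y i))) =
          (δ * δ) * (ε (E.symm i) * ε (E.symm i)) * y i := by ring
        _ = y i := by rw [hδδ, hεε]; ring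
  refine ⟨(AddMonoidHom.ofInjective hinj).trans (AddEquiv.addSubgroupCongr hrange), hdot, ?_⟩
  show g x0 = _
  funext i
  rw [hg]
  have h1 : co h T x0 = Pi.single (⟨x0, hxT⟩ : T) 8 := co_single h hT ⟨x0, hxT⟩
  rw [h1]
  by_cases hi : i = p0
  · have h2 : E.symm i = ⟨x0, hxT⟩ := by rw [hi, ← hEx, E.symm_apply_apply]
    rw [h2, hi, Pi.single_eq_same, Pi.single_eq_same]
    calc δ * (ε ⟨x0, hxT⟩ * 8) = (δ * δ) * 8 := by rw [hδ]; ring
      _ = 8 := by rw [hδδ]; norm_num
  · have h2 : E.symm i ≠ ⟨x0, hxT⟩ := by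
      intro e
      apply hi
      rw [← hEx, ← e, E.apply_symm_apply]
    rw [Pi.single_eq_of_ne h2, Pi.single_eq_of_ne hi]; ring

end
end CfsgL.Lat
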