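import Cfsg.Agent.L.Lat.Main
/-!
Integral forms given by matrices.
-/
set_option autoImplicit false
set_option maxHeartbeats 400000
namespace CfsgL.Lat
open Finset Cfsg Matrix

/-- the form on the full lattice -/
def bm (B : Matrix (Fin 24) (Fin 24) ℤ) (x y : (⊤ : AddSubgroup (Fin 24 → ℤ))) : ℤ :=
  x.1 ⬝ᵥ (B *ᵥ y.1)

theorem form_symm {B : Matrix (Fin 24) (Fin 24) ℤ} (hB : B.IsSymm) (x y : Fin 24 → ℤ) :
    x ⬝ᵥ (B *ᵥ y) = y ⬝ᵥ (B *ᵥ x) := by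
  rw [dotProduct_comm, ← Matrix.vecMul_transpose, Matrix.dotProduct_mulVec]
  rw [hB.eq]

theorem ncard_top (p : (Fin 24 → ℤ) → Prop) :
    {x : (⊤ : AddSubgroup (Fin 24 → ℤ)) | p x.1}.ncard = {x | p x}.ncard := by
  rw [← Set.ncard_image_of_injective {x : (⊤ : AddSubgroup (Fin 24 → ℤ)) | p x.1}
    Subtype.val_injective]
  congr 1
  ext x
  constructor
  · rintro ⟨y, hy, rfl⟩; exact hy
  · intro hx; exact ⟨⟨x, trivial⟩, hx, rfl⟩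

theorem rl_bm {B : Matrix (Fin 24) (Fin 24) ℤ} (hsymm : B.IsSymm)
    (hpos : ∀ x : Fin 24 → ℤ, x ≠ 0 → 0 < x ⬝ᵥ (B *ᵥ x))
    (heven : ∀ x : Fin 24 → ℤ, (2 : ℤ) ∣ x ⬝ᵥ (B *ᵥ x)) (h2 : ∀ x : Fin 24 → ℤ, x ⬝ᵥ (B *ᵥ x) ≠ 2)
    (h4 : {x : Fin 24 → ℤ | x ⬝ᵥ (B *ᵥ x) = 4}.ncard = 196560)
    (h6 : {x : Fin 24 → ℤ | x ⬝ᵥ (B *ᵥ x) = 6}.ncard = 16773120)
    (h8 : {x : Fin 24 → ℤ | x ⬝ᵥ (B *ᵥ x) = 8}.ncard = 398034000) :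
    IsRL (⊤ : AddSubgroup (Fin 24 → ℤ)) (bm B) := by
  refine ⟨Fintype.card_fin 24, ?_, ?_, ?_, ?_, ?_, ?_, ?_, ?_, ?_⟩
  · rw [AddSubgroup.index_top]; norm_num
  · intro x y z
    show (x.1 + y.1) ⬝ᵥ (B *ᵥ z.1) = _
    rw [add_dotProduct]; rfl
  · intro x y; exact form_symm hsymm _ _
  · intro x hx
    exact hpos x.1 (fun e => hx (Subtype.ext e))
  · intro x; exact heven x.1
  · intro x; exact h2 x.1
  · rw [← h4]; exact ncard_top (fun x => x ⬝ᵥ (B *ᵥ x) = 4)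
  · rw [← h6]; exact ncard_top (fun x => x ⬝ᵥ (B *ᵥ x) = 6)
  · rw [← h8]; exact ncard_top (fun x => x ⬝ᵥ (B *ᵥ x) = 8)

theorem exists8 {ι : Type*} [Fintype ι] {Λ : AddSubgroup (ι → ℤ)} {b : Λ → Λ → ℤ} (h : IsRL Λ b) :
    ∃ x, b x x = 8 := by
  have h1 : {x | b x x = 8}.Nonempty := by
    apply Set.nonempty_of_ncard_ne_zero
    rw [h.c8]; norm_num
  exact h1

end CfsgL.Lat
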