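import Cfsg.Agent.L.Lat.C552
import Cfsg.Agent.L.Golay.OctTrans
/-!
The 275 vectors of the McLaughlin graph.
-/
set_option autoImplicit false
set_option maxHeartbeats 400000
namespace CfsgL.Lat
open Finset Cfsg CfsgL.Leech CfsgL.Golay CfsgL.GU CfsgL.Steiner
open scoped Pointwise

theorem ncard_transfer (g : Co0) {S T : Set leechLattice} (h : ∀ x, x ∈ S ↔ g • x ∈ T) :
    S.ncard = T.ncard := by
  rw [← Set.ncard_image_of_injective S (MulAction.injective g)]
  congr 1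
  ext y
  constructor
  · rintro ⟨x, hx, rfl⟩
    exact (h x).1 hx
  · intro hy
    refine ⟨g⁻¹ • y, ?_, smul_inv_smul g y⟩
    rw [h, smul_inv_smul]; exact hy

theorem ncard_coe (P : (GolayPt → ℤ) → Prop) :
    {x : leechLattice | P x.1}.ncard = {x : GolayPt → ℤ | x ∈ leechLattice ∧ P x}.ncard := by
  rw [← Set.ncard_image_of_injective {x : leechLattice | P x.1} Subtype.val_injective]
  congr 1
  ext y
  constructor
  · rintro ⟨x, hx, rfl⟩
    exact ⟨x.2, hx⟩
  · rintro ⟨hy, hP⟩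
    exact ⟨⟨y, hy⟩, hP, rfl⟩

/-- vectors of norm 48 with a coordinate 5 -/
theorem one_of_five {x : leechLattice} (hn : sqNorm x.1 = 48) {p : GolayPt} (h1 : x.1 p = 5) :
    ∀ i, i ≠ p → (x.1 i = 1 ∨ x.1 i = -1) := by
  have hpar : ¬ (2 : ℤ) ∣ x.1 none := by
    have := leechM.parity x.2 p none
    omega
  obtain ⟨hc, hodd, _⟩ := odd_iff.1 ⟨x.2, hpar⟩
  intro i hi
  have h2 : ∀ j, (1 : ℤ) ≤ x.1 j ^ 2 := by
    intro j
    have := hodd j
    have : x.1 j ≠ 0 := by omega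
    have : 0 < x.1 j ^ 2 := by positivity
    omega
  have h3 := add_sum_erase univ (fun j => x.1 j ^ 2) (mem_univ p)
  have h4 := add_sum_erase (univ.erase p) (fun j => x.1 j ^ 2) (mem_erase.2 ⟨hi, mem_univ i⟩)
  have h5 := card_nsmul_le_sum ((univ.erase p).erase i) (fun j => x.1 j ^ 2) 1 (fun j _ => h2 j)
  rw [card_erase_of_mem (mem_erase.2 ⟨hi, mem_univ i⟩), card_erase_of_mem (mem_univ p), card_univ, card_pt] at h5
  have h6 : ∑ j, x.1 j ^ 2 = 48 := hn
  rw [h6] at h3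
  rw [h1] at h3
  norm_num at h5
  have h7 : x.1 i ^ 2 ≤ 1 := by linarith
  have h8 := hodd i
  have h9 : x.1 i < 2 := by nlinarith
  have h10 : -2 < x.1 i := by nlinarith
  omega

theorem sg_five {x : leechLattice} (hn : sqNorm x.1 = 48) {p : GolayPt} (h1 : x.1 p = 5) :
    ∃ c : Sup, p ∉ c.1 ∧ (sg c • x).1 = v1 p 5 :=
  sg_pos (by norm_num) h1 (one_of_five hn h1)

theorem dot_v1_5 (x : GolayPt → ℤ) (p : GolayPt) : dotInt x (v1 p 5) = ∑ i, x i + 4 * x p := by
  rw [dot_v1]; ring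

/-- 552 -/
theorem card552 (p : GolayPt) :
    {x : GolayPt → ℤ | x ∈ leechLattice ∧ sqNorm x = 32 ∧ ∑ i, x i + 4 * x p = 24}.ncard = 552 := by
  have h1 := count552 p (fun _ => True)
  simp only [and_true, filter_true] at h1
  rw [h1, card_erase_of_mem (mem_univ p), card_univ, card_pt]
  have h2 : oct p = ex octads {p} ∅ := by
    ext O
    rw [mem_oct, mem_ex]
    simp
  rw [h2, card_oct _ _ (by simp) (by simp)]
  rfl

/-- conversion of the conditions defining the 552 vectors -/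
theorem norm_sub_iff {u x : leechLattice} (hu : sqNorm u.1 = 48) :
    (sqNorm x.1 = 32 ∧ sqNorm (u.1 - x.1) = 32) ↔ (sqNorm x.1 = 32 ∧ dotInt u.1 x.1 = 24) := by
  constructor
  · rintro ⟨h1, h2⟩
    refine ⟨h1, ?_⟩
    rw [norm_sub, hu, h1] at h2
    omega
  · rintro ⟨h1, h2⟩
    refine ⟨h1, ?_⟩
    rw [norm_sub, hu, h1, h2]; norm_num

/-- normal form of a vector of type 3 and one of the 552 -/
theorem nfU {u v : leechLattice} (hu : sqNorm u.1 = 48) (hv : sqNorm v.1 = 32)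
    (hd : dotInt u.1 v.1 = 24) {p q : GolayPt} (hpq : p ≠ q) :
    ∃ g : Co0, (g • u).1 = v1 q 5 ∧ (g • v).1 = v2 p q 4 4 := by
  have h1 : sqNorm (u - v).1 = 32 := by rw [coe_sub', norm_sub, hu, hv, hd]; norm_num
  have h2 : dotInt v.1 (u - v).1 = -8 := by
    rw [coe_sub', dot_sub_r, ← sqNorm_eq_dot, hv, dot_comm, hd]; norm_num
  obtain ⟨g, h3, h4⟩ := nf8 hv h1 h2 hpq
  refine ⟨g, ?_, h3⟩
  have h5 : (g • u).1 = (g • (u - v)).1 + (g • v).1 := by
    rw [co_sub, coe_sub']; ring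
  rw [h5, h4, h3]
  funext i
  rw [Pi.add_apply, v2_apply hpq]
  unfold v1
  by_cases hp : i = p
  · subst hp
    rw [if_pos rfl, if_pos rfl, if_neg hpq]; norm_num
  · rw [if_neg hp, if_neg hp]
    split_ifs <;> norm_num

/-- moving to a frame vector `z` with prescribed inner products -/
theorem nf_frame {u z : leechLattice} (hu : sqNorm u.1 = 48) (hz : sqNorm z.1 = 64)
    (huz : dotInt u.1 z.1 = 40) (q : GolayPt) :
    ∃ g : Co0, (g • z).1 = Pi.single q 8 ∧ (g • u).1 = v1 q 5 := by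
  obtain ⟨g, hg⟩ := trans64 z hz q
  have h1 : (g • u).1 q = 5 := by
    have h2 := co_dot g u z
    rw [hg, dot_single, huz] at h2
    omega
  obtain ⟨c, hc, hc2⟩ := sg_five (by rw [co_norm, hu]) h1
  refine ⟨sg c * g, ?_, ?_⟩
  · rw [mul_smul]
    funext i
    rw [sg_at, hg, Pi.single_apply]
    by_cases hi : i = q
    · rw [if_neg (by rw [hi]; exact hc)]
    · rw [if_neg hi]; split_ifs <;> norm_num
  · rw [mul_smul, hc2]

/-- coordinate 4, inner product 24 with `v1 q 5` -/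
theorem four_of {x : leechLattice} (hn : sqNorm x.1 = 32) {q : GolayPt} (h4 : x.1 q = 4)
    (hd : dotInt (v1 q 5) x.1 = 24) : ∃ j, j ≠ q ∧ x.1 = v2 q j 4 4 := by
  rw [dot_comm, dot_v1_5] at hd
  rcases cls552 x.2 hn q hd with ⟨j, hj, h⟩ | ⟨O, hO, hp, h⟩ | ⟨j, hj, h⟩ | ⟨O, hO, hp, h⟩
  · exact ⟨j, hj, h⟩
  · rw [h, cv_mid hp (notMem_empty _)] at h4; norm_num at h4
  · rw [h] at h4
    unfold v1 at h4
    rw [if_neg (Ne.symm hj)] at h4; norm_num at h4
  · rw [h] at h4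
    unfold vD at h4
    rw [if_pos rfl] at h4; norm_num at h4

theorem two_of {x : leechLattice} (hn : sqNorm x.1 = 32) {q : GolayPt} (h4 : x.1 q = 2)
    (hd : dotInt (v1 q 5) x.1 = 24) : ∃ O ∈ octads, q ∈ O ∧ x.1 = cv O ∅ := by
  rw [dot_comm, dot_v1_5] at hd
  rcases cls552 x.2 hn q hd with ⟨j, hj, h⟩ | ⟨O, hO, hp, h⟩ | ⟨j, hj, h⟩ | ⟨O, hO, hp, h⟩
  · rw [h, v2_apply hj.symm, if_pos rfl] at h4; norm_num at h4
  · exact ⟨O, hO, hp, h⟩
  · rw [h] at h4
    unfold v1 at h4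
    rw [if_neg (Ne.symm hj)] at h4; norm_num at h4
  · rw [h] at h4
    unfold vD at h4
    rw [if_pos rfl] at h4; norm_num at h4

theorem v2_comm (p q : GolayPt) (s t : ℤ) : v2 p q s t = v2 q p t s := by
  unfold v2; rw [add_comm]

/-- an octad disjoint from a given one and avoiding a point -/
theorem disjoint_octad {O : Finset GolayPt} (hO : O ∈ octads) {p : GolayPt} (hp : p ∉ O) :
    ∃ O' ∈ octads, Disjoint O O' ∧ p ∉ O' := by
  have h1 := disjoint24 card_pt steiner hO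
  have h2 : {c : Finset GolayPt | c ∈ octads ∧ Disjoint O c}.Nonempty := by
    apply Set.nonempty_of_ncard_ne_zero
    rw [h1]; norm_num
  obtain ⟨O1, hO1, hd⟩ := h2
  by_cases hp1 : p ∈ O1
  · refine ⟨(O ∪ O1)ᶜ, ?_, ?_, ?_⟩
    · rw [mem_octads']
      have h3 : O ∪ O1 = symmDiff O O1 := (hd.symmDiff_eq_sup).symm
      refine ⟨compl_mem_supports (by rw [h3]; exact sup_symmDiff (oct_sup hO) (oct_sup hO1)), ?_⟩
      rw [card_compl, card_union_of_disjoint hd, card_octad hO, card_octad hO1, card_pt]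
    · rw [disjoint_left]
      intro x hx hx'
      rw [mem_compl, mem_union, not_or] at hx'
      exact hx'.1 hx
    · rw [mem_compl, not_not, mem_union]
      exact Or.inr hp1
  · exact ⟨O1, hO1, hd, hp1⟩

theorem sum_cvD {O D : Finset GolayPt} (hD : D ⊆ O) :
    ∑ i, cv O D i = 2 * O.card - 4 * D.card := by
  have : ∀ i, cv O D i = (if i ∈ O then 2 else 0) - (if i ∈ D then 4 else 0) := by
    intro i
    unfold cv
    by_cases hi : i ∈ D
    · rw [if_pos (hD hi), if_pos hi, if_pos (hD hi), if_pos hi]; norm_num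
    · rw [if_neg hi, if_neg hi, sub_zero]
  rw [sum_congr rfl (fun i _ => this i), sum_sub_distrib, sum_ite_mem, sum_ite_mem, univ_inter,
    univ_inter, sum_const, sum_const, nsmul_eq_mul, nsmul_eq_mul]
  ring

theorem dot_cv (x : GolayPt → ℤ) {O D : Finset GolayPt} (hD : D ⊆ O) :
    dotInt x (cv O D) = 2 * ∑ i ∈ O, x i - 4 * ∑ i ∈ D, x i := by
  unfold dotInt
  have : ∀ i, x i * cv O D i = 2 * (if i ∈ O then x i else 0) - 4 * (if i ∈ D then x i else 0) := by
    intro i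
    unfold cv
    by_cases hi : i ∈ D
    · rw [if_pos (hD hi), if_pos hi, if_pos (hD hi), if_pos hi]; ring
    · rw [if_neg hi, if_neg hi]
      split_ifs <;> ring
  rw [sum_congr rfl (fun i _ => this i), sum_sub_distrib, ← mul_sum, ← mul_sum, sum_ite_mem,
    sum_ite_mem, univ_inter, univ_inter]

theorem exists_other {O F : Finset GolayPt} (hO : O ∈ octads) (hF : F.card ≤ 7) :
    ∃ s ∈ O, s ∉ F := by
  by_contra hno
  push Not at hno
  have h1 : O ⊆ F := hno
  have h2 := card_le_card h1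
  rw [card_octad hO] at h2
  omega

/-- the key step for triples: an auxiliary vector -/
theorem aux275 {p q : GolayPt} (hpq : p ≠ q) {x : leechLattice} (hn : sqNorm x.1 = 32)
    (hux : dotInt (v1 q 5) x.1 = 24) (hvx : x.1 p + x.1 q = 4) :
    ∃ z : leechLattice, sqNorm z.1 = 64 ∧ dotInt (v1 q 5) z.1 = 40 ∧
      dotInt (v2 p q 4 4) z.1 = 32 ∧ dotInt x.1 z.1 = 32 := by
  have hv : sqNorm (v2 p q 4 4) = 32 := by rw [norm_v2 hpq]; norm_num
  have huv : dotInt (v1 q 5) (v2 p q 4 4) = 24 := by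
    rw [dot_v2]; unfold v1; rw [if_neg hpq, if_pos rfl]; norm_num
  have hxv : dotInt x.1 (v2 p q 4 4) = 16 := by rw [dot_v2]; linarith
  have key : ∀ a : leechLattice, sqNorm a.1 = 32 → a.1 p + a.1 q = 0 → dotInt (v1 q 5) a.1 = 16 →
      dotInt x.1 a.1 = 16 → ∃ z : leechLattice, sqNorm z.1 = 64 ∧ dotInt (v1 q 5) z.1 = 40 ∧
      dotInt (v2 p q 4 4) z.1 = 32 ∧ dotInt x.1 z.1 = 32 := by
    intro a h1 h2 h3 h4
    have hva : dotInt (v2 p q 4 4) a.1 = 0 := by rw [dot_v2']; linarith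
    refine ⟨w2 p q 4 4 (Or.inl rfl) (Or.inl rfl) + a, ?_, ?_, ?_, ?_⟩
    · show sqNorm (v2 p q 4 4 + a.1) = 64
      rw [norm_add, hv, h1, hva]; norm_num
    · show dotInt (v1 q 5) (v2 p q 4 4 + a.1) = 40
      rw [dot_add_r, huv, h3]; norm_num
    · show dotInt (v2 p q 4 4) (v2 p q 4 4 + a.1) = 32
      rw [dot_add_r, hva, ← sqNorm_eq_dot, hv]; norm_num
    · show dotInt x.1 (v2 p q 4 4 + a.1) = 32
      rw [dot_add_r, hxv, h4]; norm_num
  have hux' := hux
  rw [dot_comm, dot_v1_5] at hux'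
  rcases cls552 x.2 hn q hux' with ⟨j, hj, h⟩ | ⟨O, hO, hq, h⟩ | ⟨j, hj, h⟩ | ⟨O, hO, hq, h⟩
  · refine key (w2 p q (-4) 4 (Or.inr rfl) (Or.inl rfl)) ?_ ?_ ?_ ?_
    · show sqNorm (v2 p q (-4) 4) = 32
      rw [norm_v2 hpq]; norm_num
    · show v2 p q (-4) 4 p + v2 p q (-4) 4 q = 0
      rw [v2_apply hpq, v2_apply hpq, if_pos rfl, if_neg hpq.symm, if_pos rfl]; norm_num
    · show dotInt (v1 q 5) (v2 p q (-4) 4) = 16
      rw [dot_v2]; unfold v1; rw [if_neg hpq, if_pos rfl]; norm_num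
    · show dotInt x.1 (v2 p q (-4) 4) = 16
      rw [dot_v2]
      rw [h, v2_apply hj.symm, v2_apply hj.symm, if_pos rfl, if_neg hpq] at hvx
      rw [h, v2_apply hj.symm, v2_apply hj.symm, if_pos rfl, if_neg hpq]
      split_ifs at hvx ⊢ <;> omega
  · have hp : p ∈ O := by
      by_contra hp
      rw [h, cv_out hp, cv_mid hq (notMem_empty _)] at hvx; norm_num at hvx
    obtain ⟨s, hs, hs2⟩ := exists_other hO (F := {p, q}) (card_le_two.trans (by norm_num))
    rw [mem_insert, mem_singleton, not_or] at hs2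
    have hD : ({p, s} : Finset GolayPt) ⊆ O := by
      intro i hi; rw [mem_insert, mem_singleton] at hi
      rcases hi with rfl | rfl <;> assumption
    have hDc : ({p, s} : Finset GolayPt).card = 2 := card_pair (Ne.symm hs2.1)
    have hqD : q ∉ ({p, s} : Finset GolayPt) := by
      rw [mem_insert, mem_singleton, not_or]; exact ⟨hpq.symm, Ne.symm hs2.2⟩
    refine key ⟨cv O {p, s}, cv_mem (oct_sup hO) hD (by rw [hDc]; decide)⟩ ?_ ?_ ?_ ?_
    · show sqNorm (cv O {p, s}) = 32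
      rw [norm_cv, card_octad hO]; norm_num
    · show cv O {p, s} p + cv O {p, s} q = 0
      rw [cv_in hp (by simp), cv_mid hq hqD]; norm_num
    · show dotInt (v1 q 5) (cv O {p, s}) = 16
      rw [dot_comm, dot_v1_5, sum_cvD hD, hDc, card_octad hO, cv_mid hq hqD]; norm_num
    · show dotInt x.1 (cv O {p, s}) = 16
      rw [dot_cv _ hD, h]
      have e1 : ∑ i ∈ O, cv O ∅ i = ∑ i ∈ O, 2 := sum_congr rfl (fun i hi => cv_mid hi (notMem_empty _))
      have e2 : ∑ i ∈ ({p, s} : Finset GolayPt), cv O ∅ i = ∑ i ∈ ({p, s} : Finset GolayPt), 2 :=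
        sum_congr rfl (fun i hi => cv_mid (hD hi) (notMem_empty _))
      rw [e1, e2, sum_const, sum_const, hDc, card_octad hO]; norm_num
  · exfalso
    rw [h] at hvx
    unfold v1 at hvx
    rw [if_neg (Ne.symm hj)] at hvx
    split_ifs at hvx <;> omega
  · have hp : p ∉ O := by
      intro hp
      rw [h] at hvx
      unfold vD at hvx
      rw [if_neg hpq, if_pos hp, if_pos rfl] at hvx; norm_num at hvx
    obtain ⟨O', hO', hd, hp'⟩ := disjoint_octad hO hp
    have hq' : q ∉ O' := disjoint_left.1 hd hq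
    refine key ⟨cv O' ∅, cv_mem (oct_sup hO') (empty_subset _) (by simp)⟩ ?_ ?_ ?_ ?_
    · show sqNorm (cv O' ∅) = 32
      rw [norm_cv, card_octad hO']; norm_num
    · show cv O' ∅ p + cv O' ∅ q = 0
      rw [cv_out hp', cv_out hq']; norm_num
    · show dotInt (v1 q 5) (cv O' ∅) = 16
      rw [dot_comm, dot_v1_5, sum_cv, card_octad hO', cv_out hq']; norm_num
    · show dotInt x.1 (cv O' ∅) = 16
      rw [dot_cv _ (empty_subset _), h]
      have e1 : ∑ i ∈ O', vD q O i = ∑ i ∈ O', 1 := by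
        apply sum_congr rfl
        intro i hi
        unfold vD
        rw [if_neg (by rintro rfl; exact hq' hi), if_neg (fun hi' => (disjoint_left.1 hd hi') hi)]
      rw [e1, sum_const, sum_empty, card_octad hO']; norm_num

/-- normal form for triples -/
theorem nf275 {u v x : leechLattice} (hu : sqNorm u.1 = 48) (hv : sqNorm v.1 = 32)
    (hx : sqNorm x.1 = 32) (huv : dotInt u.1 v.1 = 24) (hux : dotInt u.1 x.1 = 24)
    (hvx : dotInt v.1 x.1 = 16) {p q r : GolayPt} (hpq : p ≠ q) (hpr : p ≠ r) (hqr : q ≠ r) :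
    ∃ g : Co0, (g • u).1 = v1 q 5 ∧ (g • v).1 = v2 p q 4 4 ∧ (g • x).1 = v2 q r 4 4 := by
  obtain ⟨k, hk1, hk2⟩ := nfU hu hv huv hpq
  have h1 : dotInt (v1 q 5) (k • x).1 = 24 := by rw [← hk1, co_dot, hux]
  have h2 : (k • x).1 p + (k • x).1 q = 4 := by
    have := co_dot k v x
    rw [hk2, dot_v2', hvx] at this
    linarith
  obtain ⟨z, hz1, hz2, hz3, hz4⟩ := aux275 hpq (x := k • x) (by rw [co_norm, hx]) h1 h2
  rw [← hk1] at hz2
  rw [← hk2] at hz3
  obtain ⟨g, hg1, hg2⟩ := nf_frame (by rw [co_norm, hu]) hz1 hz2 q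
  have h3 : (g • k • v).1 q = 4 := by
    have := co_dot g (k • v) z
    rw [hg1, dot_single, hz3] at this; omega
  have h4 : (g • k • x).1 q = 4 := by
    have := co_dot g (k • x) z
    rw [hg1, dot_single, hz4] at this; omega
  have h5 : dotInt (v1 q 5) (g • k • v).1 = 24 := by rw [← hg2, co_dot, co_dot, huv]
  have h6 : dotInt (v1 q 5) (g • k • x).1 = 24 := by rw [← hg2, co_dot, co_dot, hux]
  obtain ⟨p', hp', hp2⟩ := four_of (by rw [co_norm, co_norm, hv]) h3 h5
  obtain ⟨r', hr', hr2⟩ := four_of (by rw [co_norm, co_norm, hx]) h4 h6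
  have hne : p' ≠ r' := by
    rintro rfl
    have := co_dot g (k • v) (k • x)
    rw [co_dot k v x, hvx, hp2, hr2, dot_v2', v2_apply hp'.symm, v2_apply hp'.symm, if_pos rfl, if_neg hp', if_pos rfl] at this
    norm_num at this
  obtain ⟨σ, e1, e2, e3⟩ := M24_three hp'.symm hr'.symm hne hpq.symm hqr hpr
  refine ⟨pm σ * (g * k), ?_, ?_, ?_⟩
  · rw [mul_smul, mul_smul, pm_v1 σ hg2, e1]
  · rw [mul_smul, mul_smul, pm_v2 σ hp'.symm hp2, e1, e2, v2_comm]
  · rw [mul_smul, mul_smul, pm_v2 σ hr'.symm hr2, e1, e3]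

theorem trans_of_nf3 {v w u v' w' u' : leechLattice} {x y z : GolayPt → ℤ}
    (h : ∃ g : Co0, (g • v).1 = x ∧ (g • w).1 = y ∧ (g • u).1 = z)
    (h' : ∃ g : Co0, (g • v').1 = x ∧ (g • w').1 = y ∧ (g • u').1 = z) :
    ∃ g : Co0, g • v = v' ∧ g • w = w' ∧ g • u = u' := by
  obtain ⟨g, hg1, hg2, hg3⟩ := h
  obtain ⟨k, hk1, hk2, hk3⟩ := h'
  refine ⟨k⁻¹ * g, ?_, ?_, ?_⟩
  · rw [mul_smul, inv_smul_eq_iff]; exact Subtype.ext (hg1.trans hk1.symm)
  · rw [mul_smul, inv_smul_eq_iff]; exact Subtype.ext (hg2.trans hk2.symm)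
  · rw [mul_smul, inv_smul_eq_iff]; exact Subtype.ext (hg3.trans hk3.symm)

theorem cv0 {O : Finset GolayPt} (i : GolayPt) : cv O ∅ i = if i ∈ O then 2 else 0 := by
  by_cases hi : i ∈ O
  · rw [cv_mid hi (notMem_empty _), if_pos hi]
  · rw [cv_out hi, if_neg hi]

/-- 275 -/
theorem card275 {p q : GolayPt} (hpq : p ≠ q) :
    {x : GolayPt → ℤ | x ∈ leechLattice ∧ sqNorm x = 32 ∧ ∑ i, x i + 4 * x q = 24 ∧
      x p + x q = 4}.ncard = 275 := by
  rw [count552' q (fun x => x p + x q = 4) (A := (univ.erase q).erase p) (B := ex octads {q, p} ∅)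
    (C := ∅) (D := ex octads {q} {p})]
  · rw [card_oct _ _ (by simp) (by rw [card_pair hpq.symm]; simp),
      card_oct _ _ (by simpa using hpq.symm) (by simp),
      card_erase_of_mem (mem_erase.2 ⟨hpq, mem_univ _⟩), card_erase_of_mem (mem_univ q), card_univ,
      card_pt, card_pair hpq.symm, card_singleton, card_empty, card_singleton]
    rfl
  · intro j
    rw [mem_erase, mem_erase]
    constructor
    · rintro ⟨h1, h2, _⟩
      refine ⟨h2, ?_⟩
      rw [v2_apply h2.symm, v2_apply h2.symm, if_neg hpq, if_neg (Ne.symm h1), if_pos rfl]; norm_num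
    · rintro ⟨h1, h2⟩
      refine ⟨?_, h1, mem_univ _⟩
      rintro rfl
      rw [v2_apply h1.symm, v2_apply h1.symm, if_neg h1, if_pos rfl, if_pos rfl] at h2
      norm_num at h2
  · intro O
    rw [mem_ex, cv0, cv0, insert_subset_iff, singleton_subset_iff]
    constructor
    · rintro ⟨h1, ⟨h2, h3⟩, _⟩
      rw [if_pos h2, if_pos h3]; exact ⟨⟨h1, h2⟩, by norm_num⟩
    · rintro ⟨⟨h1, h2⟩, h3⟩
      rw [if_pos h2] at h3
      refine ⟨h1, ⟨h2, ?_⟩, disjoint_empty_left _⟩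
      by_contra hp
      rw [if_neg hp] at h3; norm_num at h3
  · intro j
    constructor
    · intro h; exact absurd h (notMem_empty _)
    · rintro ⟨h1, h2⟩
      exfalso
      unfold v1 at h2
      rw [if_neg h1.symm] at h2
      split_ifs at h2 <;> omega
  · intro O
    rw [mem_ex, singleton_subset_iff, disjoint_singleton_left]
    unfold vD
    rw [if_neg hpq, if_pos rfl]
    constructor
    · rintro ⟨h1, h2, h3⟩
      rw [if_neg h3]; exact ⟨⟨h1, h2⟩, by norm_num⟩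
    · rintro ⟨⟨h1, h2⟩, h3⟩
      refine ⟨h1, h2, fun hp => ?_⟩
      rw [if_pos hp] at h3; norm_num at h3

end CfsgL.Lat
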