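import Cfsg.Agent.L.Lat.McL
/-!
The McLaughlin graph: rank three.
-/
set_option autoImplicit false
set_option maxHeartbeats 400000
namespace CfsgL.Lat
open Finset Cfsg CfsgL.Leech CfsgL.Golay CfsgL.GU CfsgL.Steiner
open scoped Pointwise

theorem octads_inter {O O' : Finset GolayPt} (h : O ∈ octads) (h' : O' ∈ octads) (hne : O ≠ O') :
    (O ∩ O').card = 0 ∨ (O ∩ O').card = 2 ∨ (O ∩ O').card = 4 :=
  inter24 card_pt steiner h h' hne

/-- two octads meeting in two points -/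
theorem octad_two {O : Finset GolayPt} (hO : O ∈ octads) {p q r : GolayPt} (hq : q ∈ O) (hp : p ∉ O)
    (hr : r ∉ O) (hpr : p ≠ r) :
    ∃ O' ∈ octads, p ∈ O' ∧ q ∈ O' ∧ r ∈ O' ∧ (O' ∩ O).card = 2 := by
  have hpq : p ≠ q := by rintro rfl; exact hp hq
  have hrq : r ≠ q := by rintro rfl; exact hr hq
  obtain ⟨j, hj, hj2⟩ := exists_other hO (F := {q}) (by simp)
  rw [mem_singleton] at hj2
  have hpj : p ≠ j := by rintro rfl; exact hp hj
  have hrj : r ≠ j := by rintro rfl; exact hr hj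
  set T : Finset GolayPt := {p, q, r, j} with hT
  have hTc : T.card = 4 := by
    rw [hT, card_insert_of_notMem, card_insert_of_notMem, card_insert_of_notMem, card_singleton]
    · rw [mem_singleton]; exact hrj
    · rw [mem_insert, mem_singleton, not_or]; exact ⟨hrq.symm, Ne.symm hj2⟩
    · rw [mem_insert, mem_insert, mem_singleton, not_or, not_or]; exact ⟨hpq, hpr, hpj⟩
  have h5 : (ex octads T ∅).card = 5 := by
    rw [card_oct _ _ (by simp) (by rw [hTc]; simp), hTc]; rfl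
  by_contra hno
  push Not at hno
  have hmem : ∀ O' ∈ ex octads T ∅, O' ∈ octads ∧ p ∈ O' ∧ q ∈ O' ∧ r ∈ O' ∧ j ∈ O' := by
    intro O' hO'
    rw [mem_ex, hT] at hO'
    refine ⟨hO'.1, hO'.2.1 (by simp), hO'.2.1 (by simp), hO'.2.1 (by simp), hO'.2.1 (by simp)⟩
  have hcard : ∀ O' ∈ ex octads T ∅, 2 ≤ ((O' ∩ O) \ {q, j}).card := by
    intro O' hO'
    obtain ⟨h1, h2, h3, h4, h6⟩ := hmem O' hO'
    have hne : O' ≠ O := by rintro rfl; exact hp h2
    have h7 := octads_inter h1 hO hne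
    have h8 := hno O' h1 h2 h3 h4
    have h9 : ({q, j} : Finset GolayPt) ⊆ O' ∩ O := by
      intro x hx
      rw [mem_insert, mem_singleton] at hx
      rcases hx with rfl | rfl
      · exact mem_inter.2 ⟨h3, hq⟩
      · exact mem_inter.2 ⟨h6, hj⟩
    have h10 := card_sdiff_add_card_inter (O' ∩ O) {q, j}
    rw [inter_eq_right.2 h9, card_pair (Ne.symm hj2)] at h10
    have h11 := card_le_card h9
    rw [card_pair (Ne.symm hj2)] at h11
    omega
  have hdis : (ex octads T ∅ : Set (Finset GolayPt)).PairwiseDisjoint (fun O' => (O' ∩ O) \ {q, j}) := by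
    intro O1 h1 O2 h2 hne
    rw [Function.onFun, disjoint_left]
    intro x hx hx'
    rw [mem_sdiff, mem_inter] at hx hx'
    obtain ⟨a1, a2, a3, a4, a5⟩ := hmem O1 h1
    obtain ⟨b1, b2, b3, b4, b5⟩ := hmem O2 h2
    have h3 := octads_inter a1 b1 hne
    have h4 : insert x T ⊆ O1 ∩ O2 := by
      rw [insert_subset_iff]
      refine ⟨mem_inter.2 ⟨hx.1.1, hx'.1.1⟩, ?_⟩
      intro y hy
      rw [hT, mem_insert, mem_insert, mem_insert, mem_singleton] at hy
      rcases hy with rfl | rfl | rfl | rfl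
      · exact mem_inter.2 ⟨a2, b2⟩
      · exact mem_inter.2 ⟨a3, b3⟩
      · exact mem_inter.2 ⟨a4, b4⟩
      · exact mem_inter.2 ⟨a5, b5⟩
    have hxT : x ∉ T := by
      rw [hT, mem_insert, mem_insert, mem_insert, mem_singleton]
      rintro (rfl | rfl | rfl | rfl)
      · exact hp hx.1.2
      · exact hx.2 (by simp)
      · exact hr hx.1.2
      · exact hx.2 (by simp)
    have h5 := card_le_card h4
    rw [card_insert_of_notMem hxT, hTc] at h5
    omega
  have h6 := card_biUnion hdis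
  have h7 : ((ex octads T ∅).biUnion (fun O' => (O' ∩ O) \ {q, j})).card ≤ (O \ {q, j}).card := by
    apply card_le_card
    intro x hx
    rw [mem_biUnion] at hx
    obtain ⟨O', _, hx⟩ := hx
    rw [mem_sdiff, mem_inter] at hx
    exact mem_sdiff.2 ⟨hx.1.2, hx.2⟩
  have h8 : (O \ {q, j}).card = 6 := by
    have h9 : ({q, j} : Finset GolayPt) ⊆ O := by
      intro x hx
      rw [mem_insert, mem_singleton] at hx
      rcases hx with rfl | rfl <;> assumption
    rw [card_sdiff_of_subset h9, card_octad hO, card_pair (Ne.symm hj2)]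
  have h9 := card_nsmul_le_sum (ex octads T ∅) (fun O' => ((O' ∩ O) \ {q, j}).card) 2 hcard
  rw [h5] at h9
  rw [h6, h8] at h7
  norm_num at h9
  omega

/-- two octads meeting in four points -/
theorem octad_four {O : Finset GolayPt} (hO : O ∈ octads) {p q r : GolayPt} (hq : q ∈ O) (hp : p ∉ O)
    (hr : r ∈ O) (hqr : q ≠ r) :
    ∃ O' ∈ octads, p ∈ O' ∧ q ∈ O' ∧ r ∈ O' ∧ (O' ∩ O).card = 4 := by
  obtain ⟨a, ha, ha2⟩ := exists_other hO (F := {q, r}) (card_le_two.trans (by norm_num))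
  obtain ⟨b, hb, hb2⟩ := exists_other hO (F := {q, r, a}) (card_le_three.trans (by norm_num))
  rw [mem_insert, mem_singleton, not_or] at ha2
  rw [mem_insert, mem_insert, mem_singleton, not_or, not_or] at hb2
  have hpq : p ≠ q := by rintro rfl; exact hp hq
  have hpr : p ≠ r := by rintro rfl; exact hp hr
  have hpa : p ≠ a := by rintro rfl; exact hp ha
  have hpb : p ≠ b := by rintro rfl; exact hp hb
  obtain ⟨O', hO', hs, _⟩ := exists_octad {p, q, r, a, b} ∅ (by simp) (by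
    rw [card_empty, add_zero]
    exact card_le_five)
  have h1 : p ∈ O' := hs (by simp)
  have h2 : q ∈ O' := hs (by simp)
  have h3 : r ∈ O' := hs (by simp)
  have h4 : a ∈ O' := hs (by simp)
  have h5 : b ∈ O' := hs (by simp)
  refine ⟨O', hO', h1, h2, h3, ?_⟩
  have hne : O' ≠ O := by rintro rfl; exact hp h1
  have h6 := octads_inter hO' hO hne
  have h7 : ({q, r, a} : Finset GolayPt) ⊆ O' ∩ O := by
    intro x hx
    rw [mem_insert, mem_insert, mem_singleton] at hx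
    rcases hx with rfl | rfl | rfl
    · exact mem_inter.2 ⟨h2, hq⟩
    · exact mem_inter.2 ⟨h3, hr⟩
    · exact mem_inter.2 ⟨h4, ha⟩
  have h8 := card_le_card h7
  have h9 : ({q, r, a} : Finset GolayPt).card = 3 := by
    rw [card_insert_of_notMem, card_pair (Ne.symm ha2.2)]
    rw [mem_insert, mem_singleton, not_or]
    exact ⟨hqr, Ne.symm ha2.1⟩
  omega

theorem mk_z {p q : GolayPt} (hpq : p ≠ q) {a : leechLattice} (h1 : sqNorm a.1 = 32)
    (h2 : a.1 p + a.1 q = 0) (h3 : dotInt (v1 q 5) a.1 = 16) :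
    ∃ z : leechLattice, sqNorm z.1 = 64 ∧ dotInt (v1 q 5) z.1 = 40 ∧
      dotInt (v2 p q 4 4) z.1 = 32 ∧ ∀ x : GolayPt → ℤ, x p + x q = 4 → dotInt x z.1 = 16 + dotInt x a.1 := by
  have hv : sqNorm (v2 p q 4 4) = 32 := by rw [norm_v2 hpq]; norm_num
  have huv : dotInt (v1 q 5) (v2 p q 4 4) = 24 := by
    rw [dot_v2]; unfold v1; rw [if_neg hpq, if_pos rfl]; norm_num
  have hva : dotInt (v2 p q 4 4) a.1 = 0 := by rw [dot_v2']; linarith
  refine ⟨w2 p q 4 4 (Or.inl rfl) (Or.inl rfl) + a, ?_, ?_, ?_, ?_⟩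
  · show sqNorm (v2 p q 4 4 + a.1) = 64
    rw [norm_add, hv, h1, hva]; norm_num
  · show dotInt (v1 q 5) (v2 p q 4 4 + a.1) = 40
    rw [dot_add_r, huv, h3]; norm_num
  · show dotInt (v2 p q 4 4) (v2 p q 4 4 + a.1) = 32
    rw [dot_add_r, hva, ← sqNorm_eq_dot, hv]; norm_num
  · intro x hx
    show dotInt x (v2 p q 4 4 + a.1) = _
    rw [dot_add_r, dot_v2]
    linarith

/-- the auxiliary four-type vector -/
theorem z_four {p q : GolayPt} (hpq : p ≠ q) :
    ∃ z : leechLattice, sqNorm z.1 = 64 ∧ dotInt (v1 q 5) z.1 = 40 ∧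
      dotInt (v2 p q 4 4) z.1 = 32 ∧ ∀ x : GolayPt → ℤ, x p + x q = 4 →
        dotInt x z.1 = 16 + (x q * 4 - x p * 4) := by
  obtain ⟨z, h1, h2, h3, h4⟩ := mk_z hpq (a := w2 p q (-4) 4 (Or.inr rfl) (Or.inl rfl)) (by
    show sqNorm (v2 p q (-4) 4) = 32
    rw [norm_v2 hpq]; norm_num) (by
    show v2 p q (-4) 4 p + v2 p q (-4) 4 q = 0
    rw [v2_apply hpq, v2_apply hpq, if_pos rfl, if_neg hpq.symm, if_pos rfl]; norm_num) (by
    show dotInt (v1 q 5) (v2 p q (-4) 4) = 16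
    rw [dot_v2]; unfold v1; rw [if_neg hpq, if_pos rfl]; norm_num)
  refine ⟨z, h1, h2, h3, fun x hx => ?_⟩
  rw [h4 x hx]
  show 16 + dotInt x (v2 p q (-4) 4) = _
  rw [dot_v2]; ring

/-- the auxiliary octad-type vector -/
theorem z_oct {p q : GolayPt} (hpq : p ≠ q) {O : Finset GolayPt} (hO : O ∈ octads) (hp : p ∈ O)
    (hq : q ∈ O) {s : GolayPt} (hs : s ∈ O) (hsp : s ≠ p) (hsq : s ≠ q) :
    ∃ z : leechLattice, sqNorm z.1 = 64 ∧ dotInt (v1 q 5) z.1 = 40 ∧
      dotInt (v2 p q 4 4) z.1 = 32 ∧ ∀ x : GolayPt → ℤ, x p + x q = 4 →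
        dotInt x z.1 = 16 + (2 * ∑ i ∈ O, x i - 4 * (x p + x s)) := by
  have hD : ({p, s} : Finset GolayPt) ⊆ O := by
    intro i hi; rw [mem_insert, mem_singleton] at hi
    rcases hi with rfl | rfl <;> assumption
  have hDc : ({p, s} : Finset GolayPt).card = 2 := card_pair hsp.symm
  have hqD : q ∉ ({p, s} : Finset GolayPt) := by
    rw [mem_insert, mem_singleton, not_or]; exact ⟨hpq.symm, hsq.symm⟩
  obtain ⟨z, h1, h2, h3, h4⟩ := mk_z hpq
    (a := ⟨cv O {p, s}, cv_mem (oct_sup hO) hD (by rw [hDc]; decide)⟩) (by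
    show sqNorm (cv O {p, s}) = 32
    rw [norm_cv, card_octad hO]; norm_num) (by
    show cv O {p, s} p + cv O {p, s} q = 0
    rw [cv_in hp (by simp), cv_mid hq hqD]; norm_num) (by
    show dotInt (v1 q 5) (cv O {p, s}) = 16
    rw [dot_comm, dot_v1_5, sum_cvD hD, hDc, card_octad hO, cv_mid hq hqD]; norm_num)
  refine ⟨z, h1, h2, h3, fun x hx => ?_⟩
  rw [h4 x hx]
  show 16 + dotInt x (cv O {p, s}) = _
  rw [dot_cv _ hD, sum_pair hsp.symm]

theorem sum_vD_oct {q : GolayPt} {O O' : Finset GolayPt} (hq : q ∈ O) (hq' : q ∈ O')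
    : ∑ i ∈ O', vD q O i = O'.card - 2 * (O' ∩ O).card + 4 := by
  have h1 : ∀ i ∈ O', vD q O i = (1 - (if i ∈ O then 2 else 0)) + (if i = q then 4 else 0) := by
    intro i _
    unfold vD
    by_cases hi : i = q
    · rw [if_pos hi, if_pos hi, hi, if_pos hq]; norm_num
    · rw [if_neg hi, if_neg hi]; split_ifs <;> norm_num
  rw [sum_congr rfl h1, sum_add_distrib, sum_sub_distrib, sum_ite_mem, sum_ite_eq' O' q, if_pos hq',
    sum_const, sum_const]
  simp only [nsmul_eq_mul, mul_one]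
  ring

/-- adapted frame vector for the 162 class -/
theorem aux162 {p q r : GolayPt} (hpq : p ≠ q) (hpr : p ≠ r) (hqr : q ≠ r) {y : leechLattice}
    (hn : sqNorm y.1 = 32) (hu : dotInt (v1 q 5) y.1 = 24) (hv : y.1 p + y.1 q = 4)
    (hx : y.1 q + y.1 r = 4) :
    ∃ z : leechLattice, sqNorm z.1 = 64 ∧ dotInt (v1 q 5) z.1 = 40 ∧
      dotInt (v2 p q 4 4) z.1 = 32 ∧ dotInt (v2 q r 4 4) z.1 = 32 ∧ dotInt y.1 z.1 = 32 := by
  have hxp : v2 q r 4 4 p + v2 q r 4 4 q = 4 := by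
    rw [v2_apply hqr, v2_apply hqr, if_neg hpq, if_neg hpr, if_pos rfl]; norm_num
  have hxq : v2 q r 4 4 q = 4 := by rw [v2_apply hqr, if_pos rfl]
  have hxp0 : v2 q r 4 4 p = 0 := by rw [v2_apply hqr, if_neg hpq, if_neg hpr]
  have hu' := hu
  rw [dot_comm, dot_v1_5] at hu'
  rcases cls552 y.2 hn q hu' with ⟨j, hj, h⟩ | ⟨O, hO, hq, h⟩ | ⟨j, hj, h⟩ | ⟨O, hO, hq, h⟩
  · obtain ⟨z, h1, h2, h3, h4⟩ := z_four hpq
    refine ⟨z, h1, h2, h3, ?_, ?_⟩
    · rw [h4 _ hxp, hxq, hxp0]; norm_num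
    · rw [h4 _ hv]
      have : y.1 q = 4 := by rw [h, v2_apply hj.symm, if_pos rfl]
      omega
  · have hp : p ∈ O := by
      by_contra hp
      rw [h, cv_out hp, cv_mid hq (notMem_empty _)] at hv; norm_num at hv
    have hr : r ∈ O := by
      by_contra hp
      rw [h, cv_out hp, cv_mid hq (notMem_empty _)] at hx; norm_num at hx
    obtain ⟨s, hs, hs2⟩ := exists_other hO (F := {p, q, r}) (card_le_three.trans (by norm_num))
    rw [mem_insert, mem_insert, mem_singleton, not_or, not_or] at hs2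
    obtain ⟨z, h1, h2, h3, h4⟩ := z_oct hpq hO hp hq hs hs2.1 hs2.2.1
    refine ⟨z, h1, h2, h3, ?_, ?_⟩
    · rw [h4 _ hxp]
      have e1 : ∑ i ∈ O, v2 q r 4 4 i = 8 := by
        rw [← sum_subset (show ({q, r} : Finset GolayPt) ⊆ O from by
          intro i hi; rw [mem_insert, mem_singleton] at hi
          rcases hi with rfl | rfl <;> assumption)]
        · rw [sum_pair hqr, v2_apply hqr, v2_apply hqr, if_pos rfl, if_neg hqr.symm, if_pos rfl]; norm_num
        · intro i _ hi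
          rw [mem_insert, mem_singleton, not_or] at hi
          rw [v2_apply hqr, if_neg hi.1, if_neg hi.2]
      rw [e1, hxp0, v2_apply hqr, if_neg hs2.2.1, if_neg hs2.2.2]; norm_num
    · rw [h4 _ hv, h]
      have e1 : ∑ i ∈ O, cv O ∅ i = ∑ i ∈ O, 2 := sum_congr rfl (fun i hi => cv_mid hi (notMem_empty _))
      rw [e1, sum_const, card_octad hO, cv_mid hp (notMem_empty _), cv_mid hs (notMem_empty _)]; norm_num
  · exfalso
    rw [h] at hv
    unfold v1 at hv
    rw [if_neg (Ne.symm hj)] at hv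
    split_ifs at hv <;> omega
  · have hp : p ∉ O := by
      intro hp
      rw [h] at hv
      unfold vD at hv
      rw [if_neg hpq, if_pos hp, if_pos rfl] at hv; norm_num at hv
    have hr : r ∉ O := by
      intro hp
      rw [h] at hx
      unfold vD at hx
      rw [if_neg hqr.symm, if_pos hp, if_pos rfl] at hx; norm_num at hx
    obtain ⟨O', hO', hp', hq', hr', hc⟩ := octad_two hO hq hp hr hpr
    obtain ⟨j, hj⟩ : ∃ j, j ∈ (O' ∩ O).erase q := by
      have : ((O' ∩ O).erase q).Nonempty := by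
        rw [← card_pos, card_erase_of_mem (mem_inter.2 ⟨hq', hq⟩), hc]; norm_num
      exact this
    rw [mem_erase, mem_inter] at hj
    have hjp : j ≠ p := by rintro rfl; exact hp hj.2.2
    have hjr : j ≠ r := by rintro rfl; exact hr hj.2.2
    obtain ⟨z, h1, h2, h3, h4⟩ := z_oct hpq hO' hp' hq' hj.2.1 hjp hj.1
    refine ⟨z, h1, h2, h3, ?_, ?_⟩
    · rw [h4 _ hxp]
      have e1 : ∑ i ∈ O', v2 q r 4 4 i = 8 := by
        rw [← sum_subset (show ({q, r} : Finset GolayPt) ⊆ O' from by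
          intro i hi; rw [mem_insert, mem_singleton] at hi
          rcases hi with rfl | rfl <;> assumption)]
        · rw [sum_pair hqr, v2_apply hqr, v2_apply hqr, if_pos rfl, if_neg hqr.symm, if_pos rfl]; norm_num
        · intro i _ hi
          rw [mem_insert, mem_singleton, not_or] at hi
          rw [v2_apply hqr, if_neg hi.1, if_neg hi.2]
      rw [e1, hxp0, v2_apply hqr, if_neg hj.1, if_neg hjr]; norm_num
    · rw [h4 _ hv, h, sum_vD_oct hq hq', hc, card_octad hO']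
      have e1 : vD q O p = 1 := by unfold vD; rw [if_neg hpq, if_neg hp]
      have e2 : vD q O j = -1 := by unfold vD; rw [if_neg hj.1, if_pos hj.2.2]
      rw [e1, e2]; norm_num

/-- adapted frame vector for the 112 class -/
theorem aux112 {p q r : GolayPt} (hpq : p ≠ q) (hpr : p ≠ r) (hqr : q ≠ r) {y : leechLattice}
    (hn : sqNorm y.1 = 32) (hu : dotInt (v1 q 5) y.1 = 24) (hv : y.1 p + y.1 q = 4)
    (hx : y.1 q + y.1 r = 2) :
    ∃ z : leechLattice, sqNorm z.1 = 64 ∧ dotInt (v1 q 5) z.1 = 40 ∧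
      dotInt (v2 p q 4 4) z.1 = 32 ∧ dotInt (v2 q r 4 4) z.1 = 32 ∧ dotInt y.1 z.1 = 16 := by
  have hxp : v2 q r 4 4 p + v2 q r 4 4 q = 4 := by
    rw [v2_apply hqr, v2_apply hqr, if_neg hpq, if_neg hpr, if_pos rfl]; norm_num
  have hxq : v2 q r 4 4 q = 4 := by rw [v2_apply hqr, if_pos rfl]
  have hxp0 : v2 q r 4 4 p = 0 := by rw [v2_apply hqr, if_neg hpq, if_neg hpr]
  have hu' := hu
  rw [dot_comm, dot_v1_5] at hu'
  rcases cls552 y.2 hn q hu' with ⟨j, hj, h⟩ | ⟨O, hO, hq, h⟩ | ⟨j, hj, h⟩ | ⟨O, hO, hq, h⟩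
  · exfalso
    rw [h, v2_apply hj.symm, v2_apply hj.symm, if_pos rfl] at hx
    split_ifs at hx <;> omega
  · have hp : p ∈ O := by
      by_contra hp
      rw [h, cv_out hp, cv_mid hq (notMem_empty _)] at hv; norm_num at hv
    obtain ⟨z, h1, h2, h3, h4⟩ := z_four hpq
    refine ⟨z, h1, h2, h3, ?_, ?_⟩
    · rw [h4 _ hxp, hxq, hxp0]; norm_num
    · rw [h4 _ hv, h, cv_mid hq (notMem_empty _), cv_mid hp (notMem_empty _)]; norm_num
  · exfalso
    rw [h] at hv
    unfold v1 at hv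
    rw [if_neg (Ne.symm hj)] at hv
    split_ifs at hv <;> omega
  · have hp : p ∉ O := by
      intro hp
      rw [h] at hv
      unfold vD at hv
      rw [if_neg hpq, if_pos hp, if_pos rfl] at hv; norm_num at hv
    have hr : r ∈ O := by
      by_contra hp
      rw [h] at hx
      unfold vD at hx
      rw [if_neg hqr.symm, if_neg hp, if_pos rfl] at hx; norm_num at hx
    obtain ⟨O', hO', hp', hq', hr', hc⟩ := octad_four hO hq hp hr hqr
    obtain ⟨j, hj, hj2⟩ : ∃ j ∈ O', j ∉ (O' ∩ O) ∪ {p} := by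
      apply exists_other hO'
      have := card_union_le (O' ∩ O) {p}
      rw [card_singleton, hc] at this
      omega
    rw [mem_union, mem_inter, mem_singleton, not_or] at hj2
    have hjO : j ∉ O := fun h' => hj2.1 ⟨hj, h'⟩
    have hjq : j ≠ q := by rintro rfl; exact hjO hq
    have hjr : j ≠ r := by rintro rfl; exact hjO hr
    obtain ⟨z, h1, h2, h3, h4⟩ := z_oct hpq hO' hp' hq' hj hj2.2 hjq
    refine ⟨z, h1, h2, h3, ?_, ?_⟩
    · rw [h4 _ hxp]
      have e1 : ∑ i ∈ O', v2 q r 4 4 i = 8 := by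
        rw [← sum_subset (show ({q, r} : Finset GolayPt) ⊆ O' from by
          intro i hi; rw [mem_insert, mem_singleton] at hi
          rcases hi with rfl | rfl <;> assumption)]
        · rw [sum_pair hqr, v2_apply hqr, v2_apply hqr, if_pos rfl, if_neg hqr.symm, if_pos rfl]; norm_num
        · intro i _ hi
          rw [mem_insert, mem_singleton, not_or] at hi
          rw [v2_apply hqr, if_neg hi.1, if_neg hi.2]
      rw [e1, hxp0, v2_apply hqr, if_neg hjq, if_neg hjr]; norm_num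
    · rw [h4 _ hv, h, sum_vD_oct hq hq', hc, card_octad hO']
      have e1 : vD q O p = 1 := by unfold vD; rw [if_neg hpq, if_neg hp]
      have e2 : vD q O j = 1 := by unfold vD; rw [if_neg hjq, if_neg hjO]
      rw [e1, e2]; norm_num

theorem M24_four {p q r s p' q' r' s' : GolayPt} (h1 : p ≠ q) (h2 : p ≠ r) (h3 : q ≠ r)
    (h4 : p ≠ s) (h5 : q ≠ s) (h6 : r ≠ s)
    (h1' : p' ≠ q') (h2' : p' ≠ r') (h3' : q' ≠ r') (h4' : p' ≠ s') (h5' : q' ≠ s') (h6' : r' ≠ s') :
    ∃ σ : M24, σ.1 p = p' ∧ σ.1 q = q' ∧ σ.1 r = r' ∧ σ.1 s = s' := by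
  obtain ⟨σ, hσ⟩ := M24_emb (n := 4) (by norm_num)
    ⟨![p, q, r, s], by
      intro i j
      fin_cases i <;> fin_cases j <;> simp [h1, h2, h3, h4, h5, h6, h1.symm, h2.symm, h3.symm, h4.symm, h5.symm, h6.symm]⟩
    ⟨![p', q', r', s'], by
      intro i j
      fin_cases i <;> fin_cases j <;> simp [h1', h2', h3', h4', h5', h6', h1'.symm, h2'.symm, h3'.symm, h4'.symm, h5'.symm, h6'.symm]⟩
  exact ⟨σ, hσ 0, hσ 1, hσ 2, hσ 3⟩

/-- the first three vectors normalised by a frame vector -/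
theorem frame3 {u v x z : leechLattice} (hu : sqNorm u.1 = 48) (hv : sqNorm v.1 = 32)
    (hx : sqNorm x.1 = 32) (huv : dotInt u.1 v.1 = 24) (hux : dotInt u.1 x.1 = 24)
    (hvx : dotInt v.1 x.1 = 16) (hz1 : sqNorm z.1 = 64) (hz2 : dotInt u.1 z.1 = 40)
    (hz3 : dotInt v.1 z.1 = 32) (hz4 : dotInt x.1 z.1 = 32) (q : GolayPt) :
    ∃ (g : Co0) (p' r' : GolayPt), (g • z).1 = Pi.single q 8 ∧ (g • u).1 = v1 q 5 ∧
      p' ≠ q ∧ r' ≠ q ∧ p' ≠ r' ∧ (g • v).1 = v2 q p' 4 4 ∧ (g • x).1 = v2 q r' 4 4 := by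
  obtain ⟨g, hg1, hg2⟩ := nf_frame hu hz1 hz2 q
  have h3 : (g • v).1 q = 4 := by
    have := co_dot g v z
    rw [hg1, dot_single, hz3] at this; omega
  have h4 : (g • x).1 q = 4 := by
    have := co_dot g x z
    rw [hg1, dot_single, hz4] at this; omega
  have h5 : dotInt (v1 q 5) (g • v).1 = 24 := by rw [← hg2, co_dot, huv]
  have h6 : dotInt (v1 q 5) (g • x).1 = 24 := by rw [← hg2, co_dot, hux]
  obtain ⟨p', hp', hp2⟩ := four_of (by rw [co_norm, hv]) h3 h5
  obtain ⟨r', hr', hr2⟩ := four_of (by rw [co_norm, hx]) h4 h6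
  have hne : p' ≠ r' := by
    rintro rfl
    have := co_dot g v x
    rw [hvx, hp2, hr2, dot_v2', v2_apply hp'.symm, v2_apply hp'.symm, if_pos rfl, if_neg hp', if_pos rfl] at this
    norm_num at this
  exact ⟨g, p', r', hg1, hg2, hp', hr', hne, hp2, hr2⟩

/-- normal form for the 162 class -/
theorem nf162 {u v x y : leechLattice} (hu : sqNorm u.1 = 48) (hv : sqNorm v.1 = 32)
    (hx : sqNorm x.1 = 32) (hy : sqNorm y.1 = 32) (huv : dotInt u.1 v.1 = 24)
    (hux : dotInt u.1 x.1 = 24) (huy : dotInt u.1 y.1 = 24)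
    (hvx : dotInt v.1 x.1 = 16) (hvy : dotInt v.1 y.1 = 16) (hxy : dotInt x.1 y.1 = 16)
    {p q r s : GolayPt} (hpq : p ≠ q) (hpr : p ≠ r) (hqr : q ≠ r) (hps : p ≠ s) (hqs : q ≠ s)
    (hrs : r ≠ s) :
    ∃ g : Co0, (g • u).1 = v1 q 5 ∧ (g • v).1 = v2 p q 4 4 ∧ (g • x).1 = v2 q r 4 4 ∧
      (g • y).1 = v2 q s 4 4 := by
  obtain ⟨k, hk1, hk2, hk3⟩ := nf275 hu hv hx huv hux hvx hpq hpr hqr
  have h1 : dotInt (v1 q 5) (k • y).1 = 24 := by rw [← hk1, co_dot, huy]
  have h2 : (k • y).1 p + (k • y).1 q = 4 := by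
    have := co_dot k v y
    rw [hk2, dot_v2', hvy] at this
    linarith
  have h3 : (k • y).1 q + (k • y).1 r = 4 := by
    have := co_dot k x y
    rw [hk3, dot_v2', hxy] at this
    linarith
  obtain ⟨z, hz1, hz2, hz3, hz4, hz5⟩ := aux162 hpq hpr hqr (y := k • y) (by rw [co_norm, hy]) h1 h2 h3
  rw [← hk1] at hz2
  rw [← hk2] at hz3
  rw [← hk3] at hz4
  obtain ⟨g, p', r', hg1, hg2, hp', hr', hne, hg3, hg4⟩ := frame3 (by rw [co_norm, hu])
    (by rw [co_norm, hv]) (by rw [co_norm, hx]) (by rw [co_dot, huv]) (by rw [co_dot, hux])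
    (by rw [co_dot, hvx]) hz1 hz2 hz3 hz4 q
  have h4 : (g • k • y).1 q = 4 := by
    have := co_dot g (k • y) z
    rw [hg1, dot_single, hz5] at this; omega
  have h6 : dotInt (v1 q 5) (g • k • y).1 = 24 := by rw [← hg2, co_dot, co_dot, huy]
  obtain ⟨s', hs', hs2⟩ := four_of (by rw [co_norm, co_norm, hy]) h4 h6
  have hne1 : p' ≠ s' := by
    rintro rfl
    have := co_dot g (k • v) (k • y)
    rw [co_dot k v y, hvy, hg3, hs2, dot_v2', v2_apply hp'.symm, v2_apply hp'.symm, if_pos rfl, if_neg hp', if_pos rfl] at this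
    norm_num at this
  have hne2 : r' ≠ s' := by
    rintro rfl
    have := co_dot g (k • x) (k • y)
    rw [co_dot k x y, hxy, hg4, hs2, dot_v2', v2_apply hr'.symm, v2_apply hr'.symm, if_pos rfl, if_neg hr', if_pos rfl] at this
    norm_num at this
  obtain ⟨σ, e1, e2, e3, e4⟩ := M24_four hp'.symm hr'.symm hne hs'.symm hne1 hne2 hpq.symm hqr hpr hqs hps hrs
  refine ⟨pm σ * (g * k), ?_, ?_, ?_, ?_⟩
  · rw [mul_smul, mul_smul, pm_v1 σ hg2, e1]
  · rw [mul_smul, mul_smul, pm_v2 σ hp'.symm hg3, e1, e2, v2_comm]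
  · rw [mul_smul, mul_smul, pm_v2 σ hr'.symm hg4, e1, e3]
  · rw [mul_smul, mul_smul, pm_v2 σ hs'.symm hs2, e1, e4]

theorem pm_cv (σ : M24) {v : leechLattice} {O D : Finset GolayPt} (hv : v.1 = cv O D) :
    (pm σ • v).1 = cv (σ.1 • O) (σ.1 • D) := by
  funext k
  obtain ⟨i, rfl⟩ := σ.1.surjective k
  rw [pm_at, hv]
  unfold cv
  have e1 : ∀ A : Finset GolayPt, σ.1 i ∈ σ.1 • A ↔ i ∈ A :=
    fun A => Finset.smul_mem_smul_finset_iff σ.1
  simp only [e1]

/-- octads through two points avoiding a third form an orbit -/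
theorem M24_56 {O O' : Finset GolayPt} (hO : O ∈ octads) (hO' : O' ∈ octads) {p q r p' q' r' : GolayPt}
    (hp : p ∈ O) (hq : q ∈ O) (hr : r ∉ O) (hp' : p' ∈ O') (hq' : q' ∈ O') (hr' : r' ∉ O')
    (hpq : p ≠ q) (hpq' : p' ≠ q') :
    ∃ σ : M24, σ.1 p = p' ∧ σ.1 q = q' ∧ σ.1 r = r' ∧ σ.1 • O = O' := by
  have key : ∀ {O : Finset GolayPt} (_ : O ∈ octads) {p q : GolayPt} (_ : p ∈ O) (_ : q ∈ O) (_ : p ≠ q),
      ∃ A : Fin 5 ↪ GolayPt, (∀ i, A i ∈ O) ∧ A 0 = p ∧ A 1 = q := by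
    intro O hO p q hp hq hpq
    obtain ⟨a, ha, ha2⟩ := exists_other hO (F := {p, q}) (card_le_two.trans (by norm_num))
    obtain ⟨b, hb, hb2⟩ := exists_other hO (F := {p, q, a}) (card_le_three.trans (by norm_num))
    obtain ⟨c, hc, hc2⟩ := exists_other hO (F := {p, q, a, b}) (card_le_four.trans (by norm_num))
    simp only [mem_insert, mem_singleton, not_or] at ha2 hb2 hc2
    refine ⟨⟨![p, q, a, b, c], ?_⟩, ?_, rfl, rfl⟩
    · intro i j
      obtain ⟨a1, a2⟩ := ha2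
      obtain ⟨b1, b2, b3⟩ := hb2
      obtain ⟨c1, c2, c3, c4⟩ := hc2
      fin_cases i <;> fin_cases j <;>
        simp [hpq, hpq.symm, a1, a2, Ne.symm a1, Ne.symm a2, b1, b2, b3, Ne.symm b1, Ne.symm b2,
          Ne.symm b3, c1, c2, c3, c4, Ne.symm c1, Ne.symm c2, Ne.symm c3, Ne.symm c4]
    · intro i
      fin_cases i <;> assumption
  obtain ⟨A, hA, hA0, hA1⟩ := key hO hp hq hpq
  obtain ⟨A', hA', hA0', hA1'⟩ := key hO' hp' hq' hpq'
  obtain ⟨σ, hσ, h1, h2, h3⟩ := oct_pt_trans hO hO' A A' hA hA' hr hr'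
  refine ⟨⟨σ, hσ⟩, ?_, ?_, h3, h2⟩
  · have := h1 0; rw [hA0, hA0'] at this; exact this
  · have := h1 1; rw [hA1, hA1'] at this; exact this

/-- normal form for the 112 class -/
theorem nf112 {u v x y : leechLattice} (hu : sqNorm u.1 = 48) (hv : sqNorm v.1 = 32)
    (hx : sqNorm x.1 = 32) (hy : sqNorm y.1 = 32) (huv : dotInt u.1 v.1 = 24)
    (hux : dotInt u.1 x.1 = 24) (huy : dotInt u.1 y.1 = 24)
    (hvx : dotInt v.1 x.1 = 16) (hvy : dotInt v.1 y.1 = 16) (hxy : dotInt x.1 y.1 = 8)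
    {p q r : GolayPt} (hpq : p ≠ q) (hpr : p ≠ r) (hqr : q ≠ r) {O0 : Finset GolayPt}
    (hO0 : O0 ∈ octads) (hp0 : p ∈ O0) (hq0 : q ∈ O0) (hr0 : r ∉ O0) :
    ∃ g : Co0, (g • u).1 = v1 q 5 ∧ (g • v).1 = v2 p q 4 4 ∧ (g • x).1 = v2 q r 4 4 ∧
      (g • y).1 = cv O0 ∅ := by
  obtain ⟨k, hk1, hk2, hk3⟩ := nf275 hu hv hx huv hux hvx hpq hpr hqr
  have h1 : dotInt (v1 q 5) (k • y).1 = 24 := by rw [← hk1, co_dot, huy]
  have h2 : (k • y).1 p + (k • y).1 q = 4 := by
    have := co_dot k v y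
    rw [hk2, dot_v2', hvy] at this
    linarith
  have h3 : (k • y).1 q + (k • y).1 r = 2 := by
    have := co_dot k x y
    rw [hk3, dot_v2', hxy] at this
    linarith
  obtain ⟨z, hz1, hz2, hz3, hz4, hz5⟩ := aux112 hpq hpr hqr (y := k • y) (by rw [co_norm, hy]) h1 h2 h3
  rw [← hk1] at hz2
  rw [← hk2] at hz3
  rw [← hk3] at hz4
  obtain ⟨g, p', r', hg1, hg2, hp', hr', hne, hg3, hg4⟩ := frame3 (by rw [co_norm, hu])
    (by rw [co_norm, hv]) (by rw [co_norm, hx]) (by rw [co_dot, huv]) (by rw [co_dot, hux])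
    (by rw [co_dot, hvx]) hz1 hz2 hz3 hz4 q
  have h4 : (g • k • y).1 q = 2 := by
    have := co_dot g (k • y) z
    rw [hg1, dot_single, hz5] at this; omega
  have h6 : dotInt (v1 q 5) (g • k • y).1 = 24 := by rw [← hg2, co_dot, co_dot, huy]
  obtain ⟨O, hO, hqO, hOy⟩ := two_of (by rw [co_norm, co_norm, hy]) h4 h6
  have hpO : p' ∈ O := by
    by_contra hno
    have := co_dot g (k • v) (k • y)
    rw [co_dot k v y, hvy, hg3, hOy, dot_v2', cv0, cv0, if_pos hqO, if_neg hno] at this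
    norm_num at this
  have hrO : r' ∉ O := by
    intro hno
    have := co_dot g (k • x) (k • y)
    rw [co_dot k x y, hxy, hg4, hOy, dot_v2', cv0, cv0, if_pos hqO, if_pos hno] at this
    norm_num at this
  obtain ⟨σ, e1, e2, e3, e4⟩ := M24_56 hO hO0 hpO hqO hrO hp0 hq0 hr0 hp' hpq
  refine ⟨pm σ * (g * k), ?_, ?_, ?_, ?_⟩
  · rw [mul_smul, mul_smul, pm_v1 σ hg2, e2]
  · rw [mul_smul, mul_smul, pm_v2 σ hp'.symm hg3, e1, e2, v2_comm]
  · rw [mul_smul, mul_smul, pm_v2 σ hr'.symm hg4, e2, e3]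
  · rw [mul_smul, mul_smul, pm_cv σ hOy, e4, Finset.smul_finset_empty]

theorem trans_of_nf4 {v w u t v' w' u' t' : leechLattice} {x y z a : GolayPt → ℤ}
    (h : ∃ g : Co0, (g • v).1 = x ∧ (g • w).1 = y ∧ (g • u).1 = z ∧ (g • t).1 = a)
    (h' : ∃ g : Co0, (g • v').1 = x ∧ (g • w').1 = y ∧ (g • u').1 = z ∧ (g • t').1 = a) :
    ∃ g : Co0, g • v = v' ∧ g • w = w' ∧ g • u = u' ∧ g • t = t' := by
  obtain ⟨g, hg1, hg2, hg3, hg4⟩ := h
  obtain ⟨k, hk1, hk2, hk3, hk4⟩ := h'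
  refine ⟨k⁻¹ * g, ?_, ?_, ?_, ?_⟩
  · rw [mul_smul, inv_smul_eq_iff]; exact Subtype.ext (hg1.trans hk1.symm)
  · rw [mul_smul, inv_smul_eq_iff]; exact Subtype.ext (hg2.trans hk2.symm)
  · rw [mul_smul, inv_smul_eq_iff]; exact Subtype.ext (hg3.trans hk3.symm)
  · rw [mul_smul, inv_smul_eq_iff]; exact Subtype.ext (hg4.trans hk4.symm)

/-- 112 -/
theorem card112 {p q r : GolayPt} (hpq : p ≠ q) (hpr : p ≠ r) (hqr : q ≠ r) :
    {x : GolayPt → ℤ | x ∈ leechLattice ∧ sqNorm x = 32 ∧ ∑ i, x i + 4 * x q = 24 ∧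
      (x p + x q = 4 ∧ x q + x r = 2)}.ncard = 112 := by
  rw [count552' q (fun x => x p + x q = 4 ∧ x q + x r = 2) (A := ∅) (B := ex octads {q, p} {r})
    (C := ∅) (D := ex octads {q, r} {p})]
  · rw [card_oct _ _ (by
        rw [disjoint_singleton_right, mem_insert, mem_singleton, not_or]
        exact ⟨hqr.symm, hpr.symm⟩) (by rw [card_pair hpq.symm]; simp),
      card_oct _ _ (by
        rw [disjoint_singleton_right, mem_insert, mem_singleton, not_or]
        exact ⟨hpq, hpr⟩) (by rw [card_pair hqr]; simp), card_pair hpq.symm, card_pair hqr, card_singleton, card_singleton,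
        card_empty]
    rfl
  · intro j
    constructor
    · intro h; exact absurd h (notMem_empty _)
    · rintro ⟨h1, h2, h3⟩
      exfalso
      rw [v2_apply h1.symm, v2_apply h1.symm, if_pos rfl] at h3
      split_ifs at h3 <;> omega
  · intro O
    rw [mem_ex, cv0, cv0, cv0, insert_subset_iff, singleton_subset_iff, disjoint_singleton_left]
    constructor
    · rintro ⟨h1, ⟨h2, h3⟩, h4⟩
      rw [if_pos h2, if_pos h3, if_neg h4]; exact ⟨⟨h1, h2⟩, by norm_num, by norm_num⟩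
    · rintro ⟨⟨h1, h2⟩, h3, h4⟩
      rw [if_pos h2] at h3 h4
      refine ⟨h1, ⟨h2, ?_⟩, ?_⟩
      · by_contra hp
        rw [if_neg hp] at h3; norm_num at h3
      · intro hp
        rw [if_pos hp] at h4; norm_num at h4
  · intro j
    constructor
    · intro h; exact absurd h (notMem_empty _)
    · rintro ⟨h1, h2, _⟩
      exfalso
      unfold v1 at h2
      rw [if_neg h1.symm] at h2
      split_ifs at h2 <;> omega
  · intro O
    rw [mem_ex, insert_subset_iff, singleton_subset_iff, disjoint_singleton_left]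
    unfold vD
    rw [if_neg hpq, if_pos rfl, if_neg hqr.symm]
    constructor
    · rintro ⟨h1, ⟨h2, h4⟩, h3⟩
      rw [if_neg h3, if_pos h4]; exact ⟨⟨h1, h2⟩, by norm_num, by norm_num⟩
    · rintro ⟨⟨h1, h2⟩, h3, h4⟩
      refine ⟨h1, ⟨h2, ?_⟩, fun hp => ?_⟩
      · by_contra hp
        rw [if_neg hp] at h4; norm_num at h4
      · rw [if_pos hp] at h3; norm_num at h3

/-- 162 -/
theorem card162 {p q r : GolayPt} (hpq : p ≠ q) (hpr : p ≠ r) (hqr : q ≠ r) :
    {x : GolayPt → ℤ | x ∈ leechLattice ∧ sqNorm x = 32 ∧ ∑ i, x i + 4 * x q = 24 ∧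
      (x p + x q = 4 ∧ x ≠ v2 q r 4 4 ∧ x q + x r = 4)}.ncard = 162 := by
  rw [count552' q (fun x => x p + x q = 4 ∧ x ≠ v2 q r 4 4 ∧ x q + x r = 4)
    (A := ((univ.erase q).erase p).erase r) (B := ex octads {q, p, r} ∅)
    (C := ∅) (D := ex octads {q} {p, r})]
  · have h3 : ({q, p, r} : Finset GolayPt).card = 3 := by
      rw [card_insert_of_notMem, card_pair hpr]
      rw [mem_insert, mem_singleton, not_or]; exact ⟨hpq.symm, hqr⟩
    rw [card_oct _ _ (by simp) (by rw [h3]; simp),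
      card_oct _ _ (by
        rw [disjoint_singleton_left, mem_insert, mem_singleton, not_or]
        exact ⟨hpq.symm, hqr⟩) (by rw [card_pair hpr]; simp), h3, card_pair hpr, card_singleton,
        card_empty, card_erase_of_mem, card_erase_of_mem, card_erase_of_mem (mem_univ q),
        card_univ, card_pt]
    · rfl
    · exact mem_erase.2 ⟨hpq, mem_univ _⟩
    · exact mem_erase.2 ⟨hpr.symm, mem_erase.2 ⟨hqr.symm, mem_univ _⟩⟩
  · intro j
    rw [mem_erase, mem_erase, mem_erase]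
    constructor
    · rintro ⟨h0, h1, h2, _⟩
      refine ⟨h2, ?_, ?_, ?_⟩
      · rw [v2_apply h2.symm, v2_apply h2.symm, if_neg hpq, if_neg (Ne.symm h1), if_pos rfl]; norm_num
      · intro e
        have := congrFun e r
        rw [v2_apply h2.symm, v2_apply hqr, if_neg hqr.symm, if_neg (Ne.symm h0), if_neg hqr.symm, if_pos rfl] at this
        norm_num at this
      · rw [v2_apply h2.symm, v2_apply h2.symm, if_neg hqr.symm, if_neg (Ne.symm h0), if_pos rfl]; norm_num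
    · rintro ⟨h1, h2, h3, h4⟩
      refine ⟨?_, ?_, h1, mem_univ _⟩
      · rintro rfl
        exact h3 rfl
      · rintro rfl
        rw [v2_apply h1.symm, v2_apply h1.symm, if_neg h1, if_pos rfl, if_pos rfl] at h2
        norm_num at h2
  · intro O
    rw [mem_ex, cv0, cv0, cv0, insert_subset_iff, insert_subset_iff, singleton_subset_iff]
    constructor
    · rintro ⟨h1, ⟨h2, h3, h4⟩, _⟩
      rw [if_pos h2, if_pos h3, if_pos h4]
      refine ⟨⟨h1, h2⟩, by norm_num, ?_, by norm_num⟩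
      intro e
      have := congrFun e q
      rw [v2_apply hqr, if_pos rfl, cv0, if_pos h2] at this
      norm_num at this
    · rintro ⟨⟨h1, h2⟩, h3, _, h4⟩
      rw [if_pos h2] at h3 h4
      refine ⟨h1, ⟨h2, ?_, ?_⟩, disjoint_empty_left _⟩
      · by_contra hp
        rw [if_neg hp] at h3; norm_num at h3
      · by_contra hp
        rw [if_neg hp] at h4; norm_num at h4
  · intro j
    constructor
    · intro h; exact absurd h (notMem_empty _)
    · rintro ⟨h1, h2, _⟩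
      exfalso
      unfold v1 at h2
      rw [if_neg h1.symm] at h2
      split_ifs at h2 <;> omega
  · intro O
    rw [mem_ex, singleton_subset_iff, disjoint_insert_left, disjoint_singleton_left]
    have e1 : vD q O p = if p ∈ O then -1 else 1 := by unfold vD; rw [if_neg hpq]
    have e2 : vD q O q = 3 := by unfold vD; rw [if_pos rfl]
    have e3 : vD q O r = if r ∈ O then -1 else 1 := by unfold vD; rw [if_neg hqr.symm]
    rw [e1, e2, e3]
    constructor
    · rintro ⟨h1, h2, h3, h4⟩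
      rw [if_neg h3, if_neg h4]
      refine ⟨⟨h1, h2⟩, by norm_num, ?_, by norm_num⟩
      intro e
      have := congrFun e q
      rw [v2_apply hqr, if_pos rfl, e2] at this
      norm_num at this
    · rintro ⟨⟨h1, h2⟩, h3, _, h4⟩
      refine ⟨h1, h2, fun hp => ?_, fun hp => ?_⟩
      · rw [if_pos hp] at h3; norm_num at h3
      · rw [if_pos hp] at h4; norm_num at h4

end CfsgL.Lat
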