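import Cfsg.Agent.L.Lat.Center
/-!
Products of monomial elements; a square root of `-1`.
-/
set_option autoImplicit false
set_option maxHeartbeats 400000
namespace CfsgL.Lat
open Finset Cfsg CfsgL.Leech CfsgL.Golay CfsgL.GU CfsgL.Comp
open scoped Pointwise

theorem mono_mul (σ τ : M24) (c d : Sup) : mono σ c * mono τ d =
    mono (σ * τ) ⟨symmDiff c.1 (σ.1 • d.1), sup_symmDiff c.2 ((smul_mem_supports σ.2).2 d.2)⟩ := by
  apply co_ext
  intro v
  apply Subtype.ext
  rw [mul_smul, mono_smul, mono_smul, mono_smul, signed_signed]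
  rfl

theorem mono_univ : mono 1 ⟨univ, univ_mem_supports⟩ = negCo := by
  apply co_ext
  intro v
  apply Subtype.ext
  rw [mono_smul]
  funext i
  unfold signedPerm
  rw [if_pos (mem_univ _)]
  rfl

def rtP : ℕ := 0x939e335ca8ad8e252c306ce20a3124
theorem rtOK : permOK rtP rtP = true := by decide +kernel
theorem rtM : inM24 rtP = true := by decide +kernel
theorem rtS : img rtP 0x3f7403 = 0x3f7403 ^^^ 0xffffff := by decide +kernel
theorem rtC : inCode 0x3f7403 = true := by decide +kernel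
theorem rt2 : ∀ i < 24, papp rtP (papp rtP i) = i := by decide +kernel

/-- an element squaring to `-1` -/
theorem exists_sqrt_neg : ∃ g : Co0, g * g = negCo := by
  have hS : mset 0x3f7403 ∈ Sup := (mset_mem_supports (by norm_num)).2 rtC
  refine ⟨mono ⟨toPerm rtP rtP rtOK, toPerm_mem_M24 rtOK rtM⟩ ⟨mset 0x3f7403, hS⟩, ?_⟩
  rw [mono_mul, ← mono_univ]
  have h1 : (⟨toPerm rtP rtP rtOK, toPerm_mem_M24 rtOK rtM⟩ : M24) *
      ⟨toPerm rtP rtP rtOK, toPerm_mem_M24 rtOK rtM⟩ = 1 := by
    apply Subtype.ext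
    ext p : 1
    show toPerm rtP rtP rtOK (toPerm rtP rtP rtOK p) = p
    rw [← toIdx_inj, toIdx_toPerm, toIdx_toPerm]
    exact rt2 _ (toIdx_lt p)
  have h2 : symmDiff (mset 0x3f7403) (toPerm rtP rtP rtOK • mset 0x3f7403) = univ := by
    rw [← mset_img rtOK, ← mset_xor, rtS]
    ext p
    rw [mem_mset]
    simp only [mem_univ, iff_true]
    have key : ∀ i < 24, Nat.testBit (0x3f7403 ^^^ (0x3f7403 ^^^ 0xffffff)) i = true := by
      decide +kernel
    exact key _ (toIdx_lt p)
  rw [h1]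
  congr 1
  exact Subtype.ext h2

theorem nonsplit (K : Subgroup Co0) : ¬ (Subgroup.zpowers negCo).IsComplement' K := by
  intro h
  obtain ⟨g, hg⟩ := exists_sqrt_neg
  have hn2 : negCo * negCo = 1 := by
    apply co_ext
    intro v
    rw [mul_smul, negCo_smul, negCo_smul, neg_neg, one_smul]
  have hz : ∀ x ∈ Subgroup.zpowers negCo, x = 1 ∨ x = negCo := by
    intro x hx
    rw [Subgroup.mem_zpowers_iff] at hx
    obtain ⟨k, rfl⟩ := hx
    have hm : ∀ m : ℤ, negCo ^ m * negCo ^ m = 1 := by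
      intro m
      rw [← (Commute.refl negCo).mul_zpow, hn2, one_zpow]
    rcases Int.even_or_odd k with ⟨m, rfl⟩ | ⟨m, rfl⟩
    · left; rw [zpow_add, hm]
    · right; rw [zpow_add, two_mul, zpow_add, hm, one_mul, zpow_one]
  have h1 : negCo ∉ K := by
    intro hK
    have h2 := h.disjoint
    rw [Subgroup.disjoint_def] at h2
    exact negCo_ne (h2 (Subgroup.mem_zpowers _) hK)
  have h3 : ∃ k ∈ K, g = k ∨ g = negCo * k := by
    obtain ⟨⟨x, k⟩, hx⟩ := h.surjective g
    rcases hz x.1 x.2 with h4 | h4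
    · refine ⟨k.1, k.2, Or.inl ?_⟩
      rw [← hx]
      show x.1 * k.1 = k.1
      rw [h4, one_mul]
    · refine ⟨k.1, k.2, Or.inr ?_⟩
      rw [← hx]
      show x.1 * k.1 = _
      rw [h4]
  obtain ⟨k, hk, hgk⟩ := h3
  apply h1
  rcases hgk with rfl | rfl
  · rw [← hg]; exact K.mul_mem hk hk
  · have : negCo * k * (negCo * k) = k * k := by
      calc negCo * k * (negCo * k) = negCo * (k * negCo) * k := by group
        _ = negCo * (negCo * k) * k := by rw [negCo_comm]
        _ = (negCo * negCo) * (k * k) := by group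
        _ = k * k := by rw [hn2, one_mul]
    rw [this] at hg
    rw [← hg]; exact K.mul_mem hk hk

/-! the unique invariant quadratic form modulo 2, irreducibility -/

theorem short (v : leechLattice) : ∃ y z : leechLattice, v - y = z + z ∧ sqNorm y.1 ≤ 64 := by
  obtain ⟨y, z, h1, h2⟩ := short_rep rl v
  refine ⟨y, z, h1, ?_⟩
  rw [← bb_self]; omega

theorem norm_cases {y : leechLattice} (hy : sqNorm y.1 ≤ 64) :
    y = 0 ∨ sqNorm y.1 = 32 ∨ sqNorm y.1 = 48 ∨ sqNorm y.1 = 64 := by
  by_cases h0 : y = 0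
  · exact Or.inl h0
  · right
    have h1 := norm_min y.2 (fun e => h0 (Subtype.ext e))
    have h2 := norm_dvd y.2
    omega

theorem trans32 {v w : leechLattice} (hv : sqNorm v.1 = 32) (hw : sqNorm w.1 = 32) :
    ∃ g : Co0, g • v = w := by
  obtain ⟨p, q, r, hpq, hpr, hqr⟩ := two_pts'
  exact trans_of_nf (nf32 v hv hpq) (nf32 w hw hpq)

theorem trans48 {v w : leechLattice} (hv : sqNorm v.1 = 48) (hw : sqNorm w.1 = 48) :
    ∃ g : Co0, g • v = w :=
  trans_of_nf (nf48 v hv none) (nf48 w hw none)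

theorem trans64' {v w : leechLattice} (hv : sqNorm v.1 = 64) (hw : sqNorm w.1 = 64) :
    ∃ g : Co0, g • v = w :=
  trans_of_nf (trans64 v hv none) (trans64 w hw none)

/-- invariant subgroups containing `2Λ` -/
theorem irred {M : AddSubgroup leechLattice} (h2 : ∀ v : leechLattice, v + v ∈ M)
    (hinv : ∀ (g : Co0) (v : leechLattice), v ∈ M → g • v ∈ M) :
    (∀ v ∈ M, ∃ w : leechLattice, v = w + w) ∨ M = ⊤ := by
  obtain ⟨p, q, r, hpq, hpr, hqr⟩ := two_pts'
  by_cases hall : ∀ v ∈ M, ∃ w : leechLattice, v = w + w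
  · exact Or.inl hall
  right
  push Not at hall
  obtain ⟨v, hv, hnot⟩ := hall
  obtain ⟨y, z, hz, hy⟩ := short v
  have hyM : y ∈ M := by
    have : y = v - (z + z) := by rw [← hz]; abel
    rw [this]; exact M.sub_mem hv (h2 z)
  have hmin : ∃ w ∈ M, sqNorm w.1 = 32 := by
    rcases norm_cases hy with h0 | h0 | h0 | h0
    · exfalso
      apply hnot z
      rw [h0, sub_zero] at hz; exact hz
    · exact ⟨y, hyM, h0⟩
    · -- type 3
      have hm5 : ∀ p, v1 p 5 ∈ leechLattice := by
        intro p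
        have h1 := leechLattice.add_mem (odd_mem p) (single8_mem p (Or.inl rfl))
        convert h1 using 1
        funext i
        rw [Pi.add_apply, Pi.single_apply]
        unfold v1
        split_ifs <;> norm_num
      have hn5 : ∀ p, sqNorm (v1 p 5) = 48 := by
        intro p
        rw [sqNorm_eq_dot, dot_v1]
        have h1 : ∑ i, v1 p 5 i = 28 := by
          unfold v1
          have : ∀ i : GolayPt, (if i = p then (5 : ℤ) else 1) = 1 + if i = p then 4 else 0 := by
            intro i; split_ifs <;> norm_num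
          rw [sum_congr rfl (fun i _ => this i), sum_add_distrib, sum_ite_eq' univ p, if_pos (mem_univ _),
            sum_const, card_univ, card_pt]
          norm_num
        rw [h1]; unfold v1; rw [if_pos rfl]; norm_num
      have hall5 : ∀ p, (⟨v1 p 5, hm5 p⟩ : leechLattice) ∈ M := by
        intro p
        obtain ⟨g, hg⟩ := trans48 (v := y) (w := ⟨v1 p 5, hm5 p⟩) h0 (hn5 p)
        rw [← hg]; exact hinv g y hyM
      refine ⟨_, M.sub_mem (hall5 p) (hall5 q), ?_⟩
      show sqNorm (v1 p 5 - v1 q 5) = 32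
      have : v1 p 5 - v1 q 5 = v2 p q 4 (-4) := by
        funext i
        rw [Pi.sub_apply, v2_apply hpq]
        unfold v1
        by_cases hp : i = p
        · subst hp; rw [if_pos rfl, if_neg hpq, if_pos rfl]; norm_num
        · rw [if_neg hp, if_neg hp]; split_ifs <;> norm_num
      rw [this, norm_v2 hpq]; norm_num
    · -- type 4
      have hall8 : ∀ w : leechLattice, sqNorm w.1 = 64 → w ∈ M := by
        intro w hw
        obtain ⟨g, hg⟩ := trans64' h0 hw
        rw [← hg]; exact hinv g y hyM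
      obtain ⟨s, t, hs, ht, hst⟩ : ∃ s t : GolayPt, (s ≠ p ∧ s ≠ q ∧ s ≠ r) ∧ (t ≠ p ∧ t ≠ q ∧ t ≠ r) ∧ s ≠ t := by
        have h1 : 1 < ((univ : Finset GolayPt) \ {p, q, r}).card := by
          have h2 := le_card_sdiff ({p, q, r} : Finset GolayPt) univ
          rw [card_univ, card_pt] at h2
          have h3 := card_le_three (a := p) (b := q) (c := r)
          omega
        obtain ⟨s, hs, t, ht, hst⟩ := one_lt_card.1 h1
        rw [mem_sdiff, mem_insert, mem_insert, mem_singleton, not_or, not_or] at hs ht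
        exact ⟨s, t, hs.2, ht.2, hst⟩
      have hA : sqNorm (w2 p q 4 4 (Or.inl rfl) (Or.inl rfl) + w2 r s 4 4 (Or.inl rfl) (Or.inl rfl)).1 = 64 := by
        show sqNorm (v2 p q 4 4 + v2 r s 4 4) = 64
        rw [norm_add, norm_v2 hpq, norm_v2 (Ne.symm hs.2.2), dot_v2, v2_apply hpq, v2_apply hpq,
          if_neg hpr.symm, if_neg hqr.symm, if_neg hs.1, if_neg hs.2.1]; norm_num
      have hB : sqNorm (w2 p q 4 4 (Or.inl rfl) (Or.inl rfl) + w2 r t 4 4 (Or.inl rfl) (Or.inl rfl)).1 = 64 := by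
        show sqNorm (v2 p q 4 4 + v2 r t 4 4) = 64
        rw [norm_add, norm_v2 hpq, norm_v2 (Ne.symm ht.2.2), dot_v2, v2_apply hpq, v2_apply hpq,
          if_neg hpr.symm, if_neg hqr.symm, if_neg ht.1, if_neg ht.2.1]; norm_num
      refine ⟨_, M.sub_mem (hall8 _ hA) (hall8 _ hB), ?_⟩
      show sqNorm ((v2 p q 4 4 + v2 r s 4 4) - (v2 p q 4 4 + v2 r t 4 4)) = 32
      have : (v2 p q 4 4 + v2 r s 4 4) - (v2 p q 4 4 + v2 r t 4 4) = v2 s t 4 (-4) := by
        funext i
        rw [Pi.sub_apply, Pi.add_apply, Pi.add_apply, v2_apply (Ne.symm hs.2.2),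
          v2_apply (Ne.symm ht.2.2), v2_apply hst]
        by_cases h1 : i = r
        · subst h1
          rw [if_pos rfl, if_pos rfl, if_neg (Ne.symm hs.2.2), if_neg (Ne.symm ht.2.2)]; ring
        · rw [if_neg h1, if_neg h1]
          by_cases h2 : i = s
          · subst h2; rw [if_pos rfl, if_neg hst, if_pos rfl]; ring
          · rw [if_neg h2, if_neg h2]; split_ifs <;> ring
      rw [this, norm_v2 hst]; norm_num
  obtain ⟨w, hw, hw32⟩ := hmin
  let K : AddSubgroup (GolayPt → ℤ) := M.map leechLattice.subtype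
  have hK : leechLattice ≤ K := by
    apply leech_le
    intro x hx hn
    obtain ⟨g, hg⟩ := trans32 (v := w) (w := ⟨x, hx⟩) hw32 hn
    refine ⟨⟨x, hx⟩, ?_, rfl⟩
    rw [← hg]; exact hinv g w hw
  rw [eq_top_iff]
  intro x _
  obtain ⟨y, hy, hyx⟩ := hK x.2
  have : y = x := Subtype.ext hyx
  rw [← this]; exact hy

end CfsgL.Lat
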