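import Cfsg.Agent.L.Lat.Co3
import Cfsg.Agent.L.Triangle
/-!
Pairs of minimal vectors.
-/
set_option autoImplicit false
set_option maxHeartbeats 400000
namespace CfsgL.Lat
open Finset Cfsg CfsgL.Leech CfsgL.Golay CfsgL.GU
open scoped Pointwise

/-- `±2` on a codeword -/
def cv (C D : Finset GolayPt) : GolayPt → ℤ :=
  fun i => if i ∈ C then (if i ∈ D then (-2 : ℤ) else 2) else 0

theorem cv_mem {C D : Finset GolayPt} (hC : C ∈ Sup) (hD : D ⊆ C) (hev : Even D.card) :
    cv C D ∈ leechLattice := by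
  rw [mem_leech]
  refine ⟨0, C, fun i => - ind D i, hC, ?_, ?_⟩
  · rw [sum_neg_distrib, ind_sum]
    obtain ⟨k, hk⟩ := hev
    rw [hk]
    unfold Int.ModEq
    push_cast
    omega
  · funext i
    unfold cv vec ind
    beta_reduce
    by_cases h1 : i ∈ D
    · rw [if_pos (hD h1), if_pos h1, if_pos (hD h1), if_pos h1]; norm_num
    · by_cases h2 : i ∈ C
      · rw [if_pos h2, if_neg h1, if_pos h2, if_neg h1]; norm_num
      · rw [if_neg h2, if_neg h2, if_neg h1]; norm_num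

theorem norm_cv (C D : Finset GolayPt) : sqNorm (cv C D) = 4 * C.card := by
  unfold sqNorm
  have h1 : ∀ i, cv C D i ^ 2 = if i ∈ C then 4 else 0 := by
    intro i
    unfold cv
    split_ifs <;> norm_num
  rw [sum_congr rfl (fun i _ => h1 i), sum_ite_mem, univ_inter, sum_const, nsmul_eq_mul]; ring

theorem cv_in {C D : Finset GolayPt} {i : GolayPt} (hC : i ∈ C) (hD : i ∈ D) : cv C D i = -2 := by
  unfold cv; rw [if_pos hC, if_pos hD]
theorem cv_mid {C D : Finset GolayPt} {i : GolayPt} (hC : i ∈ C) (hD : i ∉ D) : cv C D i = 2 := by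
  unfold cv; rw [if_pos hC, if_neg hD]
theorem cv_out {C D : Finset GolayPt} {i : GolayPt} (hC : i ∉ C) : cv C D i = 0 := by
  unfold cv; rw [if_neg hC]

theorem oct_sup {O : Finset GolayPt} (hO : O ∈ octads) : O ∈ Sup := (mem_octads'.1 hO).1

/-- a minimal vector opposite to an odd vector on an octad -/
theorem odd_octad {w : GolayPt → ℤ} (hw : w ∈ leechLattice) (hodd : ¬ (2 : ℤ) ∣ w none)
    {O : Finset GolayPt} (hO : O ∈ octads) (h1 : ∀ i ∈ O, w i = 1 ∨ w i = -1) :
    ∃ a : leechLattice, sqNorm a.1 = 32 ∧ (∀ i, i ∉ O → a.1 i = 0) ∧ dotInt w a.1 = -16 := by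
  obtain ⟨hS, _, _⟩ := odd_iff.1 ⟨hw, hodd⟩
  have h8 := card_octad hO
  have hev : Even (O.filter (fun i => w i = 1)).card := by
    have h2 : O.filter (fun i => w i = 1) = O \ pat3 w := by
      ext i
      rw [mem_filter, mem_sdiff, pat3, mem_filter]
      constructor
      · rintro ⟨h3, h4⟩
        exact ⟨h3, fun h5 => by omega⟩
      · rintro ⟨h3, h4⟩
        refine ⟨h3, ?_⟩
        rcases h1 i h3 with h5 | h5
        · exact h5
        · exact absurd ⟨mem_univ _, by rw [h5]; norm_num⟩ h4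
    rw [h2]
    have h3 := card_sdiff_add_card_inter O (pat3 w)
    have h4 := even_inter_card (oct_sup hO) hS
    rw [Nat.even_iff] at *
    omega
  refine ⟨⟨_, cv_mem (oct_sup hO) (filter_subset (fun i => w i = 1) O) hev⟩, ?_, ?_, ?_⟩
  · show sqNorm (cv _ _) = 32
    rw [norm_cv, h8]; norm_num
  · intro i hi
    exact cv_out hi
  · show dotInt w (cv _ _) = -16
    unfold dotInt
    have h2 : ∀ i, w i * cv O (O.filter (fun i => w i = 1)) i = if i ∈ O then -2 else 0 := by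
      intro i
      split_ifs with hi
      · rcases h1 i hi with h5 | h5
        · rw [cv_in hi (mem_filter.2 ⟨hi, h5⟩), h5]; norm_num
        · rw [cv_mid hi (by rw [mem_filter, h5]; norm_num), h5]; norm_num
      · rw [cv_out hi, mul_zero]
    rw [sum_congr rfl (fun i _ => h2 i), sum_ite_mem, univ_inter, sum_const, h8]; norm_num

/-- the three shapes of vectors of norm 32 -/
theorem shape32 {w : GolayPt → ℤ} (hw : w ∈ leechLattice) (hn : sqNorm w = 32) :
    (∃ i j, i ≠ j ∧ (w i = 4 ∨ w i = -4) ∧ (w j = 4 ∨ w j = -4) ∧ ∀ k, k ≠ i → k ≠ j → w k = 0) ∨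
    (∃ O ∈ octads, (∀ i ∈ O, w i = 2 ∨ w i = -2) ∧ ∀ i, i ∉ O → w i = 0) ∨
    (¬ (2 : ℤ) ∣ w none ∧ ∃ r, w r ^ 2 = 9 ∧ ∀ i, i ≠ r → (w i = 1 ∨ w i = -1)) := by
  by_cases hpar : (2 : ℤ) ∣ w none
  · have he : ∀ i, w i % 2 = 0 := by
      intro i
      have := leechM.parity hw i none
      omega
    rcases leechM.even32 hw hn he with ⟨S, hS, hxs⟩ | ⟨S, hSc, hS, hxs⟩
    · left
      rw [mem_sgn] at hxs
      rw [card_eq_two] at hS
      obtain ⟨a, b, hab, rfl⟩ := hS
      refine ⟨a, b, hab, hxs.1 a (by simp), hxs.1 b (by simp), fun k h1 h2 => hxs.2 k (by simp [h1, h2])⟩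
    · right; left
      rw [mem_sgn] at hxs
      refine ⟨S, ?_, hxs⟩
      rw [mem_octads']
      refine ⟨?_, hS⟩
      -- the pattern of w
      obtain ⟨y, hy⟩ := even_half hw hpar
      rw [hy, even_iff] at hw
      have : patO y = S := by
        ext i
        have h1 := congrFun hy i
        beta_reduce at h1
        unfold patO
        rw [mem_filter]
        constructor
        · rintro ⟨_, h2⟩
          by_contra hi
          have := hxs.2 i hi
          omega
        · intro hi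
          refine ⟨mem_univ _, ?_⟩
          have := hxs.1 i hi
          omega
      rw [← this]; exact hw.1
  · right; right
    obtain ⟨_, hodd, _⟩ := odd_iff.1 ⟨hw, hpar⟩
    obtain ⟨p, hp, hp1⟩ := odd32 card_pt hodd hn
    refine ⟨hpar, p, hp, fun i hi => ?_⟩
    have := hp1 i hi
    rcases sq_eq_sq_iff_eq_or_eq_neg.1 (this.trans (one_pow 2).symm) with h | h
    · exact Or.inl h
    · exact Or.inr h


/-! monomial normalisation -/

theorem emp_mem : (∅ : Finset GolayPt) ∈ Sup := empty_mem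

/-- permutations as elements of `Co0` -/
def pm (σ : M24) : Co0 := mono σ ⟨∅, emp_mem⟩

theorem pm_at (σ : M24) (v : leechLattice) (i : GolayPt) : (pm σ • v).1 (σ.1 i) = v.1 i := by
  have := mono_at σ ⟨∅, emp_mem⟩ v i
  rw [if_neg (notMem_empty _)] at this
  exact this

/-- sign changes as elements of `Co0` -/
def sg (c : Sup) : Co0 := mono 1 c

theorem sg_at (c : Sup) (v : leechLattice) (i : GolayPt) :
    (sg c • v).1 i = if i ∈ c.1 then - v.1 i else v.1 i := mono_at 1 c v i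

theorem pm_v2 (σ : M24) {v : leechLattice} {p q : GolayPt} (hpq : p ≠ q) {s t : ℤ}
    (hv : v.1 = v2 p q s t) : (pm σ • v).1 = v2 (σ.1 p) (σ.1 q) s t := by
  funext k
  obtain ⟨i, rfl⟩ := σ.1.surjective k
  rw [pm_at, hv, v2_apply hpq, v2_apply (fun h => hpq (σ.1.injective h))]
  have e1 : (σ.1 i = σ.1 p) ↔ i = p := σ.1.injective.eq_iff
  have e2 : (σ.1 i = σ.1 q) ↔ i = q := σ.1.injective.eq_iff
  simp only [e1, e2]

theorem sg_v2 (c : Sup) {v : leechLattice} {p q : GolayPt} (hpq : p ≠ q) {s t : ℤ}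
    (hv : v.1 = v2 p q s t) : (sg c • v).1 = v2 p q (if p ∈ c.1 then -s else s)
      (if q ∈ c.1 then -t else t) := by
  funext i
  rw [sg_at, hv, v2_apply hpq, v2_apply hpq]
  by_cases h1 : i = p
  · subst h1; simp only [if_true]
  · by_cases h2 : i = q
    · subst h2; simp only [h1, if_false, if_true]
    · simp only [h1, h2, if_false]
      split_ifs <;> norm_num

/-- one large coordinate `s`, all the others `1` -/
def v1 (p : GolayPt) (s : ℤ) : GolayPt → ℤ := fun i => if i = p then s else 1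

theorem pm_v1 (σ : M24) {v : leechLattice} {p : GolayPt} {s : ℤ}
    (hv : v.1 = v1 p s) : (pm σ • v).1 = v1 (σ.1 p) s := by
  funext k
  obtain ⟨i, rfl⟩ := σ.1.surjective k
  rw [pm_at, hv]
  unfold v1
  have e1 : (σ.1 i = σ.1 p) ↔ i = p := σ.1.injective.eq_iff
  simp only [e1]

theorem dot_v1 (x : GolayPt → ℤ) (p : GolayPt) (s : ℤ) :
    dotInt x (v1 p s) = ∑ i, x i + (s - 1) * x p := by
  unfold dotInt v1
  have h1 : ∀ i, x i * (if i = p then s else 1) = x i + if i = p then (s - 1) * x p else 0 := by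
    intro i
    split_ifs with h
    · rw [h]; ring
    · ring
  rw [sum_congr rfl (fun i _ => h1 i), sum_add_distrib, sum_ite_eq' univ p, if_pos (mem_univ _)]

/-- odd vectors with one large coordinate become positive -/
theorem sg_pos {w : leechLattice} {p : GolayPt} {s : ℤ} (hs4 : s % 4 = 1) (hp : w.1 p = s)
    (h1 : ∀ i, i ≠ p → (w.1 i = 1 ∨ w.1 i = -1)) :
    ∃ c : Sup, p ∉ c.1 ∧ (sg c • w).1 = v1 p s := by
  have hodd : ¬ (2 : ℤ) ∣ w.1 none := by
    by_cases hi : none = p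
    · rw [hi, hp]; omega
    · have := h1 none hi; omega
  obtain ⟨hS, _, _⟩ := odd_iff.1 ⟨w.2, hodd⟩
  have hmem : ∀ i, i ∈ pat3 w.1 ↔ w.1 i % 4 = 3 := by
    intro i; unfold pat3; rw [mem_filter]; simp
  refine ⟨⟨pat3 w.1, hS⟩, ?_, ?_⟩
  · show p ∉ pat3 w.1
    rw [hmem, hp]; omega
  · funext i
    rw [sg_at]
    change (if i ∈ pat3 w.1 then _ else _) = _
    unfold v1
    by_cases hi : i = p
    · rw [if_neg (by rw [hmem, hi, hp]; omega), if_pos hi, hi, hp]
    · rw [if_neg hi]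
      rcases h1 i hi with h2 | h2
      · rw [if_neg (by rw [hmem, h2]; norm_num), h2]
      · rw [if_pos (by rw [hmem, h2]; norm_num), h2]; norm_num

/-- transitivity of `M24` on short sequences -/
theorem M24_emb {n : ℕ} (hn : n ≤ 5) (x y : Fin n ↪ GolayPt) : ∃ σ : M24, ∀ i, σ.1 (x i) = y i := by
  have h5 : MulAction.IsMultiplyPretransitive M24 GolayPt 5 := five_transitive
  have hT : MulAction.IsMultiplyPretransitive M24 GolayPt n := by
    refine MulAction.isMultiplyPretransitive_of_le hn ?_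
    rw [Nat.card_eq_fintype_card, card_pt]
    norm_num
  obtain ⟨g, hg⟩ := MulAction.exists_smul_eq M24 x y
  refine ⟨g, fun i => ?_⟩
  exact congrFun (congrArg DFunLike.coe hg) i

theorem M24_three {p q r p' q' r' : GolayPt} (h1 : p ≠ q) (h2 : p ≠ r) (h3 : q ≠ r)
    (h1' : p' ≠ q') (h2' : p' ≠ r') (h3' : q' ≠ r') :
    ∃ σ : M24, σ.1 p = p' ∧ σ.1 q = q' ∧ σ.1 r = r' := by
  obtain ⟨σ, hσ⟩ := M24_emb (n := 3) (by norm_num)
    ⟨![p, q, r], by
      intro i j; fin_cases i <;> fin_cases j <;> simp [h1, h2, h3, h1.symm, h2.symm, h3.symm]⟩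
    ⟨![p', q', r'], by
      intro i j; fin_cases i <;> fin_cases j <;> simp [h1', h2', h3', h1'.symm, h2'.symm, h3'.symm]⟩
  exact ⟨σ, hσ 0, hσ 1, hσ 2⟩

/-- an auxiliary minimal vector -/
theorem exists_aux {p q : GolayPt} (hpq : p ≠ q) {w : GolayPt → ℤ} (hw : w ∈ leechLattice)
    (hn : sqNorm w = 32) (hd : w p + w q = -4 ∨ w p + w q = -2) :
    ∃ a : leechLattice, sqNorm a.1 = 32 ∧ a.1 p + a.1 q = 0 ∧ dotInt w a.1 = -16 := by
  rcases shape32 hw hn with ⟨i, j, hij, hi, hj, h0⟩ | ⟨O, hO, h2, h0⟩ | ⟨hodd, r, hr, h1⟩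
  · -- four-type
    have hp : w p = 0 ∨ w p = 4 ∨ w p = -4 := by
      by_cases h3 : p = i
      · rw [h3]; right; exact hi
      · by_cases h4 : p = j
        · rw [h4]; right; exact hj
        · left; exact h0 p h3 h4
    have hq : w q = 0 ∨ w q = 4 ∨ w q = -4 := by
      by_cases h3 : q = i
      · rw [h3]; right; exact hi
      · by_cases h4 : q = j
        · rw [h4]; right; exact hj
        · left; exact h0 q h3 h4
    have hcase : (w p = 0 ∧ w q = -4) ∨ (w p = -4 ∧ w q = 0) := by omega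
    rcases hcase with ⟨h3, h4⟩ | ⟨h3, h4⟩
    · refine ⟨w2 p q (-4) 4 (Or.inr rfl) (Or.inl rfl), ?_, ?_, ?_⟩
      · show sqNorm (v2 p q _ _) = 32
        rw [norm_v2 hpq]; norm_num
      · show v2 p q (-4) 4 p + v2 p q (-4) 4 q = 0
        rw [v2_apply hpq, v2_apply hpq, if_pos rfl, if_neg hpq.symm, if_pos rfl]; norm_num
      · show dotInt w (v2 p q (-4) 4) = -16
        rw [dot_v2, h3, h4]; norm_num
    · refine ⟨w2 p q 4 (-4) (Or.inl rfl) (Or.inr rfl), ?_, ?_, ?_⟩
      · show sqNorm (v2 p q _ _) = 32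
        rw [norm_v2 hpq]; norm_num
      · show v2 p q 4 (-4) p + v2 p q 4 (-4) q = 0
        rw [v2_apply hpq, v2_apply hpq, if_pos rfl, if_neg hpq.symm, if_pos rfl]; norm_num
      · show dotInt w (v2 p q 4 (-4)) = -16
        rw [dot_v2, h3, h4]; norm_num
  · have h8 := card_octad hO
    have h6 : 1 < (O \ {p, q}).card := by
      have h7 := le_card_sdiff ({p, q} : Finset GolayPt) O
      have h9 : ({p, q} : Finset GolayPt).card ≤ 2 := card_le_two
      omega
    obtain ⟨i, hi, j, hj, hij⟩ := one_lt_card.1 h6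
    rw [mem_sdiff, mem_insert, mem_singleton, not_or] at hi hj
    refine ⟨w2 i j (-2 * w i) (-2 * w j) (by have := h2 i hi.1; omega)
      (by have := h2 j hj.1; omega), ?_, ?_, ?_⟩
    · show sqNorm (v2 i j _ _) = 32
      rw [norm_v2 hij]
      rcases h2 i hi.1 with e | e <;> rcases h2 j hj.1 with e' | e' <;> rw [e, e'] <;> norm_num
    · show v2 i j _ _ p + v2 i j _ _ q = 0
      rw [v2_apply hij, v2_apply hij, if_neg (Ne.symm hi.2.1), if_neg (Ne.symm hj.2.1),
        if_neg (Ne.symm hi.2.2), if_neg (Ne.symm hj.2.2)]; norm_num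
    · show dotInt w (v2 i j _ _) = -16
      rw [dot_v2]
      rcases h2 i hi.1 with e | e <;> rcases h2 j hj.1 with e' | e' <;> rw [e, e'] <;> norm_num
  · obtain ⟨O, hO, _, hd⟩ := exists_octad ∅ {p, q, r} (by simp) (by
      rw [card_empty, zero_add]; exact card_le_three.trans (by norm_num))
    rw [disjoint_left] at hd
    obtain ⟨a, ha1, ha2, ha3⟩ := odd_octad hw hodd hO (by
      intro i hi
      apply h1
      rintro rfl
      exact hd (by simp) hi)
    refine ⟨a, ha1, ?_, ha3⟩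
    rw [ha2 p (hd (by simp)), ha2 q (hd (by simp))]; norm_num

theorem dot_v2' (x : GolayPt → ℤ) (p q : GolayPt) (s t : ℤ) :
    dotInt (v2 p q s t) x = s * x p + t * x q := by
  rw [dot_comm, dot_v2]; ring

theorem coe_add' (v w : leechLattice) : (v + w).1 = v.1 + w.1 := rfl
theorem coe_sub' (v w : leechLattice) : (v - w).1 = v.1 - w.1 := rfl

/-- a frame adapted to a pair -/
theorem pair_frame {v w : leechLattice} (hv : sqNorm v.1 = 32) (hw : sqNorm w.1 = 32)
    (hd : dotInt v.1 w.1 = -16 ∨ dotInt v.1 w.1 = -8) (p : GolayPt) :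
    ∃ g : Co0, (g • v).1 p = 4 ∧ (g • w).1 p * 8 = dotInt v.1 w.1 - 16 := by
  obtain ⟨q, hq⟩ : ∃ q : GolayPt, p ≠ q := by
    obtain ⟨a, b, hab⟩ := leechM.two_pts
    by_cases h : p = a
    · exact ⟨b, by rw [h]; exact hab⟩
    · exact ⟨a, h⟩
  obtain ⟨k, hk⟩ := nf32 v hv hq
  have hkd : dotInt (k • v).1 (k • w).1 = dotInt v.1 w.1 := co_dot k v w
  rw [hk, dot_v2'] at hkd
  obtain ⟨a, ha1, ha2, ha3⟩ := exists_aux hq (k • w).2 (by rw [co_norm, hw]) (by omega)
  have hva : dotInt (k • v).1 a.1 = 0 := by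
    rw [hk, dot_v2']; linarith
  have hx : sqNorm (k • v + a).1 = 64 := by
    rw [coe_add', norm_add, co_norm, hv, ha1, hva]; norm_num
  obtain ⟨g0, hg0⟩ := trans64 (k • v + a) hx p
  refine ⟨g0 * k, ?_, ?_⟩
  · have h2 := co_dot g0 (k • v) (k • v + a)
    rw [hg0, dot_single, coe_add', dot_add_r, hva, ← sqNorm_eq_dot, co_norm, hv] at h2
    rw [mul_smul]
    omega
  · have h2 := co_dot g0 (k • w) (k • v + a)
    rw [hg0, dot_single, coe_add', dot_add_r, ha3, dot_comm, co_dot] at h2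
    rw [mul_smul]
    omega

theorem coord_range {x : leechLattice} (hn : sqNorm x.1 = 32) {p : GolayPt} (hp : x.1 p = -4) :
    ∃ q t, p ≠ q ∧ (t = 4 ∨ t = -4) ∧ x.1 = v2 p q (-4) t := by
  obtain ⟨q, t, h1, h2, h3⟩ := shape4 (x := (-x).1) (-x).2 (by
    rw [← hn]
    unfold sqNorm
    apply sum_congr rfl
    intro i _
    show (-(x.1 i)) ^ 2 = _
    ring) (p := p) (by show -(x.1 p) = 4; rw [hp]; norm_num)
  refine ⟨q, -t, h1, by omega, ?_⟩
  funext i
  have h4 := congrFun h3 i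
  rw [v2_apply h1] at h4 ⊢
  have h5 : (-x).1 i = -(x.1 i) := rfl
  rw [h5] at h4
  split_ifs at h4 ⊢ <;> omega

/-- normal form for pairs with inner product `-16` -/
theorem nf16 {v w : leechLattice} (hv : sqNorm v.1 = 32) (hw : sqNorm w.1 = 32)
    (hd : dotInt v.1 w.1 = -16) {p q r : GolayPt} (hpq : p ≠ q) (hpr : p ≠ r) (hqr : q ≠ r) :
    ∃ g : Co0, (g • v).1 = v2 p q 4 4 ∧ (g • w).1 = v2 p r (-4) 4 := by
  obtain ⟨g, h1, h2⟩ := pair_frame hv hw (Or.inl hd) p
  rw [hd] at h2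
  obtain ⟨q', t, h3, ht, h4⟩ := shape4 (g • v).2 (by rw [co_norm, hv]) h1
  obtain ⟨r', s, h5, hs, h6⟩ := coord_range (x := g • w) (by rw [co_norm, hw]) (p := p) (by omega)
  have hne : q' ≠ r' := by
    rintro rfl
    have h7 := co_dot g v w
    rw [h4, h6, dot_v2', v2_apply h3, v2_apply h3, if_pos rfl, if_neg h3.symm, if_pos rfl, hd] at h7
    rcases ht with rfl | rfl <;> rcases hs with rfl | rfl <;> norm_num at h7
  obtain ⟨σ, e1, e2, e3⟩ := M24_three h3 h5 hne hpq hpr hqr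
  have h8 := pm_v2 σ h3 h4
  have h9 := pm_v2 σ h5 h6
  rw [e1, e2] at h8
  rw [e1, e3] at h9
  obtain ⟨c, hc⟩ := sup_restrict7 (F := {p, q, r})
    (A := (if t = 4 then ∅ else {q}) ∪ (if s = 4 then ∅ else {r})) (by
      apply union_subset
      · split_ifs
        · exact empty_subset _
        · intro x hx; rw [mem_singleton] at hx; rw [hx]; simp
      · split_ifs
        · exact empty_subset _
        · intro x hx; rw [mem_singleton] at hx; rw [hx]; simp) (card_le_three.trans (by norm_num))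
  have hmem : ∀ x ∈ ({p, q, r} : Finset GolayPt), (x ∈ c.1 ↔ x ∈ (if t = 4 then ∅ else ({q} : Finset GolayPt)) ∪ (if s = 4 then ∅ else {r})) := by
    intro x hx
    rw [← hc, mem_inter]
    exact ⟨fun h => ⟨h, hx⟩, fun h => h.1⟩
  have hp' := hmem p (by simp)
  have hq' := hmem q (by simp)
  have hr' := hmem r (by simp)
  refine ⟨sg c * (pm σ * g), ?_, ?_⟩
  · rw [mul_smul, mul_smul, sg_v2 c hpq h8]
    rcases ht with rfl | rfl <;> rcases hs with rfl | rfl <;>
      simp [hpq, hpr, hqr, hpq.symm, hpr.symm, hqr.symm] at hp' hq' hr' <;> simp [hp', hq']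
  · rw [mul_smul, mul_smul, sg_v2 c hpr h9]
    rcases ht with rfl | rfl <;> rcases hs with rfl | rfl <;>
      simp [hpq, hpr, hqr, hpq.symm, hpr.symm, hqr.symm] at hp' hq' hr' <;> simp [hp', hr']

theorem odd32' {x : leechLattice} (hn : sqNorm x.1 = 32) {p : GolayPt} (hp : x.1 p = -3) :
    ∀ i, i ≠ p → (x.1 i = 1 ∨ x.1 i = -1) := by
  rcases shape32 x.2 hn with ⟨i, j, hij, hi, hj, h0⟩ | ⟨O, hO, h2, h0⟩ | ⟨hodd, r, hr, h1⟩
  · exfalso
    by_cases h3 : p = i
    · rw [← h3] at hi; omega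
    · by_cases h4 : p = j
      · rw [← h4] at hj; omega
      · have := h0 p h3 h4; omega
  · exfalso
    by_cases h3 : p ∈ O
    · have := h2 p h3; omega
    · have := h0 p h3; omega
  · have : p = r := by
      by_contra h3
      have := h1 p h3; omega
    rw [this]; exact h1

/-- normal form for pairs with inner product `-8` -/
theorem nf8 {v w : leechLattice} (hv : sqNorm v.1 = 32) (hw : sqNorm w.1 = 32)
    (hd : dotInt v.1 w.1 = -8) {p q : GolayPt} (hpq : p ≠ q) :
    ∃ g : Co0, (g • v).1 = v2 p q 4 4 ∧ (g • w).1 = v1 p (-3) := by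
  obtain ⟨g, h1, h2⟩ := pair_frame hv hw (Or.inr hd) p
  rw [hd] at h2
  obtain ⟨q', t, h3, ht, h4⟩ := shape4 (g • v).2 (by rw [co_norm, hv]) h1
  have h5 : (g • w).1 p = -3 := by omega
  obtain ⟨c, hpc, hc⟩ := sg_pos (w := g • w) (s := -3) (by norm_num) h5
    (odd32' (by rw [co_norm, hw]) h5)
  have h6 := sg_v2 c h3 h4
  rw [if_neg hpc] at h6
  have h7 : dotInt (sg c • (g • v)).1 (sg c • (g • w)).1 = -8 := by rw [co_dot, co_dot, hd]
  rw [h6, hc, dot_v2'] at h7
  unfold v1 at h7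
  rw [if_pos rfl, if_neg h3.symm] at h7
  have h8 : (if q' ∈ c.1 then -t else t) = 4 := by omega
  rw [h8] at h6
  obtain ⟨σ, e1, e2⟩ := M24_two h3 hpq
  refine ⟨pm σ * (sg c * g), ?_, ?_⟩
  · rw [mul_smul, mul_smul, pm_v2 σ h3 h6, e1, e2]
  · rw [mul_smul, mul_smul, pm_v1 σ hc, e1]

/-- normal form for orthogonal pairs -/
theorem nf0 {v w : leechLattice} (hv : sqNorm v.1 = 32) (hw : sqNorm w.1 = 32)
    (hd : dotInt v.1 w.1 = 0) {p q : GolayPt} (hpq : p ≠ q) :
    ∃ g : Co0, (g • v).1 = v2 p q 4 4 ∧ (g • w).1 = v2 p q 4 (-4) := by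
  have hx : sqNorm (v + w).1 = 64 := by
    rw [coe_add', norm_add, hv, hw, hd]; norm_num
  obtain ⟨g, hg⟩ := trans64 (v + w) hx p
  have h1 : (g • v).1 p = 4 := by
    have h2 := co_dot g v (v + w)
    rw [hg, dot_single, coe_add', dot_add_r, hd, ← sqNorm_eq_dot, hv] at h2
    omega
  obtain ⟨q', t, h3, ht, h4⟩ := shape4 (g • v).2 (by rw [co_norm, hv]) h1
  have h5 : (g • w).1 = v2 p q' 4 (-t) := by
    have h6 : (g • v).1 + (g • w).1 = Pi.single p 8 := by
      rw [← hg, co_add]; rfl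
    funext i
    have h7 := congrFun h6 i
    rw [Pi.add_apply, h4, v2_apply h3, Pi.single_apply] at h7
    rw [v2_apply h3]
    split_ifs at h7 ⊢ <;> omega
  obtain ⟨c, hc⟩ := sup_restrict7 (F := {p, q'}) (A := if t = 4 then ∅ else {q'}) (by
      split_ifs
      · exact empty_subset _
      · intro x hx; rw [mem_singleton] at hx; rw [hx]; simp) (card_le_two.trans (by norm_num))
  have hmem : ∀ x ∈ ({p, q'} : Finset GolayPt), (x ∈ c.1 ↔ x ∈ (if t = 4 then ∅ else ({q'} : Finset GolayPt))) := by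
    intro x hx
    rw [← hc, mem_inter]
    exact ⟨fun h => ⟨h, hx⟩, fun h => h.1⟩
  have hp' := hmem p (by simp)
  have hq' := hmem q' (by simp)
  have h6 := sg_v2 c h3 h4
  have h7 := sg_v2 c h3 h5
  obtain ⟨σ, e1, e2⟩ := M24_two h3 hpq
  refine ⟨pm σ * (sg c * g), ?_, ?_⟩
  · rw [mul_smul, mul_smul, pm_v2 σ h3 h6, e1, e2]
    rcases ht with rfl | rfl <;> simp [h3] at hp' hq' <;> simp [hp', hq']
  · rw [mul_smul, mul_smul, pm_v2 σ h3 h7, e1, e2]
    rcases ht with rfl | rfl <;> simp [h3] at hp' hq' <;> simp [hp', hq']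

theorem trans_of_nf2 {v w v' w' : leechLattice} {x y : GolayPt → ℤ}
    (h : ∃ g : Co0, (g • v).1 = x ∧ (g • w).1 = y) (h' : ∃ g : Co0, (g • v').1 = x ∧ (g • w').1 = y) :
    ∃ g : Co0, g • v = v' ∧ g • w = w' := by
  obtain ⟨g, hg1, hg2⟩ := h
  obtain ⟨k, hk1, hk2⟩ := h'
  refine ⟨k⁻¹ * g, ?_, ?_⟩
  · rw [mul_smul, inv_smul_eq_iff]; exact Subtype.ext (hg1.trans hk1.symm)
  · rw [mul_smul, inv_smul_eq_iff]; exact Subtype.ext (hg2.trans hk2.symm)

theorem two_pts' : ∃ p q r : GolayPt, p ≠ q ∧ p ≠ r ∧ q ≠ r := ⟨none, some 0, some 1, by decide⟩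

end CfsgL.Lat
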