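import Cfsg.Agent.L.Leech.Counts2
/-!
Even rootless lattices of rank 24 with the vector counts of the Leech lattice : classes modulo 2.
-/
set_option autoImplicit false
namespace CfsgL.Lat
open Finset

/-- an even rootless lattice with the Leech counts, inside `ℤ^24` -/
structure IsRL {ι : Type*} [Fintype ι] (Λ : AddSubgroup (ι → ℤ)) (b : Λ → Λ → ℤ) : Prop where
  pts : Fintype.card ι = 24
  ind : Λ.index ≠ 0
  add : ∀ x y z, b (x + y) z = b x z + b y z
  symm : ∀ x y, b x y = b y x
  pos : ∀ x, x ≠ 0 → 0 < b x x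
  even : ∀ x, 2 ∣ b x x
  nr : ∀ x, b x x ≠ 2
  c4 : {x | b x x = 4}.ncard = 196560
  c6 : {x | b x x = 6}.ncard = 16773120
  c8 : {x | b x x = 8}.ncard = 398034000

section half

/-- a set with a fixed point free involution has a transversal -/
theorem exists_half {X : Type*} [DecidableEq X] (σ : X → X) (hσ : ∀ x, σ (σ x) = x) :
    ∀ (n : ℕ) (F : Finset X), F.card = n → (∀ x ∈ F, σ x ∈ F) → (∀ x ∈ F, σ x ≠ x) →
      ∃ T ⊆ F, Disjoint T (T.image σ) ∧ F = T ∪ T.image σ := by
  intro n
  induction n using Nat.strong_induction_on with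
  | _ n ih =>
    intro F hn hF hfix
    by_cases h0 : F = ∅
    · exact ⟨∅, by simp, by simp, by simp [h0]⟩
    obtain ⟨x, hx⟩ := nonempty_iff_ne_empty.2 h0
    have hlt : ((F.erase x).erase (σ x)).card < n := by
      have h1 := card_erase_lt_of_mem hx
      have h2 := card_erase_le (s := F.erase x) (a := σ x)
      omega
    have hinj : Function.Injective σ := fun a b h => by rw [← hσ a, h, hσ]
    obtain ⟨T, hT, hd, hU⟩ := ih _ hlt ((F.erase x).erase (σ x)) rfl (by
      intro y hy
      simp only [mem_erase] at hy ⊢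
      refine ⟨fun e => hy.2.1 (hinj e), fun e => hy.1 (by rw [← e, hσ]), hF y hy.2.2⟩) (by
      intro y hy
      simp only [mem_erase] at hy
      exact hfix y hy.2.2)
    have hxT : x ∉ T ∪ T.image σ := by
      rw [← hU]; simp
    have hsT : σ x ∉ T ∪ T.image σ := by
      rw [← hU]; simp
    refine ⟨insert x T, ?_, ?_, ?_⟩
    · intro y hy
      rw [mem_insert] at hy
      rcases hy with rfl | hy
      · exact hx
      · have := hT hy
        simp only [mem_erase] at this
        exact this.2.2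
    · rw [image_insert, disjoint_insert_left, disjoint_insert_right]
      simp only [mem_union, not_or] at hxT hsT
      refine ⟨?_, hsT.1, hd⟩
      rw [mem_insert, not_or]
      exact ⟨(hfix x hx).symm, hxT.2⟩
    · ext y
      have hy := Finset.ext_iff.1 hU y
      simp only [mem_erase, mem_union] at hy
      rw [image_insert]
      simp only [mem_union, mem_insert]
      constructor
      · intro hyF
        by_cases h1 : y = x
        · tauto
        · by_cases h2 : y = σ x
          · tauto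
          · have := hy.1 ⟨h2, h1, hyF⟩
            tauto
      · rintro ((rfl | h) | (rfl | h))
        · exact hx
        · exact (hy.2 (Or.inl h)).2.2
        · exact hF x hx
        · exact (hy.2 (Or.inr h)).2.2

end half

variable {ι : Type*} [Fintype ι] {Λ : AddSubgroup (ι → ℤ)} {b : Λ → Λ → ℤ}

namespace IsRL

theorem add_r (h : IsRL Λ b) (x y z : Λ) : b x (y + z) = b x y + b x z := by
  rw [h.symm, h.add, h.symm y x, h.symm z x]

theorem zero_l (h : IsRL Λ b) (x : Λ) : b 0 x = 0 := by
  have := h.add 0 0 x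
  rw [add_zero] at this
  omega

theorem zero_r (h : IsRL Λ b) (x : Λ) : b x 0 = 0 := by rw [h.symm, h.zero_l]

theorem neg_l (h : IsRL Λ b) (x y : Λ) : b (-x) y = - b x y := by
  have := h.add x (-x) y
  rw [add_neg_cancel, h.zero_l] at this
  omega

theorem neg_r (h : IsRL Λ b) (x y : Λ) : b x (-y) = - b x y := by
  rw [h.symm, h.neg_l, h.symm]

theorem sub_l (h : IsRL Λ b) (x y z : Λ) : b (x - y) z = b x z - b y z := by
  rw [sub_eq_add_neg, h.add, h.neg_l]; ring

theorem sub_r (h : IsRL Λ b) (x y z : Λ) : b x (y - z) = b x y - b x z := by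
  rw [sub_eq_add_neg, h.add_r, h.neg_r]; ring

/-- the form as an additive map -/
def hom (h : IsRL Λ b) (y : Λ) : Λ →+ ℤ where
  toFun x := b x y
  map_zero' := h.zero_l y
  map_add' x z := h.add x z y

theorem zsmul_l (h : IsRL Λ b) (n : ℤ) (x y : Λ) : b (n • x) y = n * b x y := by
  have := map_zsmul (h.hom y) n x
  rw [smul_eq_mul] at this
  exact this

theorem sum_l (h : IsRL Λ b) {κ : Type*} (s : Finset κ) (f : κ → Λ) (y : Λ) :
    b (∑ k ∈ s, f k) y = ∑ k ∈ s, b (f k) y := by
  exact map_sum (h.hom y) f s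

theorem zsmul_r (h : IsRL Λ b) (n : ℤ) (x y : Λ) : b x (n • y) = n * b x y := by
  rw [h.symm, h.zsmul_l, h.symm]

theorem min4 (h : IsRL Λ b) {x : Λ} (hx : x ≠ 0) : 4 ≤ b x x := by
  have h1 := h.pos x hx
  have h2 := h.even x
  have h3 := h.nr x
  omega

theorem eq_zero (h : IsRL Λ b) {x : Λ} (hx : b x x ≤ 0) : x = 0 := by
  by_contra hne
  have := h.pos x hne
  omega

/-- short vectors congruent modulo 2 -/
theorem same_class (h : IsRL Λ b) {x y z : Λ} (hz : x - y = z + z) (hx : b x x ≤ 8) (hy : b y y ≤ 8)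
    (hne : x ≠ y) (hne' : x ≠ -y) : b x x = 8 ∧ b y y = 8 ∧ b x y = 0 := by
  have hz0 : z ≠ 0 := by
    rintro rfl
    rw [add_zero] at hz
    exact hne (sub_eq_zero.1 hz)
  have hz1 : z + y ≠ 0 := by
    intro h1
    apply hne'
    have : x = z + z + y := by rw [← hz]; abel
    rw [this]
    have h2 : z = -y := eq_neg_of_add_eq_zero_left h1
    rw [h2]; abel
  have h1 := h.min4 hz0
  have h2 := h.min4 hz1
  have e1 : b (x - y) (x - y) = 4 * b z z := by
    rw [hz, h.add, h.add_r]; ring
  have e2 : b (x + y) (x + y) = 4 * b (z + y) (z + y) := by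
    have : x + y = (z + y) + (z + y) := by
      have : x = z + z + y := by rw [← hz]; abel
      rw [this]; abel
    rw [this, h.add (z + y) (z + y), h.add_r]
    ring
  rw [h.sub_l, h.sub_r, h.sub_r] at e1
  have e3 : b (x + y) (x + y) = b x x + b x y + (b y x + b y y) := by
    rw [h.add, h.add_r, h.add_r]
  rw [e3] at e2
  have e4 := h.symm x y
  refine ⟨?_, ?_, ?_⟩ <;> linarith [h1, h2, e1, e2, e4, hx, hy]

/-- orthogonal vectors are independent -/
theorem orth_card (h : IsRL Λ b) {S : Finset Λ} (h0 : ∀ x ∈ S, x ≠ 0)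
    (ho : ∀ x ∈ S, ∀ y ∈ S, x ≠ y → b x y = 0) : S.card ≤ 24 := by
  classical
  have hli : LinearIndependent ℤ (fun s : S => (s.1 : Λ)) := by
    rw [Fintype.linearIndependent_iff]
    intro g hg t
    have h1 : b (∑ s : S, g s • (s.1 : Λ)) t.1 = 0 := by rw [hg, h.zero_l]
    rw [h.sum_l] at h1
    rw [Finset.sum_eq_single_of_mem t (mem_univ t)] at h1
    · rw [h.zsmul_l] at h1
      have h2 := h.pos t.1 (h0 t.1 t.2)
      rcases mul_eq_zero.1 h1 with h3 | h3
      · exact h3
      · omega
    · intro s _ hst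
      rw [h.zsmul_l, ho s.1 s.2 t.1 t.2 (fun e => hst (Subtype.ext e)), mul_zero]
  have hli2 : LinearIndependent ℤ (fun s : S => ((s.1 : Λ) : ι → ℤ)) := by
    have := hli.map' (Λ.subtype.toIntLinearMap) (by
      rw [LinearMap.ker_eq_bot]
      exact Subtype.val_injective)
    exact this
  have h2 := hli2.fintype_card_le_finrank
  rw [Module.finrank_fintype_fun_eq_card, h.pts, Fintype.card_coe] at h2
  exact h2

end IsRL

/-- twice the lattice -/
def dbl (Λ : AddSubgroup (ι → ℤ)) : AddSubgroup Λ where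
  carrier := {x | ∃ z, x = z + z}
  zero_mem' := ⟨0, by simp⟩
  add_mem' := by
    rintro _ _ ⟨z, rfl⟩ ⟨w, rfl⟩
    exact ⟨z + w, by abel⟩
  neg_mem' := by
    rintro _ ⟨z, rfl⟩
    exact ⟨-z, by abel⟩

theorem mem_dbl {x : Λ} : x ∈ dbl Λ ↔ ∃ z, x = z + z := Iff.rfl

/-- doubling on `ℤ^ι` -/
def dblHom (ι : Type*) : (ι → ℤ) →+ (ι → ℤ) where
  toFun x := x + x
  map_zero' := by simp
  map_add' x y := by abel

theorem index_range : (dblHom ι).range.index = 2 ^ Fintype.card ι := by
  let f : (ι → ℤ) →+ (ι → ZMod 2) :=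
    { toFun := fun x i => (x i : ZMod 2)
      map_zero' := by funext i; simp
      map_add' := by intro x y; funext i; simp }
  have hs : Function.Surjective f := by
    intro y
    choose x hx using fun i => ZMod.intCast_surjective (y i)
    exact ⟨x, funext hx⟩
  have hk : f.ker = (dblHom ι).range := by
    ext x
    rw [AddMonoidHom.mem_ker, AddMonoidHom.mem_range]
    constructor
    · intro h
      have h1 : ∀ i, (2 : ℤ) ∣ x i := by
        intro i
        have := congrFun h i
        exact (ZMod.intCast_zmod_eq_zero_iff_dvd (x i) 2).1 this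
      choose y hy using h1
      refine ⟨y, ?_⟩
      funext i
      change y i + y i = x i
      rw [hy]; ring
    · rintro ⟨y, rfl⟩
      funext i
      change ((y i + y i : ℤ) : ZMod 2) = 0
      rw [ZMod.intCast_zmod_eq_zero_iff_dvd]
      exact ⟨y i, by push_cast; ring⟩
  rw [← hk, AddSubgroup.index_ker]
  have : f.range = ⊤ := AddMonoidHom.range_eq_top.2 hs
  rw [this]
  have h2 : Nat.card (⊤ : AddSubgroup (ι → ZMod 2)) = Nat.card (ι → ZMod 2) := by
    rw [Nat.card_congr (AddSubgroup.topEquiv.toEquiv)]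
  rw [h2, Nat.card_fun, Nat.card_eq_fintype_card, Nat.card_eq_fintype_card, ZMod.card]

theorem dbl_map : (dbl Λ).map Λ.subtype = Λ.map (dblHom ι) := by
  ext x
  rw [AddSubgroup.mem_map, AddSubgroup.mem_map]
  constructor
  · rintro ⟨y, ⟨z, rfl⟩, rfl⟩
    exact ⟨z.1, z.2, rfl⟩
  · rintro ⟨z, hz, rfl⟩
    exact ⟨⟨z, hz⟩ + ⟨z, hz⟩, ⟨_, rfl⟩, rfl⟩

theorem index_dbl (h : IsRL Λ b) : (dbl Λ).index = 2 ^ 24 := by
  have h1 := AddSubgroup.index_map Λ (dblHom ι)
  have h2 : (dblHom ι).ker = ⊥ := by
    rw [AddMonoidHom.ker_eq_bot_iff]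
    intro x y hxy
    funext i
    have : x i + x i = y i + y i := congrFun hxy i
    omega
  rw [h2, sup_bot_eq, index_range, h.pts, ← dbl_map] at h1
  have h3 : (dbl Λ).map Λ.subtype ≤ Λ := by
    rintro _ ⟨y, _, rfl⟩
    exact y.2
  have h4 := AddSubgroup.relIndex_mul_index h3
  rw [h1] at h4
  have h5 : ((dbl Λ).map Λ.subtype).relIndex Λ = 2 ^ 24 := by
    have := h.ind
    rw [mul_comm] at h4
    exact Nat.eq_of_mul_eq_mul_left (Nat.pos_of_ne_zero this) h4
  rw [← h5]
  unfold AddSubgroup.relIndex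
  congr 1
  ext x
  rw [AddSubgroup.mem_addSubgroupOf, AddSubgroup.mem_map]
  constructor
  · intro hx
    exact ⟨x, hx, rfl⟩
  · rintro ⟨y, hy, hyx⟩
    have : y = x := Subtype.ext hyx
    rwa [← this]

end CfsgL.Lat
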