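import Cfsg.Agent.L.Lat.Coord
import Cfsg.Agent.L.S23
/-!
Lattices in Leech scaling: the code, the counting bound.
-/
set_option autoImplicit false
set_option maxHeartbeats 400000
namespace CfsgL.Lat
open Finset Cfsg CfsgL.GU

variable {κ : Type*} [Fintype κ] [DecidableEq κ] {M : AddSubgroup (κ → ℤ)}

theorem dot_add_r (x y z : κ → ℤ) : dotInt x (y + z) = dotInt x y + dotInt x z := by
  unfold dotInt
  rw [← sum_add_distrib]
  apply sum_congr rfl
  intro i _
  rw [Pi.add_apply]; ring

theorem dot_sub_r (x y z : κ → ℤ) : dotInt x (y - z) = dotInt x y - dotInt x z := by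
  unfold dotInt
  rw [← sum_sub_distrib]
  apply sum_congr rfl
  intro i _
  rw [Pi.sub_apply]; ring

theorem dot_single (x : κ → ℤ) (i : κ) (c : ℤ) : dotInt x (Pi.single i c) = x i * c := by
  unfold dotInt
  rw [sum_eq_single i]
  · rw [Pi.single_eq_same]
  · intro j _ hj
    rw [Pi.single_eq_of_ne hj, mul_zero]
  · intro h; exact absurd (mem_univ i) h

theorem sqNorm_single (i : κ) (c : ℤ) : sqNorm (Pi.single i c : κ → ℤ) = c ^ 2 := by
  rw [sqNorm_eq_dot, dot_single, Pi.single_eq_same]; ring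

namespace IsM

theorem parity (h : IsM M) {x : κ → ℤ} (hx : x ∈ M) (i j : κ) : (2 : ℤ) ∣ x i - x j := by
  by_cases hij : i = j
  · rw [hij, sub_self]; exact dvd_zero _
  · have := h.dot x hx _ (h.frm i j hij)
    rw [dot_sub_r, dot_single, dot_single] at this
    omega

theorem two_pts (h : IsM M) : ∃ p q : κ, p ≠ q :=
  Fintype.exists_pair_of_one_lt_card (by rw [h.pts]; norm_num)

theorem mem8 (h : IsM M) (p : κ) : (Pi.single p 8 : κ → ℤ) ∈ M := by
  have : ∃ q : κ, p ≠ q := by
    obtain ⟨a, b, hab⟩ := h.two_pts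
    by_cases hp : p = a
    · exact ⟨b, by rw [hp]; exact hab⟩
    · exact ⟨a, hp⟩
  obtain ⟨q, hpq⟩ := this
  have h1 := M.add_mem (h.frp p q hpq) (h.frm p q hpq)
  have h2 : (Pi.single p 8 : κ → ℤ) =
      (Pi.single p 4 + Pi.single q 4) + (Pi.single p 4 - Pi.single q 4) := by
    funext i
    simp only [Pi.add_apply, Pi.sub_apply, Pi.single_apply]
    split_ifs <;> norm_num
  rw [h2]; exact h1

theorem d4 (h : IsM M) (z : κ → ℤ) (hz : (2 : ℤ) ∣ ∑ i, z i) : (fun i => 4 * z i) ∈ M := by
  obtain ⟨p, q, hpq⟩ := h.two_pts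
  obtain ⟨k, hk⟩ := hz
  have h1 : (fun i => 4 * z i) = (∑ i, z i • (Pi.single i 4 - Pi.single p 4 : κ → ℤ)) +
      k • (Pi.single p 8 : κ → ℤ) := by
    funext j
    have e1 : (∑ i, z i • (Pi.single i 4 - Pi.single p 4 : κ → ℤ)) j =
        ∑ i, (z i * (Pi.single i 4 : κ → ℤ) j - z i * (Pi.single p 4 : κ → ℤ) j) := by
      rw [Finset.sum_apply]
      apply sum_congr rfl
      intro i _
      rw [Pi.smul_apply, Pi.sub_apply, smul_eq_mul]; ring
    rw [Pi.add_apply, e1, sum_sub_distrib, ← sum_mul, hk, Pi.smul_apply, smul_eq_mul]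
    have e2 : ∑ i, z i * (Pi.single i 4 : κ → ℤ) j = z j * 4 := by
      rw [sum_eq_single j]
      · rw [Pi.single_eq_same]
      · intro i _ hi
        rw [Pi.single_eq_of_ne (Ne.symm hi), mul_zero]
      · intro h; exact absurd (mem_univ _) h
    rw [e2]
    simp only [Pi.single_apply]
    split_ifs <;> ring
  rw [h1]
  refine M.add_mem (M.sum_mem fun i _ => M.zsmul_mem ?_ _) (M.zsmul_mem (h.mem8 p) _)
  by_cases hip : i = p
  · rw [hip, sub_self]; exact M.zero_mem
  · exact h.frm i p hip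

theorem not4 (h : IsM M) (p : κ) {c : ℤ} (hc : c = 4 ∨ c = -4) : (Pi.single p c : κ → ℤ) ∉ M := by
  intro hm
  have h1 := h.min _ hm (by
    intro e
    have := congrFun e p
    rw [Pi.single_eq_same, Pi.zero_apply] at this
    omega)
  rw [sqNorm_single] at h1
  rcases hc with rfl | rfl <;> norm_num at h1

theorem d4' (h : IsM M) (z : κ → ℤ) (hz : (fun i => 4 * z i) ∈ M) : (2 : ℤ) ∣ ∑ i, z i := by
  by_contra hn
  obtain ⟨p, q, hpq⟩ := h.two_pts
  have h1 : (fun i => 4 * (z i - (Pi.single p 1 : κ → ℤ) i)) ∈ M := by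
    apply h.d4
    rw [sum_sub_distrib]
    have : ∑ i, (Pi.single p 1 : κ → ℤ) i = 1 := by simp
    rw [this]; omega
  have h2 := M.sub_mem hz h1
  apply h.not4 p (c := 4) (Or.inl rfl)
  convert h2 using 1
  funext i
  simp only [Pi.sub_apply, Pi.single_apply]
  split_ifs <;> ring

end IsM

/-- the code of a lattice -/
noncomputable def code (M : AddSubgroup (κ → ℤ)) : Finset (Finset κ) := by
  classical
  exact univ.filter (fun S => ∃ x ∈ M, ∀ i, x i % 4 = if i ∈ S then 2 else 0)

theorem mem_code {S : Finset κ} : S ∈ code M ↔ ∃ x ∈ M, ∀ i, x i % 4 = if i ∈ S then 2 else 0 := by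
  classical
  unfold code
  rw [mem_filter]
  exact ⟨fun h => h.2, fun h => ⟨mem_univ _, h⟩⟩

/-- vectors with entries `±c` on a set -/
def sgn (c : ℤ) (S : Finset κ) : Finset (κ → ℤ) :=
  Fintype.piFinset (fun i => if i ∈ S then {c, -c} else {0})

theorem mem_sgn {c : ℤ} {S : Finset κ} {x : κ → ℤ} :
    x ∈ sgn c S ↔ (∀ i ∈ S, x i = c ∨ x i = -c) ∧ ∀ i, i ∉ S → x i = 0 := by
  unfold sgn
  rw [Fintype.mem_piFinset]
  constructor
  · intro h
    refine ⟨fun i hi => ?_, fun i hi => ?_⟩
    · have := h i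
      rw [if_pos hi] at this
      simpa using this
    · have := h i
      rw [if_neg hi] at this
      simpa using this
  · rintro ⟨h1, h2⟩ i
    split_ifs with hi
    · simpa using h1 i hi
    · simpa using h2 i hi

theorem card_sgn {c : ℤ} (hc : c ≠ 0) (S : Finset κ) : (sgn c S).card = 2 ^ S.card := by
  unfold sgn
  rw [Fintype.card_piFinset]
  have h1 : ∀ i : κ, (if i ∈ S then ({c, -c} : Finset ℤ) else {0}).card = if i ∈ S then 2 else 1 := by
    intro i
    split_ifs
    · rw [card_pair]; omega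
    · rfl
  rw [prod_congr rfl (fun i _ => h1 i), prod_ite_mem, univ_inter, prod_const]

theorem norm_sgn {c : ℤ} {S : Finset κ} {x : κ → ℤ} (hx : x ∈ sgn c S) :
    sqNorm x = c ^ 2 * S.card := by
  rw [mem_sgn] at hx
  unfold sqNorm
  have h1 : ∀ i : κ, x i ^ 2 = if i ∈ S then c ^ 2 else 0 := by
    intro i
    split_ifs with hi
    · rcases hx.1 i hi with h | h <;> rw [h]
      ring
    · rw [hx.2 i hi]; norm_num
  rw [sum_congr rfl (fun i _ => h1 i), sum_ite_mem, univ_inter, sum_const, nsmul_eq_mul, mul_comm]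

/-- flip the sign of one coordinate -/
def flip (p : κ) (x : κ → ℤ) : κ → ℤ := fun i => if i = p then - x i else x i

theorem flip_flip (p : κ) (x : κ → ℤ) : flip p (flip p x) = x := by
  funext i
  unfold flip
  split_ifs <;> ring

theorem flip_sgn {c : ℤ} {S : Finset κ} {x : κ → ℤ} (p : κ) (hx : x ∈ sgn c S) :
    flip p x ∈ sgn c S := by
  rw [mem_sgn] at *
  unfold flip
  refine ⟨fun i hi => ?_, fun i hi => ?_⟩
  · have := hx.1 i hi
    split_ifs <;> omega
  · have := hx.2 i hi
    split_ifs <;> omega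

namespace IsM

/-- changing an even vector of the lattice into a small one -/
theorem small (h : IsM M) {S : Finset κ} (hS : S ∈ code M) (hne : S.Nonempty) :
    ∃ x ∈ M, x ∈ sgn 2 S := by
  rw [mem_code] at hS
  obtain ⟨x, hx, hx4⟩ := hS
  have hz : ∀ i, ∃ z : ℤ, x i = 2 * (if i ∈ S then 1 else 0) + 4 * z := by
    intro i
    have := hx4 i
    split_ifs at this ⊢ <;> exact ⟨x i / 4, by omega⟩
  choose z hz using hz
  obtain ⟨p, hp⟩ := hne
  by_cases hs : (2 : ℤ) ∣ ∑ i, z i
  · refine ⟨_, M.sub_mem hx (h.d4 z hs), ?_⟩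
    rw [mem_sgn]
    refine ⟨fun i hi => Or.inl ?_, fun i hi => ?_⟩
    · rw [Pi.sub_apply, hz i, if_pos hi]; ring
    · rw [Pi.sub_apply, hz i, if_neg hi]; ring
  · have h1 : (fun i => 4 * (z i + (Pi.single p 1 : κ → ℤ) i)) ∈ M := by
      apply h.d4
      rw [sum_add_distrib]
      have : ∑ i, (Pi.single p 1 : κ → ℤ) i = 1 := by simp
      rw [this]; omega
    refine ⟨_, M.sub_mem hx h1, ?_⟩
    rw [mem_sgn]
    refine ⟨fun i hi => ?_, fun i hi => ?_⟩
    · rw [Pi.sub_apply, hz i, if_pos hi]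
      by_cases hip : i = p
      · right; rw [hip, Pi.single_eq_same]; ring
      · left; rw [Pi.single_eq_of_ne hip]; ring
    · rw [Pi.sub_apply, hz i, if_neg hi, Pi.single_eq_of_ne (by rintro rfl; exact hi hp)]; ring

theorem code_symm (S : Finset κ) (hS : S ∈ code M) (T : Finset κ) (hT : T ∈ code M) :
    symmDiff S T ∈ code M := by
  rw [mem_code] at *
  obtain ⟨x, hx, hx4⟩ := hS
  obtain ⟨y, hy, hy4⟩ := hT
  refine ⟨x + y, M.add_mem hx hy, fun i => ?_⟩
  have h1 := hx4 i
  have h2 := hy4 i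
  rw [Pi.add_apply]
  by_cases hi : i ∈ S <;> by_cases hj : i ∈ T <;> simp only [hi, hj, if_true, if_false, mem_symmDiff] at h1 h2 ⊢ <;>
    simp <;> omega

theorem code_min (h : IsM M) (S : Finset κ) (hS : S ∈ code M) (hne : S ≠ ∅) : 8 ≤ S.card := by
  obtain ⟨x, hx, hxs⟩ := h.small hS (nonempty_iff_ne_empty.2 hne)
  have h1 := norm_sgn hxs
  obtain ⟨p, hp⟩ := nonempty_iff_ne_empty.2 hne
  have h2 := h.min x hx (by
    intro e
    rw [mem_sgn] at hxs
    have := hxs.1 p hp
    rw [e, Pi.zero_apply] at this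
    omega)
  omega

theorem code_four (h : IsM M) (S : Finset κ) (hS : S ∈ code M) : 4 ∣ S.card := by
  by_cases hne : S = ∅
  · rw [hne]; simp
  obtain ⟨x, hx, hxs⟩ := h.small hS (nonempty_iff_ne_empty.2 hne)
  have h1 := norm_sgn hxs
  have h2 := h.nrm x hx
  rw [h1] at h2
  omega

/-- packing -/
theorem octads_le (h : IsM M) : ((code M).filter (fun S => S.card = 8)).card ≤ 759 := by
  have h1 : (((code M).filter (fun S => S.card = 8)).biUnion (fun S => powersetCard 5 S)).card =
      ∑ S ∈ (code M).filter (fun S => S.card = 8), (powersetCard 5 S).card := by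
    apply card_biUnion
    intro S hS T hT hST
    rw [mem_coe, mem_filter] at hS hT
    rw [Function.onFun, disjoint_left]
    intro F hF hF'
    rw [mem_powersetCard] at hF hF'
    have h2 := h.code_min _ (code_symm S hS.1 T hT.1) (by
      intro e
      exact hST (symmDiff_eq_bot.1 e))
    have h3 := card_sd S T
    have h4 : F ⊆ S ∩ T := subset_inter hF.1 hF'.1
    have h5 := card_le_card h4
    omega
  have h2 : ∑ S ∈ (code M).filter (fun S => S.card = 8), (powersetCard 5 S).card =
      ((code M).filter (fun S => S.card = 8)).card * 56 := by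
    rw [sum_congr rfl (g := fun _ => 56), sum_const, smul_eq_mul]
    intro S hS
    rw [mem_filter] at hS
    rw [card_powersetCard, hS.2]; rfl
  have h3 : (((code M).filter (fun S => S.card = 8)).biUnion (fun S => powersetCard 5 S)).card ≤
      (powersetCard 5 (univ : Finset κ)).card := by
    apply card_le_card
    intro F hF
    rw [mem_biUnion] at hF
    obtain ⟨S, _, hF⟩ := hF
    rw [mem_powersetCard] at hF ⊢
    exact ⟨subset_univ _, hF.2⟩
  rw [h1, h2, card_powersetCard, card_univ, h.pts] at h3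
  have : Nat.choose 24 5 = 42504 := by decide
  omega

/-- half of the sign patterns -/
theorem half_signs (h : IsM M) {S : Finset κ} (hS : S.card = 8) [DecidablePred (· ∈ M)] :
    ((sgn 2 S).filter (· ∈ M)).card ≤ 128 := by
  have hne : S.Nonempty := by rw [← card_pos, hS]; norm_num
  obtain ⟨p, hp⟩ := hne
  have h1 : ((sgn 2 S).filter (· ∈ M)).card ≤ ((sgn 2 S).filter (¬ · ∈ M)).card := by
    apply card_le_card_of_injOn (flip p)
    · intro x hx
      rw [mem_coe, mem_filter] at *
      refine ⟨flip_sgn p hx.1, fun hm => ?_⟩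
      have h2 := M.sub_mem hx.2 hm
      have h3 := (mem_sgn.1 hx.1).1 p hp
      have h4 : x - flip p x = Pi.single p (2 * x p) := by
        funext i
        rw [Pi.sub_apply, Pi.single_apply]
        unfold flip
        split_ifs with hi
        · rw [hi]; ring
        · ring
      rw [h4] at h2
      exact h.not4 p (by omega) h2
    · intro x _ y _ hxy
      rw [← flip_flip p x, hxy, flip_flip]
  have h2 := card_filter_add_card_filter_not (s := sgn 2 S) (p := (· ∈ M))
  rw [card_sgn (by norm_num), hS] at h2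
  omega

end IsM
end CfsgL.Lat
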