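import Cfsg.Agent.L.Lat.Std
/-!
Counting the vectors of norm 32, the code is a Golay code.
-/
set_option autoImplicit false
set_option maxHeartbeats 400000
namespace CfsgL.Lat
open Finset Cfsg CfsgL.GU

variable {κ : Type*} [Fintype κ] [DecidableEq κ] {M : AddSubgroup (κ → ℤ)}

/-- odd vectors of norm 32 -/
theorem odd32 (hk : Fintype.card κ = 24) {x : κ → ℤ} (ho : ∀ i, x i % 2 = 1) (hn : sqNorm x = 32) :
    ∃ p, x p ^ 2 = 9 ∧ ∀ i, i ≠ p → x i ^ 2 = 1 := by
  have hsq : ∀ i, x i ^ 2 = 1 ∨ 9 ≤ x i ^ 2 := by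
    intro i
    have h1 := ho i
    by_cases h3 : -3 < x i ∧ x i < 3
    · left
      have : x i = 1 ∨ x i = -1 := by omega
      rcases this with e | e <;> rw [e] <;> norm_num
    · right
      have : x i ≤ -3 ∨ 3 ≤ x i := by omega
      rcases this with e | e <;> nlinarith
  have hsum : ∑ i, (x i ^ 2 - 1) = 8 := by
    rw [sum_sub_distrib]
    unfold sqNorm at hn
    rw [hn, sum_const, card_univ, hk]; norm_num
  have hex : ∃ p, 9 ≤ x p ^ 2 := by
    by_contra hno
    push Not at hno
    have : ∑ i, (x i ^ 2 - 1) = 0 := by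
      apply sum_eq_zero
      intro i _
      have h1 := hsq i
      have h2 := hno i
      omega
    omega
  obtain ⟨p, hp⟩ := hex
  have h1 := add_sum_erase (univ : Finset κ) (fun i => x i ^ 2 - 1) (mem_univ p)
  beta_reduce at h1
  rw [hsum] at h1
  have hnn : ∀ i ∈ univ.erase p, 0 ≤ x i ^ 2 - 1 := by
    intro i _
    have := hsq i
    omega
  have h2 := sum_nonneg hnn
  refine ⟨p, by omega, fun i hi => ?_⟩
  have h3 : ∑ i ∈ univ.erase p, (x i ^ 2 - 1) = 0 := by omega
  have h4 := (sum_eq_zero_iff_of_nonneg hnn).1 h3 i (mem_erase.2 ⟨hi, mem_univ _⟩)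
  omega

/-- coordinates congruent to 1 modulo 4 -/
def res (x : κ → ℤ) : Finset κ := univ.filter (fun i => x i % 4 = 1)
/-- place of the large coordinate -/
def big (x : κ → ℤ) : Finset κ := univ.filter (fun i => x i ^ 2 = 9)

theorem eq_of_res {x y : κ → ℤ} {p q : κ} (hx : x p ^ 2 = 9) (hx1 : ∀ i, i ≠ p → x i ^ 2 = 1)
    (hy : y q ^ 2 = 9) (hy1 : ∀ i, i ≠ q → y i ^ 2 = 1) (hb : big x = big y) (hr : res x = res y) :
    x = y := by
  have hpq : p = q := by
    have h1 : p ∈ big x := by unfold big; rw [mem_filter]; exact ⟨mem_univ _, hx⟩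
    rw [hb] at h1
    unfold big at h1
    rw [mem_filter] at h1
    by_contra hne
    have := hy1 p hne
    omega
  subst hpq
  funext i
  have hri : (x i % 4 = 1) ↔ (y i % 4 = 1) := by
    have := Finset.ext_iff.1 hr i
    unfold res at this
    simpa using this
  by_cases hi : i = p
  · subst hi
    have h1 : x i = 3 ∨ x i = -3 := sq_eq_sq_iff_eq_or_eq_neg.1 (by rw [hx]; norm_num)
    have h2 : y i = 3 ∨ y i = -3 := sq_eq_sq_iff_eq_or_eq_neg.1 (by rw [hy]; norm_num)
    omega
  · have h1 : x i = 1 ∨ x i = -1 := sq_eq_sq_iff_eq_or_eq_neg.1 (by rw [hx1 i hi]; norm_num)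
    have h2 : y i = 1 ∨ y i = -1 := sq_eq_sq_iff_eq_or_eq_neg.1 (by rw [hy1 i hi]; norm_num)
    omega

namespace IsM

theorem fin32 (h : IsM M) : {x | x ∈ M ∧ sqNorm x = 32}.Finite := by
  apply Set.finite_of_ncard_ne_zero
  rw [h.cnt]; norm_num

theorem even32 (h : IsM M) {x : κ → ℤ} (hx : x ∈ M) (hn : sqNorm x = 32)
    (he : ∀ i, x i % 2 = 0) : (∃ S, S.card = 2 ∧ x ∈ sgn 4 S) ∨
      ∃ S ∈ code M, S.card = 8 ∧ x ∈ sgn 2 S := by
  classical
  set S := univ.filter (fun i => x i % 4 = 2) with hS
  have hmem : ∀ i, i ∈ S ↔ x i % 4 = 2 := by intro i; rw [hS, mem_filter]; simp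
  have hSc : S ∈ code M := by
    rw [mem_code]
    refine ⟨x, hx, fun i => ?_⟩
    have h1 := he i
    have h2 := hmem i
    split_ifs with hi
    · exact h2.1 hi
    · have h3 : x i % 4 ≠ 2 := fun e => hi (h2.2 e)
      omega
  by_cases hne : S = ∅
  · left
    have h4 : ∀ i, ∃ z : ℤ, x i = 4 * z := by
      intro i
      have h1 := he i
      have h2 : x i % 4 ≠ 2 := by
        intro e
        have := (hmem i).2 e
        rw [hne] at this
        exact absurd this (notMem_empty _)
      exact ⟨x i / 4, by omega⟩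
    choose z hz using h4
    have hn2 : ∑ i, z i ^ 2 = 2 := by
      unfold sqNorm at hn
      have : ∑ i, x i ^ 2 = 16 * ∑ i, z i ^ 2 := by
        rw [mul_sum]
        apply sum_congr rfl
        intro i _
        rw [hz i]; ring
      omega
    have hb : ∀ i, z i ^ 2 ≤ 2 := by
      intro i
      rw [← hn2]
      exact single_le_sum (f := fun i => z i ^ 2) (fun j _ => sq_nonneg (z j)) (mem_univ i)
    have hv : ∀ i, z i = 0 ∨ z i = 1 ∨ z i = -1 := by
      intro i
      have := hb i
      have h1 : z i < 2 := by nlinarith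
      have h2 : -2 < z i := by nlinarith
      omega
    refine ⟨univ.filter (fun i => z i ≠ 0), ?_, ?_⟩
    · have h5 : ∑ i, z i ^ 2 = ∑ i, if z i ≠ 0 then 1 else 0 := by
        apply sum_congr rfl
        intro i _
        rcases hv i with e | e | e <;> rw [e] <;> norm_num
      rw [h5, sum_boole] at hn2
      exact_mod_cast hn2
    · rw [mem_sgn]
      refine ⟨fun i hi => ?_, fun i hi => ?_⟩
      · rw [mem_filter] at hi
        have := hv i
        have := hz i
        omega
      · rw [mem_filter] at hi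
        have h6 : z i = 0 := by
          by_contra hne'
          exact hi ⟨mem_univ _, hne'⟩
        rw [hz i, h6]; norm_num
  · right
    have h8 := h.code_min S hSc hne
    have hsq : ∀ i, (if i ∈ S then (4 : ℤ) else 0) ≤ x i ^ 2 := by
      intro i
      split_ifs with hi
      · have := (hmem i).1 hi
        have h3 : x i ≤ -2 ∨ 2 ≤ x i := by omega
        rcases h3 with e | e <;> nlinarith
      · exact sq_nonneg _
    have hs4 : ∑ i, (if i ∈ S then (4 : ℤ) else 0) = 4 * S.card := by
      rw [sum_ite_mem, univ_inter, sum_const, nsmul_eq_mul, mul_comm]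
    have hle : ∑ i, (if i ∈ S then (4 : ℤ) else 0) ≤ ∑ i, x i ^ 2 := sum_le_sum (fun i _ => hsq i)
    unfold sqNorm at hn
    rw [hs4, hn] at hle
    have hcard : S.card = 8 := by omega
    have heq : ∀ i ∈ (univ : Finset κ), (if i ∈ S then (4 : ℤ) else 0) = x i ^ 2 := by
      apply (sum_eq_sum_iff_of_le (fun i _ => hsq i)).1
      rw [hs4, hn, hcard]; norm_num
    refine ⟨S, hSc, hcard, ?_⟩
    rw [mem_sgn]
    refine ⟨fun i hi => ?_, fun i hi => ?_⟩
    · have := heq i (mem_univ i)
      rw [if_pos hi] at this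
      exact sq_eq_sq_iff_eq_or_eq_neg.1 (by rw [← this]; norm_num)
    · have := heq i (mem_univ i)
      rw [if_neg hi] at this
      exact pow_eq_zero_iff (two_ne_zero) |>.1 this.symm

/-- the count -/
theorem count (h : IsM M) : (code M).card = 4096 ∧ ∃ x ∈ M, sqNorm x = 32 ∧ ∀ i, x i % 2 = 1 := by
  classical
  set F := h.fin32.toFinset with hF
  have hmF : ∀ x, x ∈ F ↔ x ∈ M ∧ sqNorm x = 32 := by
    intro x; rw [hF, Set.Finite.mem_toFinset]; rfl
  have hcF : F.card = 196560 := by
    rw [← h.cnt, hF, ← Set.ncard_eq_toFinset_card _ h.fin32]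
  set A : Finset (κ → ℤ) := (powersetCard 2 (univ : Finset κ)).biUnion (fun S => sgn 4 S) with hA
  set B : Finset (κ → ℤ) := ((code M).filter (fun S => S.card = 8)).biUnion
    (fun S => (sgn 2 S).filter (· ∈ M)) with hB
  set O := F.filter (fun x => ∀ i, x i % 2 = 1) with hO
  have hcov : F ⊆ A ∪ B ∪ O := by
    intro x hx
    have hx' := (hmF x).1 hx
    rw [mem_union, mem_union]
    by_cases ho : ∀ i, x i % 2 = 1
    · right
      rw [hO, mem_filter]
      exact ⟨hx, ho⟩
    · left
      push Not at ho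
      obtain ⟨j, hj⟩ := ho
      have he : ∀ i, x i % 2 = 0 := by
        intro i
        have := h.parity hx'.1 i j
        omega
      rcases h.even32 hx'.1 hx'.2 he with ⟨S, hS, hxs⟩ | ⟨S, hSc, hS, hxs⟩
      · left
        rw [hA, mem_biUnion]
        exact ⟨S, mem_powersetCard.2 ⟨subset_univ _, hS⟩, hxs⟩
      · right
        rw [hB, mem_biUnion]
        exact ⟨S, mem_filter.2 ⟨hSc, hS⟩, mem_filter.2 ⟨hxs, hx'.1⟩⟩
  have hA1 : A.card ≤ 1104 := by
    have h1 : A.card ≤ ∑ S ∈ powersetCard 2 (univ : Finset κ), (sgn 4 S).card := card_biUnion_le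
    have h2 : ∑ S ∈ powersetCard 2 (univ : Finset κ), (sgn 4 S).card =
        ∑ S ∈ powersetCard 2 (univ : Finset κ), 4 := by
      apply sum_congr rfl
      intro S hS
      rw [mem_powersetCard] at hS
      rw [card_sgn (by norm_num), hS.2]; rfl
    rw [h2, sum_const, card_powersetCard, card_univ, h.pts] at h1
    exact h1
  have hB1 : B.card ≤ 97152 := by
    have h1 : B.card ≤ ∑ S ∈ (code M).filter (fun S => S.card = 8),
        ((sgn 2 S).filter (· ∈ M)).card := card_biUnion_le
    have h2 : ∑ S ∈ (code M).filter (fun S => S.card = 8), ((sgn 2 S).filter (· ∈ M)).card ≤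
        ∑ S ∈ (code M).filter (fun S => S.card = 8), 128 := by
      apply sum_le_sum
      intro S hS
      rw [mem_filter] at hS
      exact h.half_signs hS.2
    rw [sum_const, smul_eq_mul] at h2
    have h3 := h.octads_le
    omega
  have hsub : F.card ≤ A.card + B.card + O.card := by
    have h1 := card_le_card hcov
    have h2 := card_union_le (A ∪ B) O
    have h3 := card_union_le A B
    omega
  have hOne : O.Nonempty := by
    rw [← card_pos]; omega
  obtain ⟨u, hu⟩ := hOne
  have hu' := mem_filter.1 hu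
  have huM := (hmF u).1 hu'.1
  have hO1 : O.card ≤ (powersetCard 1 (univ : Finset κ) ×ˢ code M).card := by
    apply card_le_card_of_injOn (fun x => (big x, symmDiff (res x) (res u)))
    · intro x hx
      have hx' := mem_filter.1 (mem_coe.1 hx)
      have hxM := (hmF x).1 hx'.1
      rw [mem_coe, mem_product]
      constructor
      · rw [mem_powersetCard]
        refine ⟨subset_univ _, ?_⟩
        obtain ⟨p, hp, hp1⟩ := odd32 h.pts hx'.2 hxM.2
        rw [card_eq_one]
        refine ⟨p, ?_⟩
        ext i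
        unfold big
        rw [mem_filter, mem_singleton]
        constructor
        · rintro ⟨_, hi⟩
          by_contra hne
          have := hp1 i hne
          omega
        · rintro rfl
          exact ⟨mem_univ _, hp⟩
      · simp only
        rw [mem_code]
        refine ⟨x - u, M.sub_mem hxM.1 huM.1, fun i => ?_⟩
        have h1 := hx'.2 i
        have h2 := hu'.2 i
        have h3 : i ∈ res x ↔ x i % 4 = 1 := by unfold res; rw [mem_filter]; simp
        have h4 : i ∈ res u ↔ u i % 4 = 1 := by unfold res; rw [mem_filter]; simp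
        rw [Pi.sub_apply]
        by_cases h5 : x i % 4 = 1 <;> by_cases h6 : u i % 4 = 1 <;>
          simp only [mem_symmDiff, h3, h4, h5, h6] <;> simp <;> omega
    · intro x hx y hy hxy
      have hx' := mem_filter.1 (mem_coe.1 hx)
      have hxM := (hmF x).1 hx'.1
      have hy' := mem_filter.1 (mem_coe.1 hy)
      have hyM := (hmF y).1 hy'.1
      obtain ⟨p, hp, hp1⟩ := odd32 h.pts hx'.2 hxM.2
      obtain ⟨q, hq, hq1⟩ := odd32 h.pts hy'.2 hyM.2
      simp only [Prod.mk.injEq] at hxy
      exact eq_of_res hp hp1 hq hq1 hxy.1 (symmDiff_left_injective _ hxy.2)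
  rw [card_product, card_powersetCard, card_univ, h.pts] at hO1
  have hc := card_le_of_min h.pts (fun s hs t ht => code_symm s hs t ht) h.code_min
  have h24 : Nat.choose 24 1 = 24 := by decide
  rw [h24] at hO1
  refine ⟨by omega, u, huM.1, huM.2, hu'.2⟩

theorem golay (h : IsM M) : IsGolay (code M) :=
  ⟨h.pts, code_symm, h.count.1, h.code_four, fun S hS h4 => by
    have h1 := h.code_min S hS (by rintro rfl; simp at h4)
    omega⟩

/-- standard coordinates up to signs -/
theorem std (h : IsM M) : ∃ ε : κ → ℤ, (∀ i, ε i = 1 ∨ ε i = -1) ∧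
    ∀ x : κ → ℤ, (fun i => ε i * x i) ∈ M ↔ ∃ (m : ℤ) (S : Finset κ) (z : κ → ℤ), S ∈ code M ∧
      (∑ i, z i ≡ m [ZMOD 2]) ∧ x = fun i => m + 2 * (if i ∈ S then 1 else 0) + 4 * z i := by
  obtain ⟨u, hu, hn, ho⟩ := h.count.2
  obtain ⟨p, hp, hp1⟩ := odd32 h.pts ho hn
  set ε : κ → ℤ := fun i => if u i % 4 = 1 then 1 else -1 with hε
  have hε1 : ∀ i, ε i = 1 ∨ ε i = -1 := by
    intro i; rw [hε]; beta_reduce; split_ifs <;> simp
  have hε2 : ∀ i, ε i * ε i = 1 := by
    intro i; rcases hε1 i with e | e <;> rw [e] <;> norm_num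
  have hup : u p = ε p * (-3) := by
    have h1 : u p = 3 ∨ u p = -3 := sq_eq_sq_iff_eq_or_eq_neg.1 (by rw [hp]; norm_num)
    rw [hε]
    rcases h1 with e | e <;> simp only [e] <;> norm_num
  have hui : ∀ i, i ≠ p → u i = ε i := by
    intro i hi
    have h1 : u i = 1 ∨ u i = -1 := sq_eq_sq_iff_eq_or_eq_neg.1 (by rw [hp1 i hi]; norm_num)
    rw [hε]
    rcases h1 with e | e <;> simp only [e] <;> norm_num
  -- even vectors
  have hev : ∀ x : κ → ℤ, (fun i => ε i * x i) ∈ M → (∀ i, x i % 2 = 0) →
      ∃ (S : Finset κ) (z : κ → ℤ), S ∈ code M ∧ (2 : ℤ) ∣ ∑ i, z i ∧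
        x = fun i => 2 * (if i ∈ S then 1 else 0) + 4 * z i := by
    intro x hx he
    set S := univ.filter (fun i => x i % 4 = 2) with hS
    have hmem : ∀ i, i ∈ S ↔ x i % 4 = 2 := by intro i; rw [hS, mem_filter]; simp
    have hSc : S ∈ code M := by
      rw [mem_code]
      refine ⟨_, hx, fun i => ?_⟩
      have h1 := he i
      have h2 := hmem i
      split_ifs with hi
      · have := h2.1 hi
        rcases hε1 i with e | e <;> rw [e] <;> omega
      · have h3 : x i % 4 ≠ 2 := fun e => hi (h2.2 e)
        rcases hε1 i with e | e <;> rw [e] <;> omega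
    have hz : ∀ i, ∃ z : ℤ, x i = 2 * (if i ∈ S then 1 else 0) + 4 * z := by
      intro i
      have h1 := he i
      have h2 := hmem i
      split_ifs with hi
      · have := h2.1 hi
        exact ⟨x i / 4, by omega⟩
      · have h3 : x i % 4 ≠ 2 := fun e => hi (h2.2 e)
        exact ⟨x i / 4, by omega⟩
    choose z hz using hz
    refine ⟨S, z, hSc, ?_, funext hz⟩
    have h1 := h.dot _ hx u hu
    have h2 : dotInt (fun i => ε i * x i) u = ∑ i, x i - 4 * x p := by
      unfold dotInt
      rw [← add_sum_erase _ _ (mem_univ p), ← add_sum_erase univ x (mem_univ p), hup]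
      have : ∑ i ∈ univ.erase p, ε i * x i * u i = ∑ i ∈ univ.erase p, x i := by
        apply sum_congr rfl
        intro i hi
        rw [mem_erase] at hi
        rw [hui i hi.1]
        calc ε i * x i * ε i = (ε i * ε i) * x i := by ring
          _ = x i := by rw [hε2, one_mul]
      rw [this]
      have h3 : ε p * x p * (ε p * -3) = -3 * x p := by
        calc ε p * x p * (ε p * -3) = (ε p * ε p) * (-3 * x p) := by ring
          _ = -3 * x p := by rw [hε2, one_mul]
      rw [h3]; ring
    rw [h2] at h1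
    have h3 : ∑ i, x i = 2 * S.card + 4 * ∑ i, z i := by
      rw [sum_congr rfl (fun i _ => hz i), sum_add_distrib, ← mul_sum, ← mul_sum, sum_boole]
      simp
    rw [h3] at h1
    have h4 := h.code_four S hSc
    have h5 := he p
    obtain ⟨c, hc⟩ := h4
    rw [hc] at h1
    push_cast at h1
    omega
  have hd4 : ∀ z : κ → ℤ, (2 : ℤ) ∣ ∑ i, z i → (fun i => ε i * (4 * z i)) ∈ M := by
    intro z hz
    have : (fun i => ε i * (4 * z i)) = fun i => 4 * (ε i * z i) := by funext i; ring
    rw [this]
    apply h.d4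
    have h1 : ∀ i, (2 : ℤ) ∣ ε i * z i - z i := by
      intro i
      rcases hε1 i with e | e <;> rw [e]
      · simp
      · exact ⟨- z i, by ring⟩
    have h2 : (2 : ℤ) ∣ ∑ i, (ε i * z i - z i) := dvd_sum (fun i _ => h1 i)
    rw [sum_sub_distrib] at h2
    omega
  have hcode : ∀ (S : Finset κ) (z : κ → ℤ), S ∈ code M → (2 : ℤ) ∣ ∑ i, z i →
      (fun i => ε i * (2 * (if i ∈ S then 1 else 0) + 4 * z i)) ∈ M := by
    intro S z hS hz
    have hS' := hS
    rw [mem_code] at hS
    obtain ⟨y, hy, hy4⟩ := hS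
    have h1 : (fun i => ε i * (ε i * y i)) ∈ M := by
      have : (fun i => ε i * (ε i * y i)) = y := by
        funext i; rw [← mul_assoc, hε2, one_mul]
      rw [this]; exact hy
    obtain ⟨S', z', hS'', hz', he'⟩ := hev (fun i => ε i * y i) h1 (by
      intro i
      have := hy4 i
      rcases hε1 i with e | e <;> rw [e] <;> split_ifs at this <;> omega)
    have hSS : S' = S := by
      ext i
      have h2 := congrFun he' i
      beta_reduce at h2
      have h3 := hy4 i
      rcases hε1 i with e | e <;> rw [e] at h2 <;> by_cases hi : i ∈ S <;> by_cases hi' : i ∈ S' <;>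
        simp only [hi, hi', if_true, if_false] at h2 h3 ⊢ <;> omega
    subst hSS
    have h2 := hd4 (fun i => z i - z' i) (by rw [sum_sub_distrib]; omega)
    have h3 := M.add_mem h1 h2
    convert h3 using 1
    funext i
    have h4 := congrFun he' i
    beta_reduce at h4
    rw [Pi.add_apply]
    beta_reduce
    rw [h4]; ring
  refine ⟨ε, hε1, fun x => ?_⟩
  -- the odd vector
  have hum : (fun i => ε i * (1 - 4 * (Pi.single p 1 : κ → ℤ) i)) = u := by
    funext i
    by_cases hi : i = p
    · rw [hi, Pi.single_eq_same, hup]; ring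
    · rw [Pi.single_eq_of_ne hi, hui i hi]; ring
  have hsp : ∑ i, (Pi.single p 1 : κ → ℤ) i = 1 := by simp
  constructor
  · intro hx
    by_cases hpar : x p % 2 = 0
    · have he : ∀ i, x i % 2 = 0 := by
        intro i
        have := h.parity hx i p
        beta_reduce at this
        rcases hε1 i with e | e <;> rcases hε1 p with e' | e' <;> rw [e, e'] at this <;> omega
      obtain ⟨S, z, hS, hz, hxe⟩ := hev x hx he
      refine ⟨0, S, z, hS, ?_, ?_⟩
      · unfold Int.ModEq; omega
      · rw [hxe]; funext i; ring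
    · have he : ∀ i, x i % 2 = 1 := by
        intro i
        have := h.parity hx i p
        beta_reduce at this
        rcases hε1 i with e | e <;> rcases hε1 p with e' | e' <;> rw [e, e'] at this <;> omega
      have h1 := M.sub_mem hx hu
      have h2 : (fun i => ε i * x i) - u =
          fun i => ε i * (x i - (1 - 4 * (Pi.single p 1 : κ → ℤ) i)) := by
        rw [← hum]
        funext i
        rw [Pi.sub_apply]; ring
      rw [h2] at h1
      obtain ⟨S, z, hS, hz, hxe⟩ := hev _ h1 (by
        intro i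
        have := he i
        beta_reduce
        omega)
      refine ⟨1, S, fun i => z i - (Pi.single p 1 : κ → ℤ) i, hS, ?_, ?_⟩
      · rw [sum_sub_distrib, hsp]
        unfold Int.ModEq; omega
      · funext i
        have := congrFun hxe i
        beta_reduce at this
        linarith
  · rintro ⟨m, S, z, hS, hz, rfl⟩
    have h1 := hcode S (fun i => z i + m * (Pi.single p 1 : κ → ℤ) i) hS (by
      rw [sum_add_distrib, ← mul_sum, hsp]
      unfold Int.ModEq at hz
      omega)
    have h2 := M.add_mem h1 (M.zsmul_mem hu m)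
    convert h2 using 1
    funext i
    rw [Pi.add_apply, Pi.smul_apply, ← hum, smul_eq_mul]
    beta_reduce
    ring

end IsM
end CfsgL.Lat
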